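import Cfsg.Agent.Helper49.JComp2

/-!
Helper49: `J(T)`-components, part 3: `Ω₁(Z(J))` centralizes `O₂(K)`, meets `W_K` in a subgroup
of order two and is the product of its intersections with `Z(KJ)` and with `W_K`.
-/

set_option autoImplicit false

namespace Cfsg.Agent.Helper49

open scoped commutatorElement
open Cfsg.Agent.Helper10 Cfsg.Agent.Helper47

variable {G : Type*} [Group G] {K J : Subgroup G}

/-- A `J(T)`-component in the sense of the definition gives the data `JC`. -/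
theorem JC.of_isJComponent {T K : Subgroup G} (hT : IsPGroup 2 T)
    (hK : Cfsg.IsJComponent T K) : JC K (Cfsg.thompsonSubgroupOf 2 T) :=
  ⟨hT.to_le (thompsonOf_le_self 2 T), hK.1, hK.2.1, hK.2.2.1, hK.2.2.2.1, hK.2.2.2.2.1,
    hK.2.2.2.2.2⟩

namespace JC

variable [Finite G]

theorem exists_k0 (h : JC K J) : ∃ k₀ ∈ K, k₀ ∉ Cfsg.pCoreOf 2 K := by
  by_contra hcon
  push Not at hcon
  have h1 : (Cfsg.pCoreOf 2 K).relIndex K = 1 := Subgroup.relIndex_eq_one.mpr hcon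
  rw [h.idx] at h1
  norm_num at h1

theorem exists_a (h : JC K J) : ∃ a ∈ J, a ∉ Subgroup.centralizer (Cfsg.wOf K : Set G) :=
  SetLike.not_le_iff_exists.mp h.J_not_central

/-- a subgroup containing `O₂(K)` and an element of `K` outside it contains `K` -/
theorem K_le_of (h : JC K J) {H : Subgroup G} (hQ : Cfsg.pCoreOf 2 K ≤ H) {k₀ : G}
    (hk₀ : k₀ ∈ K) (hk₀Q : k₀ ∉ Cfsg.pCoreOf 2 K) (hk₀H : k₀ ∈ H) : K ≤ H := by
  have hQC : Cfsg.pCoreOf 2 K ≤ K ⊓ H := le_inf h.Q_le hQ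
  have hCK : K ⊓ H ≤ K := inf_le_left
  have hmul := Subgroup.relIndex_mul_relIndex _ _ _ hQC hCK
  rw [h.idx] at hmul
  have hne : (Cfsg.pCoreOf 2 K).relIndex (K ⊓ H) ≠ 1 := by
    intro h1
    rw [Subgroup.relIndex_eq_one] at h1
    exact hk₀Q (h1 (Subgroup.mem_inf.mpr ⟨hk₀, hk₀H⟩))
  have hdvd : (Cfsg.pCoreOf 2 K).relIndex (K ⊓ H) ∣ 3 := Dvd.intro _ hmul
  have h3 : (Cfsg.pCoreOf 2 K).relIndex (K ⊓ H) = 3 := by
    rcases (Nat.dvd_prime Nat.prime_three).mp hdvd with h' | h'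
    · exact absurd h' hne
    · exact h'
  rw [h3] at hmul
  have h1 : (K ⊓ H).relIndex K = 1 := by omega
  exact (Subgroup.relIndex_eq_one.mp h1).trans inf_le_right

theorem Z0_comm_W (h : JC K J) {z : G} (hz : z ∈ Cfsg.omegaCenterOf J) :
    ∀ w ∈ Cfsg.wOf K, w * z = z * w :=
  fun w hw => h.Z0_comm hz w (h.W_le_J hw)

theorem t_mem (h : JC K J) {z : G} (hz : z ∈ Cfsg.omegaCenterOf J) {k : G} (hk : k ∈ K) :
    k * z * k⁻¹ * z⁻¹ ∈ Cfsg.wOf K :=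
  h.K_acts hk (h.Z0_le_D hz)

theorem t_conj (h : JC K J) {z : G} (hz : z ∈ Cfsg.omegaCenterOf J) {k q : G} (hk : k ∈ K)
    (hq : q ∈ Cfsg.pCoreOf 2 K) :
    (k * q * k⁻¹) * z * (k * q * k⁻¹)⁻¹ * z⁻¹ = k * (q * z * q⁻¹ * z⁻¹) * k⁻¹ := by
  have hsW : k⁻¹ * z * k * z⁻¹ ∈ Cfsg.wOf K := by
    have := h.t_mem hz (K.inv_mem hk)
    simpa using this
  have huW : q * z * q⁻¹ * z⁻¹ ∈ Cfsg.wOf K := h.t_mem hz (h.Q_le hq)
  have hqs : q * (k⁻¹ * z * k * z⁻¹) = (k⁻¹ * z * k * z⁻¹) * q :=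
    ((Subgroup.mem_centralizer_iff.mp (h.Q_le_centW hq)) _ hsW).symm
  have hsu : (k⁻¹ * z * k * z⁻¹) * (q * z * q⁻¹ * z⁻¹) =
      (q * z * q⁻¹ * z⁻¹) * (k⁻¹ * z * k * z⁻¹) := h.W_comm _ hsW _ huW
  calc (k * q * k⁻¹) * z * (k * q * k⁻¹)⁻¹ * z⁻¹
      = k * ((q * (k⁻¹ * z * k * z⁻¹)) * z * q⁻¹ * z⁻¹ * (k⁻¹ * z * k * z⁻¹)⁻¹) * k⁻¹ := by group
    _ = k * (((k⁻¹ * z * k * z⁻¹) * q) * z * q⁻¹ * z⁻¹ * (k⁻¹ * z * k * z⁻¹)⁻¹) * k⁻¹ := by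
        rw [hqs]
    _ = k * (((k⁻¹ * z * k * z⁻¹) * (q * z * q⁻¹ * z⁻¹)) * (k⁻¹ * z * k * z⁻¹)⁻¹) * k⁻¹ := by
        group
    _ = k * (((q * z * q⁻¹ * z⁻¹) * (k⁻¹ * z * k * z⁻¹)) * (k⁻¹ * z * k * z⁻¹)⁻¹) * k⁻¹ := by
        rw [hsu]
    _ = k * (q * z * q⁻¹ * z⁻¹) * k⁻¹ := by group

/-- `Ω₁(Z(J))` centralizes `O₂(K)`. -/
theorem Q_comm_Z0 (h : JC K J) {z : G} (hz : z ∈ Cfsg.omegaCenterOf J) :
    ∀ q ∈ Cfsg.pCoreOf 2 K, q * z * q⁻¹ * z⁻¹ = 1 := by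
  obtain ⟨w₀, hw₀, hw₀1, hfix⟩ := h.exists_w0
  obtain ⟨a, haJ, haC⟩ := h.exists_a
  obtain ⟨k₀, hk₀, hk₀Q⟩ := h.exists_k0
  have haz : a * z = z * a := h.Z0_comm hz a haJ
  have key : ∀ q ∈ Cfsg.pCoreOf 2 K, q * z * q⁻¹ * z⁻¹ = 1 ∨ q * z * q⁻¹ * z⁻¹ = w₀ := by
    intro q hq
    have htW : q * z * q⁻¹ * z⁻¹ ∈ Cfsg.wOf K := h.t_mem hz (h.Q_le hq)
    have hqN : q ∈ Subgroup.normalizer (J : Set G) := by
      have h1 : jcS K J ≤ Subgroup.normalizer (Cfsg.thompsonSubgroupOf 2 (jcS K J) : Set G) :=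
        Subgroup.le_normalizer.trans (normalizer_le_normalizer_thompsonOf 2 _)
      rw [h.thomS] at h1
      exact h1 (h.Q_le_S hq)
    have ha' : q⁻¹ * a * q ∈ J := conj_inv_mem_of_mem_normalizer hqN haJ
    have h2 : (q⁻¹ * a * q) * z = z * (q⁻¹ * a * q) := h.Z0_comm hz _ ha'
    have h3 : a * (q * z * q⁻¹) = (q * z * q⁻¹) * a := by
      calc a * (q * z * q⁻¹) = q * ((q⁻¹ * a * q) * z) * q⁻¹ := by group
        _ = q * (z * (q⁻¹ * a * q)) * q⁻¹ := by rw [h2]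
        _ = (q * z * q⁻¹) * a := by group
    have h4 : a * (q * z * q⁻¹ * z⁻¹) * a⁻¹ = q * z * q⁻¹ * z⁻¹ := by
      have hazi : a * z⁻¹ = z⁻¹ * a := (Commute.inv_right (show Commute a z from haz)).eq
      calc a * (q * z * q⁻¹ * z⁻¹) * a⁻¹ = (a * (q * z * q⁻¹)) * z⁻¹ * a⁻¹ := by group
        _ = ((q * z * q⁻¹) * a) * z⁻¹ * a⁻¹ := by rw [h3]
        _ = (q * z * q⁻¹) * (a * z⁻¹) * a⁻¹ := by group
        _ = (q * z * q⁻¹) * (z⁻¹ * a) * a⁻¹ := by rw [hazi]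
        _ = q * z * q⁻¹ * z⁻¹ := by group
    exact h.fix_of_not_central hw₀ hw₀1 hfix (h.J_le_S haJ) haC _ htW h4
  intro q hq
  rcases key q hq with h1 | h1
  · exact h1
  · exfalso
    have hq' : k₀ * q * k₀⁻¹ ∈ Cfsg.pCoreOf 2 K :=
      conj_mem_of_mem_normalizer (h.normK_le_normQ (Subgroup.le_normalizer hk₀)) hq
    have h2 := h.t_conj hz hk₀ hq
    rw [h1] at h2
    rcases key _ hq' with h3 | h3
    · rw [h3] at h2
      apply hw₀1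
      have e : w₀ = k₀⁻¹ * (k₀ * w₀ * k₀⁻¹) * k₀ := by group
      rw [e, ← h2]; group
    · rw [h3] at h2
      exact hw₀1 (h.K_moves hk₀ hk₀Q w₀ hw₀ h2.symm)

/-- Every `z ∈ Ω₁(Z(J))` is `c w` with `c ∈ Ω₁(Z(J)) ∩ Z(KJ)` and `w ∈ Ω₁(Z(J)) ∩ W`. -/
theorem Z0_decomp (h : JC K J) {z : G} (hz : z ∈ Cfsg.omegaCenterOf J) :
    ∃ w ∈ Cfsg.omegaCenterOf J ⊓ Cfsg.wOf K, z * w ∈ Cfsg.omegaCenterOf J ∧
      K ⊔ J ≤ Subgroup.centralizer ({z * w} : Set G) := by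
  obtain ⟨w₀, hw₀, hw₀1, hfix⟩ := h.exists_w0
  obtain ⟨a, haJ, haC⟩ := h.exists_a
  obtain ⟨k₀, hk₀, hk₀Q⟩ := h.exists_k0
  have hk₀N : k₀ ∈ Subgroup.normalizer (Cfsg.wOf K : Set G) :=
    h.normK_le_normW (Subgroup.le_normalizer hk₀)
  have hs₀W : k₀ * z * k₀⁻¹ * z⁻¹ ∈ Cfsg.wOf K := h.t_mem hz hk₀
  let f : ↥(Cfsg.wOf K) → ↥(Cfsg.wOf K) := fun w =>
    ⟨(w : G) * (k₀ * w * k₀⁻¹)⁻¹,
      Subgroup.mul_mem _ w.2 (Subgroup.inv_mem _ (conj_mem_of_mem_normalizer hk₀N w.2))⟩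
  have hinj : Function.Injective f := by
    intro x x' hxx'
    have e : (x : G) * (k₀ * x * k₀⁻¹)⁻¹ = (x' : G) * (k₀ * x' * k₀⁻¹)⁻¹ :=
      congrArg Subtype.val hxx'
    have e2 : (x' : G)⁻¹ * x = (k₀ * x' * k₀⁻¹)⁻¹ * (k₀ * x * k₀⁻¹) := by
      calc (x' : G)⁻¹ * x
          = (x' : G)⁻¹ * ((x : G) * (k₀ * x * k₀⁻¹)⁻¹) * (k₀ * x * k₀⁻¹) := by group
        _ = (x' : G)⁻¹ * ((x' : G) * (k₀ * x' * k₀⁻¹)⁻¹) * (k₀ * x * k₀⁻¹) := by rw [e]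
        _ = (k₀ * x' * k₀⁻¹)⁻¹ * (k₀ * x * k₀⁻¹) := by group
    have hfixed : k₀ * ((x' : G)⁻¹ * x) * k₀⁻¹ = (x' : G)⁻¹ * x := by
      calc k₀ * ((x' : G)⁻¹ * x) * k₀⁻¹ = (k₀ * x' * k₀⁻¹)⁻¹ * (k₀ * x * k₀⁻¹) := by group
        _ = (x' : G)⁻¹ * x := e2.symm
    have h1 := h.K_moves hk₀ hk₀Q _ (Subgroup.mul_mem _ (Subgroup.inv_mem _ x'.2) x.2) hfixed
    exact Subtype.ext (inv_mul_eq_one.mp h1).symm
  obtain ⟨w, hw⟩ := (Finite.injective_iff_surjective.mp hinj) ⟨_, hs₀W⟩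
  have hw' : (w : G) * (k₀ * w * k₀⁻¹)⁻¹ = k₀ * z * k₀⁻¹ * z⁻¹ := congrArg Subtype.val hw
  have hzW : ∀ x ∈ Cfsg.wOf K, x * z = z * x := h.Z0_comm_W hz
  have hwz : (w : G) * z = z * w := hzW w w.2
  have hw1z : (k₀ * w * k₀⁻¹)⁻¹ * z = z * (k₀ * w * k₀⁻¹)⁻¹ :=
    hzW _ (Subgroup.inv_mem _ (conj_mem_of_mem_normalizer hk₀N w.2))
  have hc_k₀ : k₀ * (z * w) * k₀⁻¹ = z * w := by
    calc k₀ * (z * w) * k₀⁻¹ = (k₀ * z * k₀⁻¹ * z⁻¹) * z * (k₀ * w * k₀⁻¹) := by group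
      _ = ((w : G) * (k₀ * w * k₀⁻¹)⁻¹) * z * (k₀ * w * k₀⁻¹) := by rw [hw']
      _ = (w : G) * ((k₀ * w * k₀⁻¹)⁻¹ * z) * (k₀ * w * k₀⁻¹) := by group
      _ = (w : G) * (z * (k₀ * w * k₀⁻¹)⁻¹) * (k₀ * w * k₀⁻¹) := by rw [hw1z]
      _ = (w : G) * z := by group
      _ = z * w := hwz
  have hQc : Cfsg.pCoreOf 2 K ≤ Subgroup.centralizer ({z * (w : G)} : Set G) := by
    intro q hq
    rw [Subgroup.mem_centralizer_singleton_iff]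
    have h1 : q * z = z * q := by
      have := h.Q_comm_Z0 hz q hq
      have e : q * z = (q * z * q⁻¹ * z⁻¹) * z * q := by group
      rw [e, this, one_mul]
    have h2 : q * (w : G) = w * q :=
      ((Subgroup.mem_centralizer_iff.mp (h.Q_le_centW hq)) w w.2).symm
    calc q * (z * w) = (q * z) * w := by group
      _ = (z * q) * w := by rw [h1]
      _ = z * (q * w) := by group
      _ = z * (w * q) := by rw [h2]
      _ = z * w * q := by group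
  have hk₀c : k₀ ∈ Subgroup.centralizer ({z * (w : G)} : Set G) := by
    rw [Subgroup.mem_centralizer_singleton_iff]
    exact (conj_eq_iff_comm.mp hc_k₀).symm
  have hKc : K ≤ Subgroup.centralizer ({z * (w : G)} : Set G) := h.K_le_of hQc hk₀ hk₀Q hk₀c
  -- `w` is fixed by `a`
  have haN : a ∈ Subgroup.normalizer (K : Set G) := h.J_le_normK haJ
  have haz : a * z = z * a := h.Z0_comm hz a haJ
  have hk₀' : (a⁻¹ * k₀ * a) * (z * w) = (z * w) * (a⁻¹ * k₀ * a) :=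
    Subgroup.mem_centralizer_singleton_iff.mp (hKc (conj_inv_mem_of_mem_normalizer haN hk₀))
  have hk₀c' : k₀ * (z * w) = (z * w) * k₀ := Subgroup.mem_centralizer_singleton_iff.mp hk₀c
  have hu : k₀ * ((w : G)⁻¹ * (a * w * a⁻¹)) * k₀⁻¹ = (w : G)⁻¹ * (a * w * a⁻¹) := by
    have e1 : (w : G)⁻¹ * (a * w * a⁻¹) = (z * w)⁻¹ * (a * (z * w) * a⁻¹) := by
      calc (w : G)⁻¹ * (a * w * a⁻¹) = (z * w)⁻¹ * ((z * a) * w * a⁻¹) := by group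
        _ = (z * w)⁻¹ * ((a * z) * w * a⁻¹) := by rw [haz]
        _ = (z * w)⁻¹ * (a * (z * w) * a⁻¹) := by group
    have e2 : k₀ * (a * (z * w) * a⁻¹) = (a * (z * w) * a⁻¹) * k₀ := by
      calc k₀ * (a * (z * w) * a⁻¹) = a * ((a⁻¹ * k₀ * a) * (z * w)) * a⁻¹ := by group
        _ = a * ((z * w) * (a⁻¹ * k₀ * a)) * a⁻¹ := by rw [hk₀']
        _ = (a * (z * w) * a⁻¹) * k₀ := by group
    have e3 : k₀ * (z * w)⁻¹ = (z * w)⁻¹ * k₀ :=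
      (Commute.inv_right (show Commute k₀ (z * w) from hk₀c')).eq
    rw [e1]
    calc k₀ * ((z * w)⁻¹ * (a * (z * w) * a⁻¹)) * k₀⁻¹
        = (k₀ * (z * w)⁻¹) * (a * (z * w) * a⁻¹) * k₀⁻¹ := by group
      _ = ((z * w)⁻¹ * k₀) * (a * (z * w) * a⁻¹) * k₀⁻¹ := by rw [e3]
      _ = (z * w)⁻¹ * (k₀ * (a * (z * w) * a⁻¹)) * k₀⁻¹ := by group
      _ = (z * w)⁻¹ * ((a * (z * w) * a⁻¹) * k₀) * k₀⁻¹ := by rw [e2]
      _ = (z * w)⁻¹ * (a * (z * w) * a⁻¹) := by group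
  have hawW : a * w * a⁻¹ ∈ Cfsg.wOf K :=
    conj_mem_of_mem_normalizer (h.S_le_normW (h.J_le_S haJ)) w.2
  have hu1 := h.K_moves hk₀ hk₀Q _ (Subgroup.mul_mem _ (Subgroup.inv_mem _ w.2) hawW) hu
  have haw : a * w * a⁻¹ = w := (inv_mul_eq_one.mp hu1).symm
  have hw₀Z : w₀ ∈ Cfsg.omegaCenterOf J :=
    mem_omegaCenterOf (h.W_le_J hw₀)
      (fun y hy => (conj_eq_iff_comm.mp (hfix y (h.J_le_S hy))).symm)
      (by rw [pow_two]; exact h.sq w₀ hw₀)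
  have hwZ : (w : G) ∈ Cfsg.omegaCenterOf J := by
    rcases h.fix_of_not_central hw₀ hw₀1 hfix (h.J_le_S haJ) haC w w.2 haw with h1 | h1
    · rw [h1]; exact Subgroup.one_mem _
    · rw [h1]; exact hw₀Z
  have hzwZ : z * (w : G) ∈ Cfsg.omegaCenterOf J := Subgroup.mul_mem _ hz hwZ
  refine ⟨w, Subgroup.mem_inf.mpr ⟨hwZ, w.2⟩, hzwZ, sup_le hKc ?_⟩
  intro j hj
  rw [Subgroup.mem_centralizer_singleton_iff]
  exact h.Z0_comm hzwZ j hj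

theorem card_Z0_inf_W (h : JC K J) :
    Nat.card (Cfsg.omegaCenterOf J ⊓ Cfsg.wOf K : Subgroup G) = 2 := by
  obtain ⟨w₀, hw₀, hw₀1, hfix⟩ := h.exists_w0
  obtain ⟨a, haJ, haC⟩ := h.exists_a
  have hw₀Z : w₀ ∈ Cfsg.omegaCenterOf J :=
    mem_omegaCenterOf (h.W_le_J hw₀)
      (fun y hy => (conj_eq_iff_comm.mp (hfix y (h.J_le_S hy))).symm)
      (by rw [pow_two]; exact h.sq w₀ hw₀)
  have heq : Cfsg.omegaCenterOf J ⊓ Cfsg.wOf K = Subgroup.zpowers w₀ := by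
    apply le_antisymm
    · intro u hu
      obtain ⟨huZ, huW⟩ := Subgroup.mem_inf.mp hu
      have hau : a * u * a⁻¹ = u := by
        rw [h.Z0_comm huZ a haJ]; group
      rcases h.fix_of_not_central hw₀ hw₀1 hfix (h.J_le_S haJ) haC u huW hau with h1 | h1
      · rw [h1]; exact Subgroup.one_mem _
      · rw [h1]; exact Subgroup.mem_zpowers w₀
    · rw [Subgroup.zpowers_le]
      exact Subgroup.mem_inf.mpr ⟨hw₀Z, hw₀⟩
  rw [heq, Nat.card_zpowers]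
  exact orderOf_eq_prime (by rw [pow_two]; exact h.sq w₀ hw₀) hw₀1

/-- `Ω₁(Z(J)) = (Ω₁(Z(J)) ∩ Z(KJ)) (Ω₁(Z(J)) ∩ W)`. -/
theorem Z0_eq (h : JC K J) :
    (Cfsg.omegaCenterOf J ⊓ ((K ⊔ J) ⊓ Subgroup.centralizer ((K ⊔ J : Subgroup G) : Set G))) ⊔
      (Cfsg.omegaCenterOf J ⊓ Cfsg.wOf K) = Cfsg.omegaCenterOf J := by
  apply le_antisymm (sup_le inf_le_left inf_le_left)
  intro z hz
  obtain ⟨w, hw, hzw, hc⟩ := h.Z0_decomp hz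
  have hwinv : w⁻¹ ∈ Cfsg.omegaCenterOf J ⊓ Cfsg.wOf K := Subgroup.inv_mem _ hw
  have e : z = (z * w) * w⁻¹ := by group
  rw [e]
  refine Subgroup.mul_mem_sup (Subgroup.mem_inf.mpr ⟨hzw, Subgroup.mem_inf.mpr ⟨?_, ?_⟩⟩) hwinv
  · exact (le_sup_right : J ≤ K ⊔ J) (h.Z0_le_J hzw)
  · rw [Subgroup.mem_centralizer_iff]
    intro x hx
    exact Subgroup.mem_centralizer_singleton_iff.mp (hc hx)

/-- The same with the centralizer of the union of the two carriers (as the statement S2946 has it). -/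
theorem Z0_eq' (h : JC K J) :
    (Cfsg.omegaCenterOf J ⊓ ((K ⊔ J) ⊓ Subgroup.centralizer ((K : Set G) ⊔ (J : Set G)))) ⊔
      (Cfsg.omegaCenterOf J ⊓ Cfsg.wOf K) = Cfsg.omegaCenterOf J := by
  apply le_antisymm (sup_le inf_le_left inf_le_left)
  intro z hz
  obtain ⟨w, hw, hzw, hc⟩ := h.Z0_decomp hz
  have hwinv : w⁻¹ ∈ Cfsg.omegaCenterOf J ⊓ Cfsg.wOf K := Subgroup.inv_mem _ hw
  have e : z = (z * w) * w⁻¹ := by group
  rw [e]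
  refine Subgroup.mul_mem_sup (Subgroup.mem_inf.mpr ⟨hzw, Subgroup.mem_inf.mpr ⟨?_, ?_⟩⟩) hwinv
  · exact (le_sup_right : J ≤ K ⊔ J) (h.Z0_le_J hzw)
  · rw [Subgroup.mem_centralizer_iff]
    intro x hx
    rcases hx with hx | hx
    · exact Subgroup.mem_centralizer_singleton_iff.mp (hc (Subgroup.mem_sup_left hx))
    · exact Subgroup.mem_centralizer_singleton_iff.mp (hc (Subgroup.mem_sup_right hx))

end JC


end Cfsg.Agent.Helper49
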