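import Mathlib
import Cfsg.Agent.Helper15.B42Defs
import Cfsg.Agent.Helper77.D1Final
import Cfsg.Agent.Helper29.D1IL
import Cfsg.Agent.Helper79.S4441Setup
import Cfsg.Agent.Helper79.Basic
import Cfsg.Agent.Helper81.CharBasic
import Cfsg.Agent.Helper3.Induced
import Cfsg.Agent.Helper3.Frobenius

/-!
# CALL S4503 (helper15), piece VALX (helper49)

The value at `x` of an irreducible character `χ₁` of small degree not having `x` in its kernel:
`χ₁` lies in some `blkTheta K x θ`, it is an exceptional character there, and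
`χ₁ x = ε θ(1) ∑_{s ∈ F} ζ ^ (s l₀)`.
-/

universe u
set_option autoImplicit false
open Cfsg Cfsg.Agent.Helper77 Cfsg.Agent.Helper15
open scoped ComplexConjugate

namespace Cfsg.Agent.Helper49

variable {G : Type u} [Group G] [Finite G]

/-- `k ↦ χ (x k)` is a class function of `K`; expanding it at `k = 1` shows that a character
with `χ x ≠ 0` lies in some `blkTheta K x θ`. -/
theorem b42vx_exists_theta (p : ℕ) (x : G) (K : Subgroup G) (h : D1Hyp p x K)
    (χ : Cfsg.IrrCharacter G) (hχ : (χ : G → ℂ) x ≠ 0) :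
    ∃ θ : Cfsg.IrrCharacter K, χ ∈ blkTheta K x (θ : K → ℂ) := by
  classical
  letI : Fintype K := Fintype.ofFinite K
  letI : Fintype (Cfsg.IrrCharacter K) := Fintype.ofFinite _
  by_contra hcon
  push_neg at hcon
  have hcl : Cfsg.IsClassFunction K (fun k : K => (χ : G → ℂ) (x * (k : G))) := by
    intro k a
    show (χ : G → ℂ) (x * ((a * k * a⁻¹ : K) : G)) = (χ : G → ℂ) (x * (k : G))
    have hax : (a : G) * x = x * (a : G) := (h.hC a).2 ⟨0, a, a.2, by simp⟩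
    have e1 : x * ((a * k * a⁻¹ : K) : G) = (a : G) * (x * (k : G)) * (a : G)⁻¹ := by
      rw [Subgroup.coe_mul, Subgroup.coe_mul, Subgroup.coe_inv]
      rw [← mul_assoc, ← mul_assoc, ← hax, mul_assoc (a : G) x]
    rw [e1, Helper81.irr_conj]
  have hsum := Helper3.classFunction_eq_sum _ hcl
  have h1 := congrFun hsum 1
  rw [Finset.sum_apply] at h1
  have hz : ∀ θ : Cfsg.IrrCharacter K,
      Cfsg.classInner (fun k : K => (χ : G → ℂ) (x * (k : G))) (θ : K → ℂ) = 0 := by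
    intro θ
    have h2 : dco K (θ : K → ℂ) (χ : G → ℂ) x = 0 := by
      by_contra h3
      exact hcon θ h3
    rw [dco, finsum_eq_sum_of_fintype] at h2
    exact h2
  apply hχ
  have h4 : (χ : G → ℂ) x = (χ : G → ℂ) (x * ((1 : K) : G)) := by
    rw [Subgroup.coe_one, mul_one]
  rw [h4]
  refine h1.trans ?_
  apply Finset.sum_eq_zero
  intro θ _
  rw [Pi.smul_apply, hz θ, zero_smul]

/-- VALX -/
theorem b42_value_x (p : ℕ) [Fact p.Prime] (x : G) (K : Subgroup G) (h : D1Hyp p x K)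
    (hstrong : B42StrongStmt G p)
    (hint : ∀ χ : G → ℂ, Cfsg.IsCharacter G χ → ∀ r : ℤ, χ x = (r : ℂ) →
      χ x = χ 1 ∨ p - 1 ≤ Cfsg.charDegree χ)
    (χ₁ : Cfsg.IrrCharacter G) (hker : (χ₁ : G → ℂ) x ≠ (χ₁ : G → ℂ) 1)
    (hsmall : 2 * Cfsg.charDegree (χ₁ : G → ℂ) + 1 < p) :
    ∃ (θ : Cfsg.IrrCharacter K) (l₀ : ZMod p) (ε : ℤ), l₀ ≠ 0 ∧ (ε = 1 ∨ ε = -1) ∧
      (χ₁ : G → ℂ) x = (ε : ℂ) * (Cfsg.charDegree (θ : K → ℂ) : ℂ)
        * ∑ᶠ s ∈ normUnits p x, d1zeta p ^ (((s : (ZMod p)ˣ) : ZMod p) * l₀).val := by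
  classical
  have hp : p.Prime := Fact.out
  have hnotint : ∀ r : ℤ, (χ₁ : G → ℂ) x ≠ (r : ℂ) := by
    intro r hr
    rcases hint _ (Helper79.irr_isCharacter χ₁) r hr with h1 | h1
    · exact hker h1
    · omega
  have hne0 : (χ₁ : G → ℂ) x ≠ 0 := by
    intro h0
    exact hnotint 0 (by rw [h0]; simp)
  obtain ⟨θ, hθ⟩ := b42vx_exists_theta p x K h χ₁ hne0
  obtain ⟨X, Y, c, ε, hXY, hdisj, hXcard, hYne, hc, hε, hXval, hYval, hdeg⟩ := hstrong x K h θ
  obtain ⟨E, F, hE, hF, hEF⟩ := Helper29.d1_units p x K h θ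
  have hval := Helper55.d1_value_at_x p (Helper75.d1_cc p) (Helper74.d1_inj p) x K h θ χ₁ hθ
  have hecard : Nat.card (stabUnits p x K (θ : K → ℂ)) = Nat.card E := by
    rw [← hE]; rfl
  have hepos : 0 < Nat.card E := Nat.card_pos
  have hdvd : Nat.card E ∣ Nat.card F := Subgroup.card_dvd_of_le hEF
  rw [hecard] at hval
  letI : Fintype E := Fintype.ofFinite E
  letI : Fintype F := Fintype.ofFinite F
  have hFsum : ∀ g : (ZMod p)ˣ → ℂ,
      ∑ᶠ u ∈ normUnits p x, g u = ∑ u : F, g (u : (ZMod p)ˣ) := by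
    intro g
    rw [← hF]
    exact (finsum_set_coe_eq_finsum_mem (F : Set (ZMod p)ˣ)).symm.trans
      (finsum_eq_sum_of_fintype _)
  have hEsum : ∀ g : (ZMod p)ˣ → ℂ,
      ∑ᶠ u ∈ stabUnits p x K (θ : K → ℂ), g u = ∑ u : E, g (u : (ZMod p)ˣ) := by
    intro g
    rw [← hE]
    exact (finsum_set_coe_eq_finsum_mem (E : Set (ZMod p)ˣ)).symm.trans
      (finsum_eq_sum_of_fintype _)
  have hθ1 : (θ : K → ℂ) 1 = (Cfsg.charDegree (θ : K → ℂ) : ℂ) :=
    Helper81.irr_one_eq_charDegree θ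
  have hEne : (Nat.card E : ℂ) ≠ 0 := by exact_mod_cast hepos.ne'
  rw [hFsum, hθ1] at hval
  rcases (hXY χ₁).2 hθ with hX | hY
  · -- non-exceptional: the value is an integer
    exfalso
    obtain ⟨m, hm⟩ := hdvd
    have e1 : ∑ u : F, dco K (θ : K → ℂ) (χ₁ : G → ℂ) (x ^ ((u : (ZMod p)ˣ) : ZMod p).val)
        = (Nat.card F : ℂ) * (c χ₁ : ℂ) := by
      have e0 : ∀ u : F, dco K (θ : K → ℂ) (χ₁ : G → ℂ) (x ^ ((u : (ZMod p)ˣ) : ZMod p).val)
          = (c χ₁ : ℂ) := fun u => hXval χ₁ hX _ (Units.ne_zero _)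
      rw [Finset.sum_congr rfl (fun u _ => e0 u)]
      rw [Finset.sum_const, Finset.card_univ, nsmul_eq_mul, Nat.card_eq_fintype_card]
    rw [e1, hm] at hval
    apply hnotint ((Cfsg.charDegree (θ : K → ℂ) : ℤ) * (m : ℤ) * c χ₁)
    apply mul_left_cancel₀ hEne
    rw [hval]
    push_cast
    ring
  · obtain ⟨l₀, hl₀, hYv⟩ := hYval χ₁ hY
    refine ⟨θ, l₀, ε, hl₀, hε, ?_⟩
    rw [hFsum]
    have e1 : ∑ u : F, dco K (θ : K → ℂ) (χ₁ : G → ℂ) (x ^ ((u : (ZMod p)ˣ) : ZMod p).val)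
        = (ε : ℂ) * ((Nat.card E : ℂ)
          * ∑ u : F, d1zeta p ^ (((u : (ZMod p)ˣ) : ZMod p) * l₀).val) := by
      have e2 : ∀ u : F, dco K (θ : K → ℂ) (χ₁ : G → ℂ) (x ^ ((u : (ZMod p)ˣ) : ZMod p).val)
          = (ε : ℂ) * ∑ s : E,
              d1zeta p ^ ((((u : (ZMod p)ˣ) * (s : (ZMod p)ˣ) : (ZMod p)ˣ) : ZMod p) * l₀).val := by
        intro u
        rw [hYv ((u : (ZMod p)ˣ) : ZMod p) (Units.ne_zero _), hEsum]
        congr 1
      rw [Finset.sum_congr rfl (fun u _ => e2 u), ← Finset.mul_sum, Finset.sum_comm]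
      congr 1
      have e3 : ∀ s : E, ∑ u : F,
          d1zeta p ^ ((((u : (ZMod p)ˣ) * (s : (ZMod p)ˣ) : (ZMod p)ˣ) : ZMod p) * l₀).val
          = ∑ u : F, d1zeta p ^ (((u : (ZMod p)ˣ) : ZMod p) * l₀).val := by
        intro s
        exact Fintype.sum_equiv (Equiv.mulRight (⟨(s : (ZMod p)ˣ), hEF s.2⟩ : F)) _ _
          (fun u => rfl)
      rw [Finset.sum_congr rfl (fun s _ => e3 s)]
      rw [Finset.sum_const, Finset.card_univ, nsmul_eq_mul, Nat.card_eq_fintype_card]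
    rw [e1] at hval
    apply mul_left_cancel₀ hEne
    rw [hval]
    ring

end Cfsg.Agent.Helper49
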