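import Mathlib
import Cfsg.Agent.Helper90.HTDefs
import Cfsg.Agent.Helper22.HTCWH

set_option autoImplicit false

/-!
# CALL OT piece ISO (helper49): an isotropic vector in a subspace of dimension at least 3.
-/

namespace Cfsg.Agent.Helper49.OT5972

open Module Polynomial Cfsg.Agent.Helper90.HT

universe u

section geom

variable {F : Type*} [Field F] {V : Type*} [AddCommGroup V] [Module F V] [FiniteDimensional F V]
  (h : V → V → F)

/-- ISO: a symmetric form on a subspace of dimension ≥ 3 over a finite field has an isotropic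
vector (`ht_cw` with one equation). -/
theorem ot_iso [Fintype F] (hh : IsHerm (RingHom.id F) h) (U : Submodule F V)
    (hU : 3 ≤ finrank F U) : ∃ v ∈ U, v ≠ 0 ∧ h v v = 0 := by
  obtain ⟨v, hvU, hv0, hv⟩ := Cfsg.Agent.Helper22.HT5953.ht_cw (ι := Unit)
    (fun _ => h) (fun _ u u' v => hh.add_left u u' v) (fun _ u v v' => hh.add_right u v v') U
    (by simp only [Fintype.card_unit]; omega)
  exact ⟨v, hvU, hv0, hv ()⟩

end geom

end Cfsg.Agent.Helper49.OT5972
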