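import Mathlib
import Cfsg.Agent.Helper3.SU2Defs

/-!
helper49: CALL S2412C (helper3), piece EDGE1.
-/

set_option autoImplicit false

namespace Cfsg.Agent.Helper49

open Cfsg.Agent.Helper3.SU2 Cfsg.Agent.Helper13

variable {F : Type*} [Field F] [Fintype F] {n : ℕ}

theorem su2c_edge1 (hF : Fintype.card F = 2 ^ 2) {Φ : Set (Fin n → F)} (hΦ : PhiCl Φ)
    (ω : F) (hω0 : ω ≠ 0) (hω1 : 1 + ω ≠ 0) (hω : 1 + ω + ω ^ 2 = 0)
    (hF4 : ∀ μ : F, μ ≠ 0 → μ = 1 ∨ μ = ω ∨ μ = ω ^ 2)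
    (d : Fin n → F) (hd : ∀ v ∈ Φ, (fun i => d i * v i) ∈ Φ) (p0 p4 : Fin n) (h04 : p0 ≠ p4)
    (hd0 : d p0 = ω) (hd4 : d p4 = ω ^ 2)
    (h : Pi.single p0 (1 : F) + Pi.single p4 (1 : F) ∈ Φ) : Edge Φ p0 p4 := by
  classical
  have h2 : (2 : F) = 0 := ufld2_two hF
  have h40 : ¬ p4 = p0 := fun h => h04 h.symm
  have hω3 : ω ^ 3 = 1 := by linear_combination (ω - 1) * hω
  have hstep : ∀ a b : F,
      (fun i => d i * (a • Pi.single p0 (1 : F) + b • Pi.single p4 (1 : F) : Fin n → F) i)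
        = ((ω * a) • Pi.single p0 (1 : F) + (ω ^ 2 * b) • Pi.single p4 (1 : F) : Fin n → F) := by
    intro a b
    funext k
    simp only [Pi.add_apply, Pi.smul_apply, Pi.single_apply, smul_eq_mul]
    by_cases hk0 : k = p0
    · subst hk0
      rw [if_pos rfl, if_neg h04, hd0]
      ring
    · by_cases hk4 : k = p4
      · subst hk4
        rw [if_neg hk0, if_pos rfl, hd4]
        ring
      · rw [if_neg hk0, if_neg hk4]
        ring
  have hv0 : ((1 : F) • Pi.single p0 (1 : F) + (1 : F) • Pi.single p4 (1 : F) : Fin n → F) ∈ Φ := by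
    rw [one_smul, one_smul]
    exact h
  have hv1 := hd _ hv0
  rw [hstep] at hv1
  have hv2 := hd _ hv1
  rw [hstep] at hv2
  intro μ hμ
  rcases hF4 μ hμ with h1 | h1 | h1
  · rw [h1, one_smul]
    exact h
  · rw [h1]
    have h3 := hΦ.smul ω⁻¹ _ (inv_ne_zero hω0) hv1
    have he : (ω⁻¹ • ((ω * 1) • Pi.single p0 (1 : F) + (ω ^ 2 * 1) • Pi.single p4 (1 : F))
        : Fin n → F) = Pi.single p0 (1 : F) + ω • Pi.single p4 (1 : F) := by
      rw [smul_add, smul_smul, smul_smul]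
      have e1 : ω⁻¹ * (ω * 1) = 1 := by field_simp
      have e2 : ω⁻¹ * (ω ^ 2 * 1) = ω := by field_simp
      rw [e1, e2, one_smul]
    rw [he] at h3
    exact h3
  · rw [h1]
    have hω20 : ω ^ 2 ≠ 0 := pow_ne_zero 2 hω0
    have h3 := hΦ.smul (ω ^ 2)⁻¹ _ (inv_ne_zero hω20) hv2
    have he : ((ω ^ 2)⁻¹ • ((ω * (ω * 1)) • Pi.single p0 (1 : F) +
        (ω ^ 2 * (ω ^ 2 * 1)) • Pi.single p4 (1 : F)) : Fin n → F)
        = Pi.single p0 (1 : F) + ω ^ 2 • Pi.single p4 (1 : F) := by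
      rw [smul_add, smul_smul, smul_smul]
      have e1 : (ω ^ 2)⁻¹ * (ω * (ω * 1)) = 1 := by field_simp
      have e2 : (ω ^ 2)⁻¹ * (ω ^ 2 * (ω ^ 2 * 1)) = ω ^ 2 := by field_simp
      rw [e1, e2, one_smul]
    rw [he] at h3
    exact h3

end Cfsg.Agent.Helper49
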