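import Mathlib
import Cfsg.Agent.Helper3.SU2Defs

/-!
helper49: CALL S2412C (helper3), piece ETRANS: edges are transitive.
-/

set_option autoImplicit false

namespace Cfsg.Agent.Helper49

open Cfsg.Agent.Helper3.SU2 Cfsg.Agent.Helper13

variable {F : Type*} [Field F] [Fintype F] {n : ℕ}

theorem su2c_etrans (hF : Fintype.card F = 2 ^ 2) {Φ : Set (Fin n → F)} (hΦ : PhiCl Φ)
    (i j l : Fin n) (hij : Edge Φ i j) (hjl : Edge Φ j l) : Edge Φ i l := by
  classical
  have h2 : (2 : F) = 0 := ufld2_two hF
  intro μ hμ
  by_cases hil : i = l
  · subst hil
    have hv : (Pi.single i (1 : F) + μ • Pi.single i (1 : F) : Fin n → F)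
        = (1 + μ) • (Pi.single i (1 : F) : Fin n → F) := by module
    rw [hv]
    by_cases h1 : 1 + μ = 0
    · rw [h1, zero_smul]
      exact hΦ.zero
    · apply hΦ.noniso
      rw [uh_smul_left, uh_smul_right hF, uh_single_single hF, if_pos rfl,
        Cfsg.Agent.Helper5.frobQ_apply, mul_one]
      exact mul_ne_zero h1 (pow_ne_zero 2 h1)
  · by_cases hjl' : j = l
    · subst hjl'
      exact hij μ hμ
    · by_cases hij' : i = j
      · subst hij'
        exact hjl μ hμ
      · have hx := hjl 1 one_ne_zero
        have hy := hij μ hμ
        have hlj : ¬ l = j := fun h => hjl' h.symm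
        have hji : ¬ j = i := fun h => hij' h.symm
        have hli : ¬ l = i := fun h => hil h.symm
        have hiso : Cfsg.hermForm n F 2
            (Pi.single j (1 : F) + (1 : F) • Pi.single l (1 : F) : Fin n → F)
            (Pi.single j (1 : F) + (1 : F) • Pi.single l (1 : F) : Fin n → F) = 0 := by
          simp only [uh_add_left, uh_add_right hF, uh_smul_left, uh_smul_right hF,
            uh_single_single hF, map_one, if_true, if_neg hjl', if_neg hlj]
          linear_combination h2
        have hval : Cfsg.hermForm n F 2
            (Pi.single i (1 : F) + μ • Pi.single j (1 : F) : Fin n → F)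
            (Pi.single j (1 : F) + (1 : F) • Pi.single l (1 : F) : Fin n → F) = μ := by
          simp only [uh_add_left, uh_add_right hF, uh_smul_left, uh_smul_right hF,
            uh_single_single hF, map_one, if_true, if_neg hjl', if_neg hij', if_neg hil]
          ring
        have key := hΦ.tv _ _ hx hy hiso
        rw [hval] at key
        have h0 : μ + μ = 0 := by linear_combination μ * h2
        have he : (Pi.single i (1 : F) + μ • Pi.single j (1 : F) +
            μ • (Pi.single j (1 : F) + (1 : F) • Pi.single l (1 : F)) : Fin n → F)
            = Pi.single i (1 : F) + μ • Pi.single l (1 : F) := by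
          calc (Pi.single i (1 : F) + μ • Pi.single j (1 : F) +
              μ • (Pi.single j (1 : F) + (1 : F) • Pi.single l (1 : F)) : Fin n → F)
              = Pi.single i (1 : F) + μ • Pi.single l (1 : F)
                + (μ + μ) • (Pi.single j (1 : F) : Fin n → F) := by module
            _ = Pi.single i (1 : F) + μ • Pi.single l (1 : F) := by
              rw [h0, zero_smul, add_zero]
        rw [he] at key
        exact key

end Cfsg.Agent.Helper49
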