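import Mathlib
import Cfsg.Agent.Helper3.SU2Defs

/-!
helper49: CALL S2412C (helper3), piece KEYZ.
-/

set_option autoImplicit false

namespace Cfsg.Agent.Helper49

open Cfsg.Agent.Helper3.SU2 Cfsg.Agent.Helper13

variable {F : Type*} [Field F] [Fintype F] {n : ℕ}

theorem su2c_keyz (hF : Fintype.card F = 2 ^ 2) {Φ : Set (Fin n → F)} (hΦ : PhiCl Φ)
    (ω : F) (hω0 : ω ≠ 0) (hω1 : 1 + ω ≠ 0) (hω : 1 + ω + ω ^ 2 = 0)
    (p0 p1 p2 p3 : Fin n) (h01 : p0 ≠ p1) (h02 : p0 ≠ p2) (h03 : p0 ≠ p3) (h12 : p1 ≠ p2)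
    (h13 : p1 ≠ p3) (h23 : p2 ≠ p3)
    (hx : ω • Pi.single p0 (1 : F) + Pi.single p1 1 + Pi.single p2 1 + Pi.single p3 1 ∈ Φ)
    (hy : Pi.single p0 (1 : F) + Pi.single p1 1 + Pi.single p2 1 + ω • Pi.single p3 1 ∈ Φ) :
    Pi.single p0 (1 : F) + Pi.single p3 (1 : F) ∈ Φ := by
  classical
  have h2 : (2 : F) = 0 := ufld2_two hF
  have h10 : ¬ p1 = p0 := fun h => h01 h.symm
  have h20 : ¬ p2 = p0 := fun h => h02 h.symm
  have h30 : ¬ p3 = p0 := fun h => h03 h.symm
  have h21 : ¬ p2 = p1 := fun h => h12 h.symm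
  have h31 : ¬ p3 = p1 := fun h => h13 h.symm
  have h32 : ¬ p3 = p2 := fun h => h23 h.symm
  have hiso : Cfsg.hermForm n F 2
      (Pi.single p0 (1 : F) + Pi.single p1 1 + Pi.single p2 1 + ω • Pi.single p3 1 : Fin n → F)
      (Pi.single p0 (1 : F) + Pi.single p1 1 + Pi.single p2 1 + ω • Pi.single p3 1 : Fin n → F)
      = 0 := by
    simp only [uh_add_left, uh_add_right hF, uh_smul_left, uh_smul_right hF,
      uh_single_single hF, Cfsg.Agent.Helper5.frobQ_apply, if_true, if_neg h01, if_neg h02,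
      if_neg h03, if_neg h12, if_neg h13, if_neg h23, if_neg h10, if_neg h20, if_neg h30,
      if_neg h21, if_neg h31, if_neg h32]
    linear_combination (ω - 1) * hω + 2 * h2
  have hval : Cfsg.hermForm n F 2
      (ω • Pi.single p0 (1 : F) + Pi.single p1 1 + Pi.single p2 1 + Pi.single p3 1 : Fin n → F)
      (Pi.single p0 (1 : F) + Pi.single p1 1 + Pi.single p2 1 + ω • Pi.single p3 1 : Fin n → F)
      = 1 := by
    simp only [uh_add_left, uh_add_right hF, uh_smul_left, uh_smul_right hF,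
      uh_single_single hF, Cfsg.Agent.Helper5.frobQ_apply, if_true, if_neg h01, if_neg h02,
      if_neg h03, if_neg h12, if_neg h13, if_neg h23, if_neg h10, if_neg h20, if_neg h30,
      if_neg h21, if_neg h31, if_neg h32]
    linear_combination hω
  have key := hΦ.tv _ _ hy hx hiso
  rw [hval] at key
  have he : (ω • Pi.single p0 (1 : F) + Pi.single p1 1 + Pi.single p2 1 + Pi.single p3 1 +
      (1 : F) • (Pi.single p0 (1 : F) + Pi.single p1 1 + Pi.single p2 1 + ω • Pi.single p3 1)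
      : Fin n → F) = (1 + ω) • (Pi.single p0 (1 : F) + Pi.single p3 (1 : F) : Fin n → F) := by
    calc (ω • Pi.single p0 (1 : F) + Pi.single p1 1 + Pi.single p2 1 + Pi.single p3 1 +
        (1 : F) • (Pi.single p0 (1 : F) + Pi.single p1 1 + Pi.single p2 1 + ω • Pi.single p3 1)
        : Fin n → F)
        = (1 + ω) • (Pi.single p0 (1 : F) + Pi.single p3 (1 : F) : Fin n → F)
          + (2 : F) • (Pi.single p1 (1 : F) + Pi.single p2 (1 : F) : Fin n → F) := by module
      _ = (1 + ω) • (Pi.single p0 (1 : F) + Pi.single p3 (1 : F) : Fin n → F) := by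
        rw [h2, zero_smul, add_zero]
  rw [he] at key
  have key2 := hΦ.smul (1 + ω)⁻¹ _ (inv_ne_zero hω1) key
  rw [inv_smul_smul₀ hω1] at key2
  exact key2

end Cfsg.Agent.Helper49
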