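import Mathlib

/-!
# CALL S5980 (helper98), piece NTO (helper49)
-/

set_option autoImplicit false

namespace Cfsg.Agent.Helper49.TFNTO

open Matrix Polynomial
open scoped Kronecker

/-! ## Piece NTO -/
theorem exists_odd_order {q r d : ℕ} (hr : r.Prime)
    (hno : ∀ e : ℕ, 0 < e → e ≤ d → ¬ r ∣ q ^ e + 1) (j : ℕ) (hj0 : 0 < j) (hjd : j ≤ d)
    (hj : r ∣ q ^ j - 1) : ∃ i : ℕ, Odd i ∧ 0 < i ∧ i ≤ d ∧ r ∣ q ^ i - 1 := by
  classical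
  have hex : ∃ i : ℕ, 0 < i ∧ r ∣ q ^ i - 1 := ⟨j, hj0, hj⟩
  obtain ⟨hi0, hi⟩ := Nat.find_spec hex
  have hmin : ∀ m : ℕ, m < Nat.find hex → ¬ (0 < m ∧ r ∣ q ^ m - 1) :=
    fun m hm => Nat.find_min hex hm
  have hile : Nat.find hex ≤ j := Nat.find_min' hex ⟨hj0, hj⟩
  refine ⟨Nat.find hex, ?_, hi0, hile.trans hjd, hi⟩
  by_contra hodd
  rw [Nat.not_odd_iff_even] at hodd
  obtain ⟨i', hi'⟩ := hodd
  have hi'0 : 0 < i' := by omega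
  have hfac : q ^ (Nat.find hex) - 1 = (q ^ i' + 1) * (q ^ i' - 1) := by
    rw [hi', ← two_mul, pow_mul']
    have h1 := Nat.sq_sub_sq (q ^ i') 1
    rw [one_pow] at h1
    exact h1
  rw [hfac] at hi
  rcases (Nat.Prime.dvd_mul hr).mp hi with h1 | h1
  · exact hno i' hi'0 (by omega) h1
  · exact hmin i' (by omega) ⟨hi'0, h1⟩

end Cfsg.Agent.Helper49.TFNTO
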