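import Mathlib
import Cfsg.Prelude.Def_OddOrderLocal
import Cfsg.Prelude.Def_CaseTheorems
import Cfsg.Agent.S1448

/-!
# Bender–Glauberman 10.7 (a), (b) from strong control of fusion by `N_G(P)`

`BG107Ctl P`: `N_G(P)` controls strong fusion in `P` (elementwise form).
* `bg107a_focal_le`: the focal subgroup of `P` lies in `[P, N_G(P)]`;
* `bg107a_of_control`: if `G` is perfect then `P = [P, V]` for every complement `V` of `P` in
  `N_G(P)` and `P ≤ N_G(P)'`;
* `bg107a_exists_compl`: Schur–Zassenhaus complement in `N_G(P)`;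
* `bg107b_center_eq`: in a nonabelian group of order `p ^ 3` the commutator subgroup is the centre;
* `bg107b_of_control`: rank-two Sylow subgroups (via `S1448`).
-/

set_option autoImplicit false

namespace Cfsg.Agent.Helper49

open Cfsg Subgroup
open scoped commutatorElement

variable {G : Type*} [Group G]

/-- `N_G(P)` controls strong fusion in `P`. -/
def BG107Ctl (P : Subgroup G) : Prop :=
  ∀ A : Set G, A ⊆ (P : Set G) → ∀ g : G, (∀ a ∈ A, g⁻¹ * a * g ∈ P) →
    ∃ y ∈ Subgroup.normalizer (P : Set G), ∀ a ∈ A, y⁻¹ * a * y = g⁻¹ * a * g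

theorem bg107a_focal_le (P : Subgroup G) (hctl : BG107Ctl P) :
    P.focalSubgroup ≤ ⁅P, Subgroup.normalizer (P : Set G)⁆ := by
  rw [Subgroup.focalSubgroup_def, Subgroup.closure_le]
  rintro g ⟨hgP, x, hxP, u, rfl⟩
  have h1 : u * x⁻¹ * u⁻¹ ∈ P := by
    have : u * x⁻¹ * u⁻¹ = x⁻¹ * ⁅x, u⁆ := by rw [commutatorElement_def]; group
    rw [this]; exact P.mul_mem (P.inv_mem hxP) hgP
  obtain ⟨y, hy, hya⟩ := hctl {x⁻¹} (by
      intro a ha
      rw [Set.mem_singleton_iff] at ha
      rw [ha]; exact P.inv_mem hxP) u⁻¹ (by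
      intro a ha
      rw [Set.mem_singleton_iff] at ha
      rw [ha, inv_inv]; exact h1)
  have h2 : y⁻¹ * x⁻¹ * y = u * x⁻¹ * u⁻¹ := by
    have := hya x⁻¹ rfl
    rwa [inv_inv] at this
  have h3 : ⁅x, u⁆ = ⁅x, y⁻¹⁆ := by
    rw [commutatorElement_def, commutatorElement_def]
    calc x * u * x⁻¹ * u⁻¹ = x * (u * x⁻¹ * u⁻¹) := by group
      _ = x * (y⁻¹ * x⁻¹ * y) := by rw [h2]
      _ = x * y⁻¹ * x⁻¹ * y⁻¹⁻¹ := by group
  show ⁅x, u⁆ ∈ ⁅P, Subgroup.normalizer (P : Set G)⁆
  rw [h3]
  exact Subgroup.commutator_mem_commutator hxP (inv_mem hy)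

theorem bg107a_le_comm [Finite G] {p : ℕ} [Fact p.Prime] (hperf : commutator G = ⊤) (P : Sylow p G)
    (hctl : BG107Ctl (P : Subgroup G)) :
    (P : Subgroup G) ≤ ⁅(P : Subgroup G), Subgroup.normalizer ((P : Subgroup G) : Set G)⁆ := by
  have h := Subgroup.commutator_inf_eq_focalSubgroup P
  rw [hperf, top_inf_eq] at h
  calc (P : Subgroup G) = (P : Subgroup G).focalSubgroup := h
    _ ≤ _ := bg107a_focal_le _ hctl

/-- `[P, V]` is normalised by `P`. -/
theorem bg107a_conj_mem_comm (P V : Subgroup G) {a d : G} (ha : a ∈ P) (hd : d ∈ ⁅P, V⁆) :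
    a * d * a⁻¹ ∈ ⁅P, V⁆ := by
  rw [Subgroup.commutator_def] at hd
  refine Subgroup.closure_induction (p := fun d _ => a * d * a⁻¹ ∈ ⁅P, V⁆) ?_ ?_ ?_ ?_ hd
  · rintro _ ⟨x, hx, b, hb, rfl⟩
    have : a * ⁅x, b⁆ * a⁻¹ = ⁅a * x, b⁆ * ⁅a, b⁆⁻¹ := by
      simp only [commutatorElement_def]; group
    rw [this]
    exact mul_mem (Subgroup.commutator_mem_commutator (mul_mem ha hx) hb)
      (inv_mem (Subgroup.commutator_mem_commutator ha hb))
  · simp
  · intro u v _ _ hu hv
    have : a * (u * v) * a⁻¹ = (a * u * a⁻¹) * (a * v * a⁻¹) := by group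
    rw [this]; exact mul_mem hu hv
  · intro u _ hu
    have : a * u⁻¹ * a⁻¹ = (a * u * a⁻¹)⁻¹ := by group
    rw [this]; exact inv_mem hu

/-- A solvable group `P` with a subgroup `D ≤ P` normalised by `P` and `P ≤ P' D` equals `D`. -/
theorem bg107a_eq_of_le_comm_sup (P D : Subgroup G) [hs : Group.IsSolvable P] (hDP : D ≤ P)
    (hDn : ∀ a ∈ P, ∀ d ∈ D, a * d * a⁻¹ ∈ D) (h : P ≤ ⁅P, P⁆ ⊔ D) : P = D := by
  set D₀ : Subgroup P := D.subgroupOf P with hD₀
  have hD₀n : D₀.Normal := by
    constructor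
    intro d hd a
    rw [hD₀, Subgroup.mem_subgroupOf] at hd ⊢
    exact hDn a a.2 d hd
  have hmapD : D₀.map P.subtype = D := by
    rw [hD₀, Subgroup.map_subgroupOf_eq_of_le hDP]
  have hmapC : (commutator P).map P.subtype = ⁅P, P⁆ := by
    rw [commutator_def, Subgroup.map_commutator, ← MonoidHom.range_eq_map, Subgroup.range_subtype]
  have htop : commutator P ⊔ D₀ = ⊤ := by
    rw [eq_top_iff]
    intro x _
    have hx : (x : G) ∈ (commutator P ⊔ D₀).map P.subtype := by
      rw [Subgroup.map_sup, hmapC, hmapD]; exact h x.2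
    obtain ⟨y, hy, hyx⟩ := hx
    have : y = x := Subtype.ext hyx
    rwa [this] at hy
  have hQ : commutator (P ⧸ D₀) = ⊤ := by
    have hsurj := QuotientGroup.mk'_surjective D₀
    have h1 : (commutator P ⊔ D₀).map (QuotientGroup.mk' D₀) = ⊤ := by
      rw [htop]; exact Subgroup.map_top_of_surjective _ hsurj
    rw [Subgroup.map_sup, (Subgroup.map_eq_bot_iff D₀).mpr (by rw [QuotientGroup.ker_mk']),
      sup_bot_eq] at h1
    rw [commutator_def] at h1 ⊢
    rw [Subgroup.map_commutator, Subgroup.map_top_of_surjective _ hsurj] at h1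
    exact h1
  have hsub : Subsingleton (P ⧸ D₀) := by
    by_contra hns
    rw [not_subsingleton_iff_nontrivial] at hns
    exact (ne_of_lt (Group.IsSolvable.commutator_lt_top_of_nontrivial (P ⧸ D₀))) hQ
  have hD₀top := QuotientGroup.subgroup_eq_top_of_subsingleton D₀ hsub
  apply le_antisymm _ hDP
  intro x hx
  have : (⟨x, hx⟩ : P) ∈ D₀ := by rw [hD₀top]; trivial
  rw [hD₀, Subgroup.mem_subgroupOf] at this
  exact this

theorem bg107a_of_control [Finite G] {p : ℕ} [Fact p.Prime] (hperf : commutator G = ⊤)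
    (P : Sylow p G) (hctl : BG107Ctl (P : Subgroup G)) (V : Subgroup G)
    (hV : Cfsg.IsComplIn (P : Subgroup G) V (Subgroup.normalizer ((P : Subgroup G) : Set G))) :
    (P : Subgroup G) = ⁅(P : Subgroup G), V⁆ ∧
      (P : Subgroup G) ≤ ⁅Subgroup.normalizer ((P : Subgroup G) : Set G),
        Subgroup.normalizer ((P : Subgroup G) : Set G)⁆ := by
  obtain ⟨hPN, hVN, hPV, hprod⟩ := hV
  have h0 := bg107a_le_comm hperf P hctl
  refine ⟨?_, h0.trans (Subgroup.commutator_mono hPN le_rfl)⟩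
  have hDP : ⁅(P : Subgroup G), V⁆ ≤ (P : Subgroup G) := by
    rw [Subgroup.commutator_le]
    intro x hx b hb
    have hb' := hVN hb
    rw [Subgroup.mem_normalizer_iff] at hb'
    have : ⁅x, b⁆ = x * (b * x⁻¹ * b⁻¹) := by rw [commutatorElement_def]; group
    rw [this]
    exact mul_mem hx ((hb' x⁻¹).mp (inv_mem hx))
  have hle : ⁅(P : Subgroup G), Subgroup.normalizer ((P : Subgroup G) : Set G)⁆ ≤
      ⁅(P : Subgroup G), (P : Subgroup G)⁆ ⊔ ⁅(P : Subgroup G), V⁆ := by
    rw [Subgroup.commutator_le]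
    intro x hx m hm
    obtain ⟨a, ha, b, hb, rfl⟩ := hprod m hm
    have : ⁅x, a * b⁆ = ⁅x, a⁆ * (a * ⁅x, b⁆ * a⁻¹) := by
      simp only [commutatorElement_def]; group
    rw [this]
    exact mul_mem (Subgroup.mem_sup_left (Subgroup.commutator_mem_commutator hx ha))
      (Subgroup.mem_sup_right
        (bg107a_conj_mem_comm _ _ ha (Subgroup.commutator_mem_commutator hx hb)))
  have : Group.IsNilpotent (P : Subgroup G) := P.isPGroup'.isNilpotent
  have : Group.IsSolvable (P : Subgroup G) := IsNilpotent.to_isSolvable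
  exact bg107a_eq_of_le_comm_sup _ _ hDP (fun a ha d hd => bg107a_conj_mem_comm _ _ ha hd)
    (h0.trans hle)

/-- Schur–Zassenhaus: a Sylow subgroup has a complement in its normaliser, of order prime to `p`. -/
theorem bg107a_exists_compl [Finite G] {p : ℕ} [Fact p.Prime] (P : Sylow p G) :
    ∃ V : Subgroup G,
      Cfsg.IsComplIn (P : Subgroup G) V (Subgroup.normalizer ((P : Subgroup G) : Set G)) ∧
      (Nat.card V).Coprime p := by
  set N : Subgroup G := Subgroup.normalizer ((P : Subgroup G) : Set G) with hN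
  have hPN : (P : Subgroup G) ≤ N := Subgroup.le_normalizer
  set P₀ : Subgroup N := (P : Subgroup G).subgroupOf N with hP₀
  have : P₀.Normal := Subgroup.normal_in_normalizer
  have hidx : ¬ p ∣ P₀.index := by
    intro hdvd
    have h1 : P₀.index = (P : Subgroup G).relIndex N := rfl
    have h2 : (P : Subgroup G).relIndex N ∣ (P : Subgroup G).index := Subgroup.relIndex_dvd_index_of_le hPN
    exact P.not_dvd_index (hdvd.trans (h1 ▸ h2))
  have hcop : (Nat.card P₀).Coprime P₀.index := by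
    have hpg : IsPGroup p P₀ := P.isPGroup'.comap_subtype
    obtain ⟨k, hk⟩ := IsPGroup.iff_card.mp hpg
    rw [hk]
    exact Nat.Coprime.pow_left _ ((Nat.Prime.coprime_iff_not_dvd Fact.out).mpr hidx)
  obtain ⟨H, hH⟩ := Subgroup.exists_right_complement'_of_coprime hcop
  refine ⟨H.map N.subtype, ⟨hPN, Subgroup.map_subtype_le H, ?_, ?_⟩, ?_⟩
  · rw [eq_bot_iff]
    rintro x ⟨hxP, y, hyH, rfl⟩
    have hy : y ∈ P₀ ⊓ H := ⟨Subgroup.mem_subgroupOf.mpr hxP, hyH⟩
    rw [hH.disjoint.eq_bot, Subgroup.mem_bot] at hy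
    rw [Subgroup.mem_bot, hy]; rfl
  · intro m hm
    have hbij := (Subgroup.isComplement'_def.mp hH)
    obtain ⟨⟨a, b⟩, hab⟩ := hbij.2 ⟨m, hm⟩
    refine ⟨(a : N), ?_, (b : N), ⟨b, b.2, rfl⟩, ?_⟩
    · have ha2 : (a : N) ∈ (P : Subgroup G).subgroupOf N := a.2
      exact Subgroup.mem_subgroupOf.mp ha2
    · have := congrArg Subtype.val hab
      simpa using this.symm
  · rw [Subgroup.card_map_of_injective N.subtype_injective, ← hH.symm.index_eq_card]
    exact (Nat.Prime.coprime_iff_not_dvd Fact.out).mpr hidx |>.symm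

/-- In a nonabelian group of order `p ^ 3` the commutator subgroup is the centre. -/
theorem bg107b_center_eq {E : Type*} [Group E] [Finite E] {p : ℕ} [hp : Fact p.Prime]
    (hcard : Nat.card E = p ^ 3) (hna : ¬ IsMulCommutative E) : commutator E = Subgroup.center E := by
  have hpg : IsPGroup p E := IsPGroup.of_card hcard
  have : Nontrivial E := by
    rw [← Finite.one_lt_card_iff_nontrivial, hcard]
    exact Nat.one_lt_pow (by norm_num) hp.out.one_lt
  set Z := Subgroup.center E with hZ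
  have hZnt : Nontrivial Z := hpg.center_nontrivial
  have hZcard : Nat.card Z ∣ p ^ 3 := hcard ▸ Subgroup.card_subgroup_dvd_card Z
  obtain ⟨k, hk3, hk⟩ := (Nat.dvd_prime_pow hp.out).mp hZcard
  have hk0 : k ≠ 0 := by
    rintro rfl
    rw [pow_zero] at hk
    have := Finite.one_lt_card_iff_nontrivial.mpr hZnt
    omega
  have hmul : Nat.card Z * Nat.card (E ⧸ Z) = p ^ 3 := by
    rw [← hcard, Subgroup.card_eq_card_quotient_mul_card_subgroup Z, mul_comm]
  have hk1 : k = 1 := by
    by_contra hk1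
    have hk23 : k = 2 ∨ k = 3 := by omega
    rcases hk23 with rfl | rfl
    · -- quotient of order p: cyclic
      have hq : Nat.card (E ⧸ Z) = p := by
        rw [hk] at hmul
        have h1 : p ^ 2 * Nat.card (E ⧸ Z) = p ^ 2 * p := by rw [hmul]; ring
        exact Nat.eq_of_mul_eq_mul_left (pow_pos hp.out.pos 2) h1
      have : IsCyclic (E ⧸ Z) := isCyclic_of_prime_card hq
      exact hna ((QuotientGroup.mk' Z).isMulCommutative_of_isCyclic_of_ker_le_center
        (by rw [QuotientGroup.ker_mk']))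
    · have hZtop : Z = ⊤ := Subgroup.eq_top_of_card_eq Z (by rw [hk, hcard])
      exact hna (Subgroup.center_eq_top_iff.mp hZtop)
  rw [hk1, pow_one] at hk
  have hq : Nat.card (E ⧸ Z) = p ^ 2 := by
    rw [hk] at hmul
    have h1 : p * Nat.card (E ⧸ Z) = p * p ^ 2 := by rw [hmul]; ring
    exact Nat.eq_of_mul_eq_mul_left hp.out.pos h1
  have hqc : IsMulCommutative (E ⧸ Z) := IsPGroup.isMulCommutative_of_card_eq_prime_sq hq
  have hle : commutator E ≤ Z := by
    let _ : CommGroup (E ⧸ Z) := { (inferInstance : Group (E ⧸ Z)) with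
      mul_comm := fun a b => hqc.is_comm.comm a b }
    have := Abelianization.commutator_subset_ker (QuotientGroup.mk' Z)
    rwa [QuotientGroup.ker_mk'] at this
  have hne : commutator E ≠ ⊥ := by
    intro hbot
    apply hna
    constructor; constructor
    intro a b
    have : ⁅a, b⁆ ∈ commutator E := by
      rw [commutator_def]; exact Subgroup.commutator_mem_commutator (Subgroup.mem_top a) (Subgroup.mem_top b)
    rw [hbot, Subgroup.mem_bot, commutatorElement_eq_one_iff_mul_comm] at this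
    exact this
  -- subgroup of a group of prime order
  have : Fact (Nat.card Z).Prime := ⟨hk ▸ hp.out⟩
  rcases Subgroup.eq_bot_or_eq_top_of_prime_card ((commutator E).subgroupOf Z) with h | h
  · exfalso; apply hne
    rw [Subgroup.subgroupOf_eq_bot] at h
    rw [eq_bot_iff]
    exact (le_inf le_rfl hle).trans (disjoint_iff.mp h).le
  · rw [Subgroup.subgroupOf_eq_top] at h
    exact le_antisymm hle h

theorem bg107b_of_control [Finite G] {p : ℕ} [Fact p.Prime] (hodd : Odd (Nat.card G))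
    (hperf : commutator G = ⊤) (P : Sylow p G) (hctl : BG107Ctl (P : Subgroup G))
    (hr : Cfsg.PRankLE p 2 (P : Subgroup G)) :
    IsMulCommutative (P : Subgroup G) ∨ ∃ P₁ P₂ : Subgroup G, P₁ ⊔ P₂ = (P : Subgroup G) ∧
        (∀ a ∈ P₁, ∀ b ∈ P₂, a * b = b * a) ∧
        ¬ IsMulCommutative P₁ ∧ Nat.card P₁ = p ^ 3 ∧ Monoid.exponent P₁ = p ∧ IsCyclic P₂ ∧
        Subgroup.closure {x : G | x ∈ P₂ ∧ x ^ p = 1} = P₁ ⊓ Subgroup.centralizer (P₁ : Set G) := by
  by_cases hP1 : (P : Subgroup G) = ⊥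
  · left
    constructor; constructor
    intro a b
    have hbot : ∀ c : (P : Subgroup G), (c : G) = 1 := fun c =>
      Subgroup.mem_bot.mp (hP1 ▸ c.2)
    have ha : (a : G) = 1 := hbot a
    have hb : (b : G) = 1 := hbot b
    apply Subtype.ext
    simp [ha, hb]
  · obtain ⟨V, hV, hVcop⟩ := bg107a_exists_compl P
    have hPV := (bg107a_of_control hperf P hctl V hV).1
    have hp2 : p ≠ 2 := by
      rintro rfl
      have hdvd : 2 ∣ Nat.card (P : Subgroup G) := by
        obtain ⟨k, hk⟩ := IsPGroup.iff_card.mp P.isPGroup'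
        have hk0 : k ≠ 0 := by
          rintro rfl
          rw [pow_zero] at hk
          exact hP1 ((Subgroup.card_eq_one).mp hk)
        rw [hk]; exact dvd_pow_self 2 hk0
      have := hdvd.trans (Subgroup.card_subgroup_dvd_card (P : Subgroup G))
      exact (Nat.not_even_iff_odd.mpr hodd) (even_iff_two_dvd.mpr this)
    have hVodd : Odd (Nat.card V) := Odd.of_dvd_nat hodd (Subgroup.card_subgroup_dvd_card V)
    obtain ⟨-, h⟩ := Cfsg.Agent.S1448.result p hp2 (P : Subgroup G) V P.isPGroup' hP1 hr hV.2.1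
      hVcop hVodd hPV.symm
    rcases h with h | ⟨R₁, R₂, h1, h2, h3, h4, h5, h6, h7⟩
    · exact Or.inl h
    · refine Or.inr ⟨R₁, R₂, h1, h2, h3, h4, h5, h6, ?_⟩
      rw [h7]
      have hc := bg107b_center_eq (E := R₁) h4 h3
      have e1 : ⁅R₁, R₁⁆ = (commutator R₁).map R₁.subtype := by
        rw [_root_.commutator_def, Subgroup.map_commutator, ← MonoidHom.range_eq_map,
          Subgroup.range_subtype]
      rw [e1, hc]
      ext x
      constructor
      · rintro ⟨y, hy, rfl⟩
        refine ⟨y.2, ?_⟩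
        show (y : G) ∈ Subgroup.centralizer (R₁ : Set G)
        rw [Subgroup.mem_centralizer_iff]
        intro g hg
        have := Subgroup.mem_center_iff.mp hy ⟨g, hg⟩
        exact congrArg Subtype.val this
      · rintro ⟨hx1, hx2⟩
        refine ⟨⟨x, hx1⟩, ?_, rfl⟩
        show (⟨x, hx1⟩ : R₁) ∈ Subgroup.center R₁
        rw [Subgroup.mem_center_iff]
        intro g
        apply Subtype.ext
        exact (Subgroup.mem_centralizer_iff.mp hx2) g g.2

end Cfsg.Agent.Helper49
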