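/-
helper49: CALL S1366 (helper2), piece ABS (double): a Hall subgroup absorbs what it normalizes.
-/
import Cfsg.Agent.Helper22.Transitivity
import Cfsg.Prelude.Def_OddOrderLocal

set_option autoImplicit false

namespace Cfsg.Agent.Helper49

open Cfsg Subgroup

universe u

variable {G : Type u} [Group G] [Finite G]

/-- A7 (PURE). A Hall `π`-subgroup absorbs the `π`-subgroups it normalizes. -/
theorem bg147_hall_absorb {π : Set ℕ} {K B M : Subgroup G} (hK : IsPiHallOf π K M)
    (hBM : B ≤ M) (hB : ∀ p : ℕ, p.Prime → p ∣ Nat.card B → p ∈ π)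
    (hn : K ≤ normalizer (B : Set G)) : B ≤ K := by
  have hdvd := Cfsg.Agent.Helper22.card_sup_dvd_of_le_normalizer hn
  have h1 : Nat.card K * K.relIndex (K ⊔ B) = Nat.card ↥(K ⊔ B) := by
    have := Subgroup.relIndex_mul_relIndex (⊥ : Subgroup G) K (K ⊔ B) bot_le le_sup_left
    rwa [Subgroup.relIndex_bot_left, Subgroup.relIndex_bot_left] at this
  have h2 : K.relIndex (K ⊔ B) ∣ Nat.card B := by
    rw [← h1] at hdvd
    exact Nat.dvd_of_mul_dvd_mul_left Nat.card_pos hdvd
  have h3 : K.relIndex (K ⊔ B) ∣ K.relIndex M :=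
    Dvd.intro _ (Subgroup.relIndex_mul_relIndex K (K ⊔ B) M le_sup_left (sup_le hK.1 hBM))
  have h4 : K.relIndex (K ⊔ B) = 1 := by
    by_contra hne
    obtain ⟨p, hp, hpd⟩ := Nat.exists_prime_and_dvd hne
    exact hK.2.2 p hp (hB p hp (hpd.trans h2)) (hpd.trans h3)
  have h5 : K ⊔ B ≤ K := Subgroup.relIndex_eq_one.mp h4
  exact le_sup_right.trans h5

end Cfsg.Agent.Helper49
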