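import Mathlib
import Cfsg.Prelude.Def_OddOrderLocal

set_option autoImplicit false

/-!
# CALL S1382 piece RK1 (helper49, double): a cyclic Hall subgroup forces `r`-rank at most 1.
-/

namespace Cfsg.Agent.Helper49

open Cfsg Subgroup

open scoped Pointwise

universe u

/-- RK1 (pure). If a cyclic Hall subgroup `W` has order divisible by the prime `r`, the group has
`r`-rank at most 1: an elementary abelian `r`-subgroup `A` lies in a Sylow `r`-subgroup `P`
(`IsPGroup.exists_le_sylow`); the Sylow `r`-subgroup of `W` is a Sylow `r`-subgroup of `Γ`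
(`r ∤ W.index`), so `P` is conjugate to it, hence cyclic; a cyclic group of exponent `r` has order
`≤ r`. -/
theorem bg16c_prank_one {Γ : Type u} [Group Γ] [Finite Γ] {W : Subgroup Γ} (hW : IsCyclic ↥W)
    (hhall : (Nat.card W).Coprime W.index) {r : ℕ} (hr : r.Prime) (hrW : r ∣ Nat.card W) :
    PRankLE r 1 Γ := by
  classical
  have : Fact r.Prime := ⟨hr⟩
  intro A hAc hAe
  have hAp : IsPGroup r A := fun a => ⟨1, by
    rw [pow_one]
    exact Subtype.ext (by simpa using hAe a a.2)⟩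
  obtain ⟨P, hAP⟩ := hAp.exists_le_sylow
  -- the Sylow `r`-subgroup of `W` is a Sylow `r`-subgroup of `Γ`
  obtain ⟨Q⟩ : Nonempty (Sylow r ↥W) := inferInstance
  have hrI : ¬ r ∣ W.index := fun h =>
    hr.one_lt.ne' (Nat.eq_one_of_dvd_coprimes hhall hrW h)
  have hfac : (Nat.card Γ).factorization r = (Nat.card ↥W).factorization r := by
    rw [← Subgroup.card_mul_index W, Nat.factorization_mul Nat.card_pos.ne'
      (Subgroup.index_ne_zero_of_finite), Finsupp.add_apply,
      Nat.factorization_eq_zero_of_not_dvd hrI, add_zero]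
  have hQcard : Nat.card ↥((Q : Subgroup ↥W).map W.subtype) = r ^ (Nat.card Γ).factorization r := by
    rw [Subgroup.card_map_of_injective W.subtype_injective, hfac]
    exact Q.card_eq_multiplicity
  obtain ⟨P', hP'⟩ : ∃ P' : Sylow r Γ, (P' : Subgroup Γ) = (Q : Subgroup ↥W).map W.subtype :=
    ⟨Sylow.ofCard _ hQcard, rfl⟩
  obtain ⟨g, hg⟩ := MulAction.exists_smul_eq Γ P P'
  -- `g A g⁻¹ ≤ W`
  have hmemW : ∀ a ∈ A, g * a * g⁻¹ ∈ W := by
    intro a ha
    have h1 : MulAut.conj g • a ∈ MulAut.conj g • (P : Subgroup Γ) :=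
      Subgroup.smul_mem_pointwise_smul a (MulAut.conj g) (P : Subgroup Γ) (hAP ha)
    have h2 : (MulAut.conj g • (P : Subgroup Γ)) = (P' : Subgroup Γ) := by
      rw [← Sylow.coe_subgroup_smul, hg]
    rw [h2, hP'] at h1
    obtain ⟨w, -, hw⟩ := h1
    have h3 : MulAut.conj g • a = g * a * g⁻¹ := rfl
    rw [← h3, ← hw]
    exact w.2
  obtain ⟨B, hBdef⟩ : ∃ B : Subgroup Γ, B = A.map (MulAut.conj g).toMonoidHom := ⟨_, rfl⟩
  have hBW : B ≤ W := by
    rw [hBdef]
    rintro _ ⟨a, ha, rfl⟩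
    exact hmemW a ha
  have hBcard : Nat.card B = Nat.card A := by
    rw [hBdef, Subgroup.card_map_of_injective (MulEquiv.injective (MulAut.conj g))]
  have hBe : ∀ b ∈ B, b ^ r = 1 := by
    intro b hb
    rw [hBdef] at hb
    obtain ⟨a, ha, rfl⟩ := hb
    show (g * a * g⁻¹) ^ r = 1
    rw [conj_pow, hAe a ha, mul_one, mul_inv_cancel]
  -- the cyclic group `B.subgroupOf W`
  have hcyc : IsCyclic ↥(B.subgroupOf W) := inferInstance
  obtain ⟨c, hc⟩ := hcyc.exists_generator
  have hcard : orderOf c = Nat.card ↥(B.subgroupOf W) := orderOf_eq_card_of_forall_mem_zpowers hc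
  have hcr : c ^ r = 1 := by
    apply Subtype.ext
    apply Subtype.ext
    have h1 : ((c : ↥W) : Γ) ∈ B := c.2
    simpa using hBe _ h1
  have hle : orderOf c ≤ r := Nat.le_of_dvd hr.pos (orderOf_dvd_of_pow_eq_one hcr)
  have hcard2 : Nat.card ↥(B.subgroupOf W) = Nat.card B :=
    Nat.card_congr (Subgroup.subgroupOfEquivOfLe hBW).toEquiv
  rw [pow_one, ← hBcard, ← hcard2, ← hcard]
  exact hle

end Cfsg.Agent.Helper49
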