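/-
helper49: piece D3 of the CALL for S1444 (Bender–Glauberman 3.6), for helper62.
`bg36_structure`: in a solvable group, for `V = O_p(H)` self-centralising in the normal subgroup
`H ≠ V`, the preimage `L` of `F(H / V)` is `V ⋊ K` with `K` a nontrivial nilpotent `p'`-group
normalised by the coprime operator group `R`, `H = V N_H(K)` and `C_H(L / V) ≤ L`.
Namespace `Cfsg.Agent.Helper49`.  Add-only once landed.
-/
import Mathlib
import Cfsg.Agent.Helper62.BG36Def
import Cfsg.Agent.Helper62.FitAct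
import Cfsg.Agent.Helper1.BGUniqE

set_option autoImplicit false

namespace Cfsg.Agent.Helper49

open Subgroup Cfsg.Agent.Helper62.BG36
open scoped Pointwise

universe u

variable {G : Type u} [Group G] [Finite G]

/-- A subgroup of `L` of order `|L : V|` prime to `p` is a complement of the normal `p`-subgroup
`V` in `L`. -/
theorem bg36d3_sup {p : ℕ} [Fact p.Prime] {V L P : Subgroup G} [V.Normal] (hVL : V ≤ L)
    (hVp : IsPGroup p V) (hidx : (V.relIndex L).Coprime p) (hP : P ≤ L)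
    (hPc : Nat.card P = V.relIndex L) :
    V ⊔ P = L ∧ (Nat.card P).Coprime (Nat.card V) := by
  have hcop : (Nat.card P).Coprime (Nat.card V) := by
    obtain ⟨n, hn⟩ := IsPGroup.iff_card.mp hVp
    rw [hn, hPc]
    exact Nat.Coprime.pow_right n hidx
  refine ⟨?_, hcop⟩
  have hdisj : V ⊓ P = ⊥ := disjoint_iff.mp (Subgroup.disjoint_of_coprime_natCard hcop.symm)
  have h1 : V.relIndex (V ⊔ P) = Nat.card P := by
    rw [Subgroup.relIndex_sup_left, ← Subgroup.inf_relIndex_right, hdisj,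
      Subgroup.relIndex_bot_left]
  have h2 : Nat.card V * V.relIndex (V ⊔ P) = Nat.card (V ⊔ P : Subgroup G) := by
    have := Subgroup.relIndex_mul_relIndex ⊥ V (V ⊔ P) bot_le le_sup_left
    rwa [Subgroup.relIndex_bot_left, Subgroup.relIndex_bot_left] at this
  have h3 : Nat.card V * V.relIndex L = Nat.card L := by
    have := Subgroup.relIndex_mul_relIndex ⊥ V L bot_le hVL
    rwa [Subgroup.relIndex_bot_left, Subgroup.relIndex_bot_left] at this
  refine Subgroup.eq_of_le_of_card_ge (sup_le hVL hP) ?_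
  rw [← h2, ← h3, h1, hPc]

/-- Two complements of the normal `p`-subgroup `V` in `L` are conjugate under `V`
(Schur–Zassenhaus, solvable case). -/
theorem bg36d3_conj [Group.IsSolvable G] {p : ℕ} [Fact p.Prime] {V L P Q : Subgroup G}
    [V.Normal] (hVL : V ≤ L) (hVp : IsPGroup p V) (hidx : (V.relIndex L).Coprime p)
    (hP : P ≤ L) (hPc : Nat.card P = V.relIndex L) (hQ : Q ≤ L)
    (hQc : Nat.card Q = V.relIndex L) : ∃ v ∈ V, MulAut.conj v • P = Q := by
  obtain ⟨hsup, hcop⟩ := bg36d3_sup hVL hVp hidx hP hPc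
  have hPN : P ≤ normalizer (V : Set G) := by
    rw [normalizer_eq_top_iff.mpr inferInstance]; exact le_top
  exact Helper35.isz hPN hcop (Or.inr inferInstance) (hsup ▸ hQ) (hQc.trans hPc.symm)

/-- Existence of a complement of the normal `p`-subgroup `V` in `L` normalised by the coprime
operator group `R`. -/
theorem bg36d3_compl [Group.IsSolvable G] {p : ℕ} [Fact p.Prime] {V L : Subgroup G} (R : Subgroup G)
    [V.Normal] [L.Normal] (hVL : V ≤ L) (hVp : IsPGroup p V) (hidx : (V.relIndex L).Coprime p)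
    (hcop : (Nat.card R).Coprime (Nat.card V)) :
    ∃ K : Subgroup G, K ≤ L ∧ Nat.card K = V.relIndex L ∧ R ≤ normalizer (K : Set G) := by
  have hex : ∃ K : Subgroup G, K ≤ L ∧ Nat.card K = V.relIndex L := by
    have hcop' : Nat.Coprime (Nat.card (V.subgroupOf L)) (V.subgroupOf L).index := by
      obtain ⟨n, hn⟩ := IsPGroup.iff_card.mp hVp
      rw [Helper35.card_subgroupOf_of_le hVL, hn]
      exact Nat.Coprime.pow_left n hidx.symm
    obtain ⟨K₀, hK₀⟩ := Subgroup.exists_right_complement'_of_coprime hcop'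
    refine ⟨K₀.map L.subtype, Subgroup.map_subtype_le _, ?_⟩
    have h1 : Nat.card (K₀.map L.subtype) = Nat.card K₀ :=
      (Nat.card_congr (K₀.equivMapOfInjective L.subtype L.subtype_injective).toEquiv).symm
    rw [h1]
    exact (Helper35.index_eq_card_of_isComplement' hK₀).symm
  obtain ⟨K₁, hK₁L, hK₁c⟩ := hex
  have hRV : R ≤ normalizer (V : Set G) := by
    rw [normalizer_eq_top_iff.mpr inferInstance]; exact le_top
  have hinv : ∀ g : G, ∀ P ∈ {K : Subgroup G | K ≤ L ∧ Nat.card K = V.relIndex L},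
      MulAut.conj g • P ∈ {K : Subgroup G | K ≤ L ∧ Nat.card K = V.relIndex L} := by
    rintro g P ⟨hPL, hPc⟩
    refine ⟨?_, (Helper35.card_conj_smul g P).trans hPc⟩
    have := Helper35.conj_smul_le_conj_smul (g := g) hPL
    rwa [Helper35.conj_smul_normal g L] at this
  obtain ⟨K, ⟨hKL, hKc⟩, hRK⟩ := Helper35.glauberman_subgroup hRV hcop (Or.inr inferInstance)
    (S := {K : Subgroup G | K ≤ L ∧ Nat.card K = V.relIndex L}) ⟨K₁, hK₁L, hK₁c⟩
    (fun a _ P hP => hinv a P hP) (fun k _ P hP => hinv k P hP)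
    (fun P hP Q hQ => bg36d3_conj hVL hVp hidx hP.1 hP.2 hQ.1 hQ.2)
  exact ⟨K, hKL, hKc, hRK⟩

set_option linter.unusedVariables false in
/-- Piece D3 of BG 3.6: the structure of the preimage of `F(H / V)` for `V = O_p(H)`. -/
theorem bg36_structure [Group.IsSolvable G] (p : ℕ) [Fact p.Prime] (H V R : Subgroup G)
    [H.Normal] [V.Normal] (hVH : V ≤ H) (hVp : IsPGroup p V)
    (hCV : H ⊓ centralizer (V : Set G) ≤ V)
    (hOp : ∀ B : Subgroup G, B ≤ H → H ≤ normalizer (B : Set G) → IsPGroup p B → B ≤ V)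
    (hcop : (Nat.card H).Coprime (Nat.card R)) (hHV : H ≠ V) :
    ∃ L K : Subgroup G, L.Normal ∧ V ≤ L ∧ L ≤ H ∧ K ≤ L ∧ (Nat.card K).Coprime p ∧
      Group.IsNilpotent ↥K ∧ K ≠ ⊥ ∧ L = V ⊔ K ∧ R ≤ normalizer (K : Set G) ∧
      (∀ h ∈ H, ∃ v ∈ V, ∃ n ∈ H ⊓ normalizer (K : Set G), h = v * n) ∧
      (∀ h ∈ H, (∀ l ∈ L, h * l * h⁻¹ * l⁻¹ ∈ V) → h ∈ L) := by
  have hp : p.Prime := Fact.out
  obtain ⟨π, hπdef⟩ : ∃ π : G →* G ⧸ V, π = QuotientGroup.mk' V := ⟨_, rfl⟩
  have hπs : Function.Surjective π := by rw [hπdef]; exact QuotientGroup.mk'_surjective _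
  have hker : ∀ z : G, π z = 1 ↔ z ∈ V := fun z => by
    rw [hπdef]; exact QuotientGroup.eq_one_iff z
  have hkerV : π.ker = V := by rw [hπdef]; exact QuotientGroup.ker_mk' V
  obtain ⟨Hb, hHb⟩ : ∃ Hb : Subgroup (G ⧸ V), Hb = H.map π := ⟨_, rfl⟩
  have hHbn : Hb.Normal := by rw [hHb]; exact Subgroup.Normal.map inferInstance π hπs
  obtain ⟨Fb, hFb⟩ : ∃ Fb : Subgroup (G ⧸ V), Fb = Cfsg.fittingOf Hb := ⟨_, rfl⟩
  have hFbn : Fb.Normal := by rw [hFb]; exact Helper62.FitAct.fittingOf_normal Hb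
  have hFbH : Fb ≤ Hb := by rw [hFb]; exact Helper62.FitAct.fittingOf_le Hb
  have hFbnil : Group.IsNilpotent Fb := by rw [hFb]; exact Helper1.bgu_fittingOf_isNilpotent Hb
  have hHbsolv : Group.IsSolvable Hb := inferInstance
  have hcent : Hb ⊓ centralizer (Fb : Set (G ⧸ V)) ≤ Fb := by
    rw [hFb]; exact Helper1.bgu_centralizer_fittingOf_le hHbsolv
  obtain ⟨L, hL⟩ : ∃ L : Subgroup G, L = Fb.comap π := ⟨_, rfl⟩
  have hLn : L.Normal := by rw [hL]; exact Subgroup.Normal.comap hFbn π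
  have hmemL : ∀ g : G, g ∈ L ↔ π g ∈ Fb := fun g => by rw [hL]; exact Subgroup.mem_comap
  have hVL : V ≤ L := fun v hv => (hmemL v).mpr (by rw [(hker v).mpr hv]; exact one_mem _)
  have hmemH : ∀ g : G, π g ∈ Hb → g ∈ H := by
    intro g hg
    rw [hHb] at hg
    obtain ⟨h, hh, hhg⟩ := hg
    have h1 : π (h⁻¹ * g) = 1 := by rw [map_mul, map_inv, hhg, inv_mul_cancel]
    have h2 : h⁻¹ * g ∈ H := hVH ((hker _).mp h1)
    have h3 : g = h * (h⁻¹ * g) := by group
    rw [h3]; exact mul_mem hh h2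
  have hLH : L ≤ H := fun l hl => hmemH l (hFbH ((hmemL l).mp hl))
  -- `F(H / V)` is a `p'`-group
  have hFbp : (Nat.card Fb).Coprime p := by
    rw [Nat.coprime_comm, Nat.Prime.coprime_iff_not_dvd hp]
    intro hdvd
    obtain ⟨P⟩ : Nonempty (Sylow p ↥Fb) := inferInstance
    have hPne := P.ne_bot_of_dvd_card hdvd
    have hPn : (P : Subgroup ↥Fb).Normal := inferInstance
    have hPc : (P : Subgroup ↥Fb).Characteristic := P.characteristic_of_normal hPn
    obtain ⟨Bb, hBb⟩ : ∃ Bb : Subgroup (G ⧸ V), Bb = (P : Subgroup ↥Fb).map Fb.subtype :=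
      ⟨_, rfl⟩
    have hBbn : Bb.Normal := by
      rw [hBb]; exact Helper22.normal_map_subtype_of_characteristic Fb (P : Subgroup ↥Fb)
    have hBbp : IsPGroup p Bb := by rw [hBb]; exact P.isPGroup'.map _
    have hBbF : Bb ≤ Fb := by rw [hBb]; exact Subgroup.map_subtype_le _
    have hBV : Bb.comap π ≤ V := by
      apply hOp
      · intro b hb
        exact hmemH b (hFbH (hBbF (Subgroup.mem_comap.mp hb)))
      · have hn : (Bb.comap π).Normal := Subgroup.Normal.comap hBbn π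
        rw [normalizer_eq_top_iff.mpr hn]; exact le_top
      · exact hBbp.comap_of_ker_isPGroup π (hkerV.symm ▸ hVp)
    apply hPne
    rw [eq_bot_iff]
    intro x hx
    have hxB : (x : G ⧸ V) ∈ Bb := by rw [hBb]; exact ⟨x, hx, rfl⟩
    obtain ⟨g, hg⟩ := hπs (x : G ⧸ V)
    have hgV : g ∈ V := hBV (Subgroup.mem_comap.mpr (hg ▸ hxB))
    have hx1 : (x : G ⧸ V) = 1 := by rw [← hg]; exact (hker g).mpr hgV
    exact Subgroup.mem_bot.mpr (Subtype.ext hx1)
  have hLmap : L.map π = Fb := by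
    rw [hL]; exact Subgroup.map_comap_eq_self_of_surjective hπs Fb
  have hrel : V.relIndex L = Nat.card Fb := by
    rw [← hLmap, ← Subgroup.relIndex_ker, hkerV]
  have hidx : (V.relIndex L).Coprime p := by rw [hrel]; exact hFbp
  have hRV : (Nat.card R).Coprime (Nat.card V) :=
    (Nat.Coprime.coprime_dvd_left (Subgroup.card_dvd_of_le hVH) hcop).symm
  obtain ⟨K, hKL, hKc, hRK⟩ := bg36d3_compl R hVL hVp hidx hRV
  obtain ⟨hsup, hKV⟩ := bg36d3_sup hVL hVp hidx hKL hKc
  have hdisj : V ⊓ K = ⊥ := disjoint_iff.mp (Subgroup.disjoint_of_coprime_natCard hKV.symm)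
  refine ⟨L, K, hLn, hVL, hLH, hKL, hKc ▸ hidx, ?_, ?_, hsup.symm, hRK, ?_, ?_⟩
  · -- `K` embeds in `F(H / V)`
    let f : ↥K →* ↥Fb := (π.comp K.subtype).codRestrict Fb
      (fun k => (hmemL (k : G)).mp (hKL k.2))
    have hf : f.ker ≤ center ↥K := by
      intro k hk
      rw [MonoidHom.mem_ker] at hk
      have hk' : π (k : G) = 1 := congrArg Subtype.val hk
      have hkV : (k : G) ∈ V ⊓ K := ⟨(hker _).mp hk', k.2⟩
      rw [hdisj, Subgroup.mem_bot] at hkV
      have hk1 : k = 1 := Subtype.ext hkV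
      rw [hk1]; exact one_mem _
    exact Subgroup.isNilpotent_of_ker_le_center f hf
  · -- `K ≠ ⊥`
    intro hK
    apply hHV
    have hLV : L = V := by rw [← hsup, hK, sup_bot_eq]
    have hFb1 : Fb = ⊥ := by
      rw [eq_bot_iff]
      intro x hx
      obtain ⟨g, rfl⟩ := hπs x
      have hgV : g ∈ V := hLV ▸ (hmemL g).mpr hx
      exact Subgroup.mem_bot.mpr ((hker g).mpr hgV)
    refine le_antisymm (fun h hh => ?_) hVH
    have h1 : π h ∈ Hb ⊓ centralizer (Fb : Set (G ⧸ V)) := by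
      refine ⟨hHb ▸ Subgroup.mem_map_of_mem π hh, ?_⟩
      refine Subgroup.mem_centralizer_iff.mpr fun y hy => ?_
      have hy1 : y = 1 := Subgroup.mem_bot.mp (hFb1 ▸ hy)
      rw [hy1, one_mul, mul_one]
    have h2 := hcent h1
    rw [hFb1, Subgroup.mem_bot] at h2
    exact (hker h).mp h2
  · -- Frattini argument
    intro h hh
    have hconjL : MulAut.conj h • K ≤ L := by
      have := Helper35.conj_smul_le_conj_smul (g := h) hKL
      rwa [Helper35.conj_smul_normal h L] at this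
    obtain ⟨v, hv, hvK⟩ := bg36d3_conj hVL hVp hidx hKL hKc hconjL
      ((Helper35.card_conj_smul h K).trans hKc)
    have hn : v⁻¹ * h ∈ normalizer (K : Set G) := by
      rw [Helper35.mem_normalizer_iff_conj_smul_eq, ← Helper35.conj_smul_conj_smul, ← hvK,
        Helper35.conj_smul_conj_smul, inv_mul_cancel]
      ext x
      rw [Helper35.mem_conj_smul]
      simp
    have hnH : v⁻¹ * h ∈ H := H.mul_mem (H.inv_mem (hVH hv)) hh
    exact ⟨v, hv, v⁻¹ * h, ⟨hnH, hn⟩, by group⟩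
  · -- `C_H(L / V) ≤ L`
    intro h hh hcomm
    rw [hmemL]
    apply hcent
    refine ⟨hHb ▸ Subgroup.mem_map_of_mem π hh, ?_⟩
    refine Subgroup.mem_centralizer_iff.mpr fun y hy => ?_
    obtain ⟨l, rfl⟩ := hπs y
    have hlL : l ∈ L := (hmemL l).mpr hy
    have h1 : π (h * l * h⁻¹ * l⁻¹) = 1 := (hker _).mpr (hcomm l hlL)
    simp only [map_mul, map_inv] at h1
    calc π l * π h = (π h * π l * (π h)⁻¹ * (π l)⁻¹)⁻¹ * (π h * π l) := by group
      _ = π h * π l := by rw [h1, inv_one, one_mul]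

end Cfsg.Agent.Helper49
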