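import Cfsg.Agent.Helper49.IsolSylow

/-!
# Isolated involutions: centralizers in invariant Sylow subgroups, inverted elements (helper49)

* `isol_card_inverted`: for an involution `z` normalising a subgroup `P` of odd order,
  `|P : C_P(z)|` is the number of elements of `P` inverted by `z`.
* `isol_sylow_centralizer`: for `z` central modulo a normal subgroup of odd order and `P` a
  `z`-invariant Sylow `p`-subgroup (`p` odd), `C_P(z)` is a Sylow `p`-subgroup of `C_G(z)`.
-/

set_option autoImplicit false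

namespace Cfsg.Agent.Helper49

open Subgroup
open scoped Pointwise

universe u

section

variable {G : Type u} [Group G]

/-- Squaring is injective on elements of odd order. -/
theorem isol_eq_of_mul_self_eq {x y : G} (hx : Odd (orderOf x)) (hy : Odd (orderOf y))
    (h : x * x = y * y) : x = y := by
  have h2 : x ^ 2 = y ^ 2 := by rw [pow_two, pow_two, h]
  have hox : orderOf (x ^ 2) = orderOf x := Nat.Coprime.orderOf_pow hx.coprime_two_right
  have hoy : orderOf (y ^ 2) = orderOf y := Nat.Coprime.orderOf_pow hy.coprime_two_right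
  have hxy : orderOf x = orderOf y := by rw [← hox, h2, hoy]
  obtain ⟨k, hk⟩ := hx
  have hx1 : x ^ (2 * k + 1) = 1 := by rw [← hk]; exact pow_orderOf_eq_one x
  have hy1 : y ^ (2 * k + 1) = 1 := by rw [← hk, hxy]; exact pow_orderOf_eq_one y
  calc x = x ^ (2 * k + 1) * x := by rw [hx1, one_mul]
    _ = (x ^ 2) ^ (k + 1) := by rw [← pow_succ, ← pow_mul]; congr 1
    _ = (y ^ 2) ^ (k + 1) := by rw [h2]
    _ = y ^ (2 * k + 1) * y := by rw [← pow_succ, ← pow_mul]; congr 1
    _ = y := by rw [hy1, one_mul]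

variable [Finite G]

/-- For an involution `z` normalising a subgroup `P` of odd order, the index of `C_P(z)` in `P`
is the number of elements of `P` inverted by `z`. -/
theorem isol_card_inverted (z : G) (hz2 : orderOf z = 2) (P : Subgroup G)
    (hodd : Odd (Nat.card P)) (hzP : z ∈ normalizer (P : Set G)) :
    (P ⊓ centralizer ({z} : Set G)).relIndex P =
      Nat.card {x : G // x ∈ P ∧ z * x * z⁻¹ = x⁻¹} := by
  have hzz : z * z = 1 := by
    have := pow_orderOf_eq_one z
    rwa [hz2, pow_two] at this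
  have hzi : z⁻¹ = z := inv_eq_of_mul_eq_one_right hzz
  rw [Subgroup.inf_relIndex_left]
  have hf : ∀ g : ↥P, (g : G) * z * (g : G)⁻¹ * z⁻¹ ∈ P ∧
      z * ((g : G) * z * (g : G)⁻¹ * z⁻¹) * z⁻¹ = ((g : G) * z * (g : G)⁻¹ * z⁻¹)⁻¹ := by
    intro g
    constructor
    · have h1 : z * (g : G)⁻¹ * z⁻¹ ∈ P :=
        (Subgroup.mem_normalizer_iff.mp hzP _).mp (inv_mem g.2)
      have h2 : (g : G) * z * (g : G)⁻¹ * z⁻¹ = (g : G) * (z * (g : G)⁻¹ * z⁻¹) := by group
      rw [h2]; exact mul_mem g.2 h1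
    · have e1 : z * ((g : G) * z * (g : G)⁻¹ * z⁻¹) * z⁻¹ =
          z * (g : G) * z * (g : G)⁻¹ * (z⁻¹ * z⁻¹) := by group
      have e2 : ((g : G) * z * (g : G)⁻¹ * z⁻¹)⁻¹ = z * (g : G) * z⁻¹ * (g : G)⁻¹ := by group
      have e3 : z⁻¹ * z⁻¹ = 1 := by rw [hzi]; exact hzz
      rw [e1, e2, e3, mul_one, hzi]
  have hCmem : ∀ a b : ↥P, a⁻¹ * b ∈ (centralizer ({z} : Set G)).subgroupOf P ↔
      (a : G) * z * (a : G)⁻¹ = (b : G) * z * (b : G)⁻¹ := by
    intro a b
    rw [Subgroup.mem_subgroupOf, Subgroup.mem_centralizer_singleton_iff]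
    push_cast
    constructor
    · intro h
      have h1 : (b : G) * z * (b : G)⁻¹ =
          (a : G) * ((a : G)⁻¹ * (b : G) * z) * (b : G)⁻¹ := by group
      rw [h1, h]; group
    · intro h
      have h1 : (a : G)⁻¹ * (b : G) * z =
          (a : G)⁻¹ * ((b : G) * z * (b : G)⁻¹) * (b : G) := by group
      rw [h1, ← h]; group
  apply le_antisymm
  · -- `P / C_P(z) → I`, `g ↦ g z g⁻¹ z⁻¹`
    let f : (↥P ⧸ (centralizer ({z} : Set G)).subgroupOf P) →
        {x : G // x ∈ P ∧ z * x * z⁻¹ = x⁻¹} := fun q =>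
      Quotient.liftOn' q (fun g => ⟨(g : G) * z * (g : G)⁻¹ * z⁻¹, hf g⟩) (by
        intro a b hab
        rw [QuotientGroup.leftRel_apply] at hab
        apply Subtype.ext
        show (a : G) * z * (a : G)⁻¹ * z⁻¹ = (b : G) * z * (b : G)⁻¹ * z⁻¹
        rw [(hCmem a b).mp hab])
    have hfi : Function.Injective f := by
      intro q1 q2 h
      obtain ⟨a, rfl⟩ := QuotientGroup.mk_surjective q1
      obtain ⟨b, rfl⟩ := QuotientGroup.mk_surjective q2
      have h1 : (a : G) * z * (a : G)⁻¹ * z⁻¹ = (b : G) * z * (b : G)⁻¹ * z⁻¹ :=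
        congrArg Subtype.val h
      exact QuotientGroup.eq.mpr ((hCmem a b).mpr (mul_right_cancel h1))
    exact Nat.card_le_card_of_injective f hfi
  · -- `I → P / C_P(z)`, injective since squaring is injective on `P`
    let g : {x : G // x ∈ P ∧ z * x * z⁻¹ = x⁻¹} →
        (↥P ⧸ (centralizer ({z} : Set G)).subgroupOf P) := fun x =>
      QuotientGroup.mk (⟨x.1, x.2.1⟩ : ↥P)
    have hgi : Function.Injective g := by
      intro x y h
      have h1 := (hCmem _ _).mp (QuotientGroup.eq.mp h)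
      have h1' : (x : G) * z * (x : G)⁻¹ = (y : G) * z * (y : G)⁻¹ := h1
      have hx := x.2.2
      have hy := y.2.2
      have key : ∀ w : G, z * w * z⁻¹ = w⁻¹ → w * z * w⁻¹ = w * w * z := by
        intro w hw
        have e : w * z * w⁻¹ = w * (z * z) * w * z⁻¹ := by rw [← hw]; group
        rw [e, hzz, mul_one, hzi]
      have hx2 : (x : G) * z * (x : G)⁻¹ = (x : G) * (x : G) * z := key _ hx
      have hy2 : (y : G) * z * (y : G)⁻¹ = (y : G) * (y : G) * z := key _ hy
      have hsq : (x : G) * (x : G) = (y : G) * (y : G) := by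
        rw [hx2, hy2] at h1'
        exact mul_right_cancel h1'
      have hox : Odd (orderOf (x : G)) :=
        Odd.of_dvd_nat hodd (Subgroup.orderOf_dvd_natCard P x.2.1)
      have hoy : Odd (orderOf (y : G)) :=
        Odd.of_dvd_nat hodd (Subgroup.orderOf_dvd_natCard P y.2.1)
      exact Subtype.ext (isol_eq_of_mul_self_eq hox hoy hsq)
    exact Nat.card_le_card_of_injective g hgi

/-- For `z` central modulo a normal subgroup `N` of odd order and `P` a `z`-invariant Sylow
`p`-subgroup of `G` (`p` odd), `C_P(z)` is a Sylow `p`-subgroup of `C_G(z)`. -/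
theorem isol_sylow_centralizer (z : G) (hz2 : orderOf z = 2) (N : Subgroup G) [N.Normal]
    (hodd : Odd (Nat.card N)) (hN : ∀ g : G, z * g * z⁻¹ * g⁻¹ ∈ N)
    {p : ℕ} [Fact p.Prime] (hp2 : p ≠ 2) (P : Sylow p G)
    (hzP : z ∈ normalizer ((P : Subgroup G) : Set G)) :
    ¬ p ∣ ((P : Subgroup G) ⊓ centralizer ({z} : Set G)).relIndex (centralizer ({z} : Set G)) := by
  obtain ⟨C, hC⟩ : ∃ C : Subgroup G, C = centralizer ({z} : Set G) := ⟨_, rfl⟩
  rw [← hC]
  have hpg : IsPGroup p (((P : Subgroup G) ⊓ C).subgroupOf C) :=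
    (IsPGroup.to_le P.isPGroup' inf_le_left).comap_subtype
  obtain ⟨R₀, hR₀⟩ := hpg.exists_le_sylow
  have hRp : IsPGroup p ((R₀ : Subgroup ↥C).map C.subtype) := R₀.isPGroup'.map _
  have hRC : (R₀ : Subgroup ↥C).map C.subtype ≤ C := Subgroup.map_subtype_le _
  have hzR : z ∈ normalizer (((R₀ : Subgroup ↥C).map C.subtype : Subgroup G) : Set G) := by
    have hcomm : ∀ r ∈ (R₀ : Subgroup ↥C).map C.subtype, z * r = r * z := by
      intro r hr
      have := hRC hr
      rw [hC] at this
      exact Subgroup.mem_centralizer_iff.mp this z rfl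
    rw [Subgroup.mem_normalizer_iff]
    intro h
    constructor
    · intro hh
      have e : z * h * z⁻¹ = h := by rw [hcomm h hh]; group
      rw [e]; exact hh
    · intro hh
      have e1 := hcomm _ hh
      have e2 : z * h * z⁻¹ = h := by
        have e3 : z * (z * h * z⁻¹) = z * h := by rw [e1]; group
        exact mul_left_cancel e3
      rw [← e2]; exact hh
  obtain ⟨R', hRR', hzR'⟩ :=
    isol_exists_invariant_sylow_ge hz2 N hodd hN hp2 _ hRp hzR
  obtain ⟨c, hc, hcPR⟩ := isol_invariant_sylow_conj hz2 N hodd hN hp2 P R' hzP hzR'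
  rw [← hC] at hc
  have hle : (R₀ : Subgroup ↥C).map C.subtype ≤ MulAut.conj c • ((P : Subgroup G) ⊓ C) := by
    intro x hx
    rw [Cfsg.Agent.Helper35.mem_conj_smul]
    have hx1 : x ∈ MulAut.conj c • (P : Subgroup G) := by rw [hcPR]; exact hRR' hx
    rw [Cfsg.Agent.Helper35.mem_conj_smul] at hx1
    exact Subgroup.mem_inf.mpr ⟨hx1, C.mul_mem (C.mul_mem (C.inv_mem hc) (hRC hx)) hc⟩
  have hcard : Nat.card ((R₀ : Subgroup ↥C).map C.subtype) ≤
      Nat.card ((P : Subgroup G) ⊓ C : Subgroup G) := by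
    have := Subgroup.card_le_of_le hle
    rwa [Cfsg.Agent.Helper35.card_conj_smul] at this
  have hcardR : Nat.card ((R₀ : Subgroup ↥C).map C.subtype) = Nat.card (R₀ : Subgroup ↥C) :=
    Subgroup.card_map_of_injective C.subtype_injective
  have hcard2 : Nat.card (((P : Subgroup G) ⊓ C).subgroupOf C) =
      Nat.card ((P : Subgroup G) ⊓ C : Subgroup G) :=
    Cfsg.Agent.Helper35.card_subgroupOf_of_le inf_le_right
  have heq : ((P : Subgroup G) ⊓ C).subgroupOf C = (R₀ : Subgroup ↥C) :=
    Subgroup.eq_of_le_of_card_ge hR₀ (by rw [hcard2, ← hcardR]; exact hcard)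
  unfold Subgroup.relIndex
  rw [heq]
  exact R₀.not_dvd_index

end

end Cfsg.Agent.Helper49
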