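import Cfsg.Agent.S0215
import Cfsg.Agent.Helper53.Isolated
import Cfsg.Agent.Helper35.CoprimeSylow

/-!
# Isolated involutions and Sylow subgroups of odd characteristic (helper49)

Consequences of the `Z*`-theorem (`S0215`) for an isolated involution `z`: with `N` a normal
subgroup of odd order containing all commutators `[z, g]`,
* `G = C_G(z) N`;
* every `z`-invariant `p`-subgroup (`p` odd) lies in a `z`-invariant Sylow `p`-subgroup of `G`;
* two `z`-invariant Sylow `p`-subgroups (`p` odd) are conjugate under `C_G(z)`.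
-/

set_option autoImplicit false

namespace Cfsg.Agent.Helper49

open Subgroup
open scoped Pointwise

universe u

/-- The conclusion of the `Z*`-theorem for an isolated involution. -/
theorem isol_zstar {G : Type u} [Group G] [Finite G] (z : G)
    (hz : Cfsg.IsIsolatedInvolution z) :
    ∃ N : Subgroup G, N.Normal ∧ Odd (Nat.card N) ∧ ∀ g : G, z * g * z⁻¹ * g⁻¹ ∈ N := by
  obtain ⟨P, hzP⟩ := Cfsg.Agent.Helper53.exists_sylow_two_mem z hz.1
  exact Cfsg.Agent.S0215.result P z hz.1 hzP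
    (Cfsg.Agent.Helper53.isolated_weakly_closed z hz P hzP)

section

variable {G : Type u} [Group G]

theorem isol_mem_zpowers {z : G} (hz2 : orderOf z = 2) {a : G} (ha : a ∈ zpowers z) :
    a = 1 ∨ a = z := by
  obtain ⟨k, hk⟩ := Subgroup.mem_zpowers_iff.mp ha
  have h1 : z ^ (k % (orderOf z : ℤ)) = z ^ k := zpow_mod_orderOf z k
  rw [hz2] at h1
  have h2 : k % ((2 : ℕ) : ℤ) = 0 ∨ k % ((2 : ℕ) : ℤ) = 1 := by omega
  rcases h2 with h2 | h2
  · rw [h2, zpow_zero] at h1
    left; rw [← hk, ← h1]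
  · rw [h2, zpow_one] at h1
    right; rw [← hk, ← h1]

theorem isol_card_zpowers {z : G} (hz2 : orderOf z = 2) : Nat.card (zpowers z) = 2 := by
  rw [Nat.card_zpowers, hz2]

theorem isol_centralizer_zpowers_le (z : G) :
    centralizer ((zpowers z : Subgroup G) : Set G) ≤ centralizer ({z} : Set G) :=
  Subgroup.centralizer_le (Set.singleton_subset_iff.mpr (Subgroup.mem_zpowers z))

/-- `N P` is `z`-invariant when `z` is central modulo `N`. -/
theorem isol_mem_normalizer_sup {z : G} (N : Subgroup G)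
    (hN : ∀ g : G, z * g * z⁻¹ * g⁻¹ ∈ N) (P : Subgroup G) :
    z ∈ normalizer ((N ⊔ P : Subgroup G) : Set G) := by
  rw [Subgroup.mem_normalizer_iff]
  intro m
  constructor
  · intro hm
    have h : z * m * z⁻¹ = (z * m * z⁻¹ * m⁻¹) * m := by group
    rw [h]
    exact mul_mem ((le_sup_left : N ≤ N ⊔ P) (hN m)) hm
  · intro hm
    have h : m = (z * m * z⁻¹ * m⁻¹)⁻¹ * (z * m * z⁻¹) := by group
    rw [h]
    exact mul_mem ((le_sup_left : N ≤ N ⊔ P) (inv_mem (hN m))) hm

variable [Finite G]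

/-- `G = C_G(z) N`: every coset of `N` contains an element centralising `z`. -/
theorem isol_exists_centralizer_mul {z : G} (hz2 : orderOf z = 2) (N : Subgroup G) [hNn : N.Normal]
    (hodd : Odd (Nat.card N)) (hN : ∀ g : G, z * g * z⁻¹ * g⁻¹ ∈ N) (g : G) :
    ∃ c ∈ centralizer ({z} : Set G), g⁻¹ * c ∈ N := by
  have hAN : zpowers z ≤ normalizer (N : Set G) := by
    rw [normalizer_eq_top_iff.mpr hNn]; exact le_top
  have hcop : (Nat.card (zpowers z)).Coprime (Nat.card N) := by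
    rw [isol_card_zpowers hz2]; exact hodd.coprime_two_left
  obtain ⟨c, hc, hcN⟩ := Cfsg.Agent.Helper35.exists_fixed_in_coset hAN hcop
    (Or.inl inferInstance) g (by
      intro a ha
      rcases isol_mem_zpowers hz2 ha with rfl | rfl
      · simp
      · have h2 : g⁻¹ * a * g * a⁻¹ = g⁻¹ * (a * g * a⁻¹ * g⁻¹) * g⁻¹⁻¹ := by group
        rw [h2]
        exact hNn.conj_mem _ (hN g) _)
  exact ⟨c, isol_centralizer_zpowers_le z hc, hcN⟩

/-- `N P` has odd order for `N` of odd order and `P` a `p`-group, `p` odd. -/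
theorem isol_odd_card_sup {p : ℕ} [hp : Fact p.Prime] (hp2 : p ≠ 2) (N : Subgroup G) [N.Normal]
    (hodd : Odd (Nat.card N)) (P : Subgroup G) (hP : IsPGroup p P) :
    Odd (Nat.card (N ⊔ P : Subgroup G)) := by
  have h1 : Nat.card (N.subgroupOf (N ⊔ P)) * (N.subgroupOf (N ⊔ P)).index = Nat.card ↥(N ⊔ P) :=
    Subgroup.card_mul_index _
  have h2 : Nat.card (N.subgroupOf (N ⊔ P)) = Nat.card N :=
    Nat.card_congr (subgroupOfEquivOfLe le_sup_left).toEquiv
  have h3 : (N.subgroupOf (N ⊔ P)).index = N.relIndex P := relIndex_sup_left P N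
  obtain ⟨k, hk⟩ := IsPGroup.iff_card.mp hP
  have h4 : N.relIndex P ∣ p ^ k := hk ▸ relIndex_dvd_card N P
  have hpodd : Odd p := hp.out.odd_of_ne_two hp2
  have h5 : Odd (N.relIndex P) := Odd.of_dvd_nat hpodd.pow h4
  rw [← h1, h2, h3]
  exact hodd.mul h5

/-- A Sylow `p`-subgroup of `G` is a Sylow `p`-subgroup of every subgroup containing it. -/
theorem isol_sylow_mem_sylowSet {p : ℕ} [hp : Fact p.Prime] (P : Sylow p G) (M : Subgroup G)
    (hPM : (P : Subgroup G) ≤ M) : (P : Subgroup G) ∈ Cfsg.Agent.Helper35.sylowSet p M := by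
  refine ⟨hPM, ?_⟩
  rw [Sylow.card_eq_multiplicity]
  congr 1
  apply le_antisymm
  · apply (Nat.Prime.pow_dvd_iff_le_factorization hp.out Nat.card_pos.ne').mp
    rw [← Sylow.card_eq_multiplicity P]
    exact Subgroup.card_dvd_of_le hPM
  · exact (Nat.factorization_le_iff_dvd Nat.card_pos.ne' Nat.card_pos.ne').mpr
      (Subgroup.card_subgroup_dvd_card M) p

/-- A Sylow `p`-subgroup of a subgroup `M` containing a Sylow `p`-subgroup of `G` is a Sylow
`p`-subgroup of `G`. -/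
theorem isol_card_of_mem_sylowSet {p : ℕ} [hp : Fact p.Prime] (P₁ : Sylow p G) (M : Subgroup G)
    (hPM : (P₁ : Subgroup G) ≤ M) {P : Subgroup G} (hP : P ∈ Cfsg.Agent.Helper35.sylowSet p M) :
    Nat.card P = p ^ (Nat.card G).factorization p := by
  rw [hP.2, ← (isol_sylow_mem_sylowSet P₁ M hPM).2, Sylow.card_eq_multiplicity]

/-- Every `z`-invariant `p`-subgroup (`p` odd) lies in a `z`-invariant Sylow `p`-subgroup. -/
theorem isol_exists_invariant_sylow_ge {z : G} (hz2 : orderOf z = 2) (N : Subgroup G) [N.Normal]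
    (hodd : Odd (Nat.card N)) (hN : ∀ g : G, z * g * z⁻¹ * g⁻¹ ∈ N)
    {p : ℕ} [Fact p.Prime] (hp2 : p ≠ 2) (Q : Subgroup G) (hQ : IsPGroup p Q)
    (hzQ : z ∈ normalizer (Q : Set G)) :
    ∃ P : Sylow p G, Q ≤ (P : Subgroup G) ∧ z ∈ normalizer ((P : Subgroup G) : Set G) := by
  obtain ⟨P₁, hQP₁⟩ := hQ.exists_le_sylow
  have hM := isol_mem_normalizer_sup N hN (P₁ : Subgroup G)
  have hoddM := isol_odd_card_sup hp2 N hodd (P₁ : Subgroup G) P₁.isPGroup'
  have hcop : (Nat.card (zpowers z)).Coprime (Nat.card (N ⊔ (P₁ : Subgroup G) : Subgroup G)) := by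
    rw [isol_card_zpowers hz2]; exact hoddM.coprime_two_left
  obtain ⟨P, hP, hQP, hAP⟩ := Cfsg.Agent.Helper35.exists_invariant_sylow_ge (p := p)
    ((Subgroup.zpowers_le).mpr hM) hcop (Or.inl inferInstance) (hQP₁.trans le_sup_right) hQ
    ((Subgroup.zpowers_le).mpr hzQ)
  refine ⟨Sylow.ofCard P (isol_card_of_mem_sylowSet P₁ _ le_sup_right hP), ?_, ?_⟩
  · rw [Sylow.coe_ofCard]; exact hQP
  · rw [Sylow.coe_ofCard]; exact hAP (Subgroup.mem_zpowers z)

/-- Two `z`-invariant Sylow `p`-subgroups (`p` odd) are conjugate under `C_G(z)`. -/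
theorem isol_invariant_sylow_conj {z : G} (hz2 : orderOf z = 2) (N : Subgroup G) [hNn : N.Normal]
    (hodd : Odd (Nat.card N)) (hN : ∀ g : G, z * g * z⁻¹ * g⁻¹ ∈ N)
    {p : ℕ} [Fact p.Prime] (hp2 : p ≠ 2) (P R : Sylow p G)
    (hzP : z ∈ normalizer ((P : Subgroup G) : Set G))
    (hzR : z ∈ normalizer ((R : Subgroup G) : Set G)) :
    ∃ c ∈ centralizer ({z} : Set G), MulAut.conj c • (P : Subgroup G) = (R : Subgroup G) := by
  obtain ⟨g, hg⟩ := MulAction.exists_smul_eq G P R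
  have hg' : MulAut.conj g • (P : Subgroup G) = (R : Subgroup G) := by
    rw [← hg]; rfl
  obtain ⟨c, hc, hcN⟩ := isol_exists_centralizer_mul hz2 N hodd hN g
  have hn : c⁻¹ * g ∈ N := by
    have := inv_mem hcN
    simpa [mul_inv_rev] using this
  have hcz : c * z = z * c := (Subgroup.mem_centralizer_iff.mp hc z rfl).symm
  -- the conjugate `R'' = c⁻¹ R c = n P n⁻¹` lies in `M = N P`
  have hR'' : MulAut.conj c⁻¹ • (R : Subgroup G) = MulAut.conj (c⁻¹ * g) • (P : Subgroup G) := by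
    rw [← hg', Cfsg.Agent.Helper35.conj_smul_conj_smul]
  have hPM : (P : Subgroup G) ∈ Cfsg.Agent.Helper35.sylowSet p (N ⊔ (P : Subgroup G)) :=
    isol_sylow_mem_sylowSet P _ le_sup_right
  have hRM : MulAut.conj (c⁻¹ * g) • (P : Subgroup G) ∈
      Cfsg.Agent.Helper35.sylowSet p (N ⊔ (P : Subgroup G)) := by
    refine ⟨?_, by rw [Cfsg.Agent.Helper35.card_conj_smul]; exact hPM.2⟩
    intro x hx
    rw [Cfsg.Agent.Helper35.mem_conj_smul] at hx
    have h : x = (c⁻¹ * g) * ((c⁻¹ * g)⁻¹ * x * (c⁻¹ * g)) * (c⁻¹ * g)⁻¹ := by group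
    rw [h]
    exact mul_mem (mul_mem ((le_sup_left : N ≤ N ⊔ (P : Subgroup G)) hn)
      ((le_sup_right : (P : Subgroup G) ≤ N ⊔ (P : Subgroup G)) hx))
      ((le_sup_left : N ≤ N ⊔ (P : Subgroup G)) (inv_mem hn))
  have hM := isol_mem_normalizer_sup N hN (P : Subgroup G)
  have hoddM := isol_odd_card_sup hp2 N hodd (P : Subgroup G) P.isPGroup'
  have hcop : (Nat.card (zpowers z)).Coprime (Nat.card (N ⊔ (P : Subgroup G) : Subgroup G)) := by
    rw [isol_card_zpowers hz2]; exact hoddM.coprime_two_left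
  have hzR'' : zpowers z ≤ normalizer ((MulAut.conj (c⁻¹ * g) • (P : Subgroup G) : Subgroup G) : Set G) := by
    rw [← hR'']
    have h1 := Cfsg.Agent.Helper35.conj_smul_le_normalizer ((Subgroup.zpowers_le).mpr hzR) c⁻¹
    refine le_trans ?_ h1
    rw [Subgroup.zpowers_le, Cfsg.Agent.Helper35.mem_conj_smul, inv_inv]
    have h2 : c * z * c⁻¹ = z := by rw [hcz]; group
    rw [h2]
    exact Subgroup.mem_zpowers z
  obtain ⟨c', hc', hcc'⟩ := Cfsg.Agent.Helper35.exists_conj_invariant_sylow (p := p)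
    ((Subgroup.zpowers_le).mpr hM) hcop (Or.inl inferInstance) hPM hRM
    ((Subgroup.zpowers_le).mpr hzP) hzR''
  refine ⟨c * c', mul_mem hc (isol_centralizer_zpowers_le z hc'.2), ?_⟩
  rw [← Cfsg.Agent.Helper35.conj_smul_conj_smul, hcc', Cfsg.Agent.Helper35.conj_smul_conj_smul,
    ← hg']
  congr 2
  group

end

end Cfsg.Agent.Helper49
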