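import Cfsg.Agent.Helper49.JComp

/-!
Helper49: `J(T)`-components, part 2: the largest elementary abelian subgroups of `S₀ = O₂(K) J`,
the subgroup `D = ⋂ {B largest elementary abelian, B ≤ R}` and the action of `K` on `D / W`.
-/

set_option autoImplicit false

namespace Cfsg.Agent.Helper49

open scoped commutatorElement
open Cfsg.Agent.Helper10 Cfsg.Agent.Helper47

variable {G : Type*} [Group G] {K J : Subgroup G}

/-- `D`: the intersection of the largest elementary abelian subgroups of `S₀` inside `R`. -/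
def jcD (K J : Subgroup G) : Subgroup G :=
  sInf {B : Subgroup G | IsMaxEAIn 2 (jcS K J) B ∧ B ≤ jcR K J}

theorem mem_jcD {d : G} :
    d ∈ jcD K J ↔ ∀ B : Subgroup G, IsMaxEAIn 2 (jcS K J) B → B ≤ jcR K J → d ∈ B := by
  unfold jcD
  rw [Subgroup.mem_sInf]
  constructor
  · intro h B hB hBR
    exact h B ⟨hB, hBR⟩
  · intro h B hB
    exact h B hB.1 hB.2

/-- the elements acting trivially on `D / W` -/
def jcN (K J : Subgroup G) : Subgroup G where
  carrier := {x | x ∈ Subgroup.normalizer (Cfsg.wOf K : Set G) ∧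
    x ∈ Subgroup.normalizer (jcD K J : Set G) ∧ ∀ d ∈ jcD K J, x * d * x⁻¹ * d⁻¹ ∈ Cfsg.wOf K}
  one_mem' := ⟨Subgroup.one_mem _, Subgroup.one_mem _, fun d _ => by simp⟩
  mul_mem' := by
    rintro x y ⟨hxW, hxD, hx⟩ ⟨hyW, hyD, hy⟩
    refine ⟨Subgroup.mul_mem _ hxW hyW, Subgroup.mul_mem _ hxD hyD, ?_⟩
    intro d hd
    have e : x * y * d * (x * y)⁻¹ * d⁻¹ = (x * (y * d * y⁻¹ * d⁻¹) * x⁻¹) * (x * d * x⁻¹ * d⁻¹) := by
      group
    rw [e]
    exact Subgroup.mul_mem _ (conj_mem_of_mem_normalizer hxW (hy d hd)) (hx d hd)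
  inv_mem' := by
    rintro x ⟨hxW, hxD, hx⟩
    refine ⟨Subgroup.inv_mem _ hxW, Subgroup.inv_mem _ hxD, ?_⟩
    intro d hd
    have hd' : x⁻¹ * d * x ∈ jcD K J := conj_inv_mem_of_mem_normalizer hxD hd
    have h1 := hx _ hd'
    have e : x⁻¹ * d * x⁻¹⁻¹ * d⁻¹ = (x * (x⁻¹ * d * x) * x⁻¹ * (x⁻¹ * d * x)⁻¹)⁻¹ := by group
    rw [e]
    exact Subgroup.inv_mem _ h1

namespace JC

variable [Finite G]

theorem exists_A (h : JC K J) :
    ∃ A, IsMaxEAIn 2 (jcS K J) A ∧ ¬ A ≤ Subgroup.centralizer (Cfsg.wOf K : Set G) := by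
  by_contra hcon
  push Not at hcon
  have h1 : Cfsg.thompsonSubgroupOf 2 (jcS K J) ≤ Subgroup.centralizer (Cfsg.wOf K : Set G) :=
    thompsonOf_le_of_forall hcon
  rw [h.thomS] at h1
  exact h.J_not_central h1

theorem A_le_J (h : JC K J) {A : Subgroup G} (hA : IsMaxEAIn 2 (jcS K J) A) : A ≤ J := by
  have := hA.le_thompsonOf
  rwa [h.thomS] at this

theorem card_le (h : JC K J) {A : Subgroup G} (hA : A ≤ jcS K J) :
    Nat.card A ≤ 2 * Nat.card (A ⊓ jcR K J : Subgroup G) := by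
  by_cases hAC : A ≤ Subgroup.centralizer (Cfsg.wOf K : Set G)
  · have e : A ⊓ jcR K J = A := inf_eq_left.mpr (le_inf hA hAC)
    rw [e]; omega
  · obtain ⟨a, haA, haC⟩ := SetLike.not_le_iff_exists.mp hAC
    have h2 : (A ⊓ jcR K J).relIndex A = 2 := by
      rw [Subgroup.relIndex_eq_two_iff]
      refine ⟨a, haA, ?_⟩
      intro b hb
      by_cases hbC : b ∈ Subgroup.centralizer (Cfsg.wOf K : Set G)
      · right
        refine ⟨Subgroup.mem_inf.mpr ⟨hb, Subgroup.mem_inf.mpr ⟨hA hb, hbC⟩⟩, ?_⟩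
        intro hba
        apply haC
        have h3 := (h.R_le_centW (Subgroup.mem_inf.mp hba).2)
        have e : a = b⁻¹ * (b * a) := by group
        rw [e]
        exact Subgroup.mul_mem _ (Subgroup.inv_mem _ hbC) h3
      · left
        have hb' : b⁻¹ ∉ Subgroup.centralizer (Cfsg.wOf K : Set G) :=
          fun hc => hbC (by simpa using Subgroup.inv_mem _ hc)
        have h3 := h.inv_mul_mem_R (Subgroup.inv_mem _ (hA hb)) (hA haA) hb' haC
        rw [inv_inv] at h3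
        refine ⟨Subgroup.mem_inf.mpr ⟨A.mul_mem hb haA, h3⟩, ?_⟩
        intro hbR
        exact hbC (h.R_le_centW (Subgroup.mem_inf.mp hbR).2)
    have h3 := card_eq_card_mul_relIndex (inf_le_left : A ⊓ jcR K J ≤ A)
    rw [h2] at h3
    omega

theorem W_le_R (h : JC K J) : Cfsg.wOf K ≤ jcR K J := by
  intro w hw
  refine Subgroup.mem_inf.mpr ⟨h.W_le_S hw, ?_⟩
  rw [Subgroup.mem_centralizer_iff]
  intro x hx
  exact h.W_comm x hx w hw

/-- Replacing `A` by `(A ∩ R) W`. -/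
theorem isMax_EA (h : JC K J) {A : Subgroup G} (hA : IsMaxEAIn 2 (jcS K J) A)
    (hAC : ¬ A ≤ Subgroup.centralizer (Cfsg.wOf K : Set G)) :
    IsMaxEAIn 2 (jcS K J) ((A ⊓ jcR K J) ⊔ Cfsg.wOf K) := by
  have hcomm : ∀ a ∈ A ⊓ jcR K J, ∀ b ∈ Cfsg.wOf K, a * b = b * a := by
    intro a ha b hb
    have h1 := h.R_le_centW (Subgroup.mem_inf.mp ha).2
    exact ((Subgroup.mem_centralizer_iff.mp h1) b hb).symm
  refine hA.of_card_le (sup_le (inf_le_left.trans hA.1) h.W_le_S)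
    (elemAb_sup (elemAb_of_le hA.2.1 inf_le_left) h.W_elemAb hcomm) ?_
  have h1 := h.card_le hA.1
  have h2 := card_eq_card_mul_relIndex
    (le_sup_left : A ⊓ jcR K J ≤ (A ⊓ jcR K J) ⊔ Cfsg.wOf K)
  have h3 : (A ⊓ jcR K J).relIndex ((A ⊓ jcR K J) ⊔ Cfsg.wOf K) ≠ 1 := by
    intro h1'
    rw [Subgroup.relIndex_eq_one] at h1'
    apply hAC
    have hWA : Cfsg.wOf K ≤ A := (le_sup_right.trans h1').trans inf_le_left
    intro a ha
    rw [Subgroup.mem_centralizer_iff]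
    intro w hw
    exact ((elemAb_iff 2 A).mp hA.2.1).1 w (hWA hw) a ha
  have h4 : (A ⊓ jcR K J).relIndex ((A ⊓ jcR K J) ⊔ Cfsg.wOf K) ≠ 0 := by
    intro h0
    rw [h0, mul_zero] at h2
    exact (Nat.card_pos (α := ↥((A ⊓ jcR K J) ⊔ Cfsg.wOf K))).ne' h2
  have h5 : 2 ≤ (A ⊓ jcR K J).relIndex ((A ⊓ jcR K J) ⊔ Cfsg.wOf K) := by omega
  calc Nat.card A ≤ 2 * Nat.card (A ⊓ jcR K J : Subgroup G) := h1
    _ = Nat.card (A ⊓ jcR K J : Subgroup G) * 2 := by ring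
    _ ≤ Nat.card (A ⊓ jcR K J : Subgroup G) *
          (A ⊓ jcR K J).relIndex ((A ⊓ jcR K J) ⊔ Cfsg.wOf K) := Nat.mul_le_mul_left _ h5
    _ = Nat.card ((A ⊓ jcR K J) ⊔ Cfsg.wOf K : Subgroup G) := h2.symm

theorem W_le_J (h : JC K J) : Cfsg.wOf K ≤ J := by
  obtain ⟨A, hA, hAC⟩ := h.exists_A
  exact le_sup_right.trans (h.A_le_J (h.isMax_EA hA hAC))

theorem Z0_le_J (_h : JC K J) : Cfsg.omegaCenterOf J ≤ J :=
  fun _ hx => (omegaCenterOf_le J hx).1

theorem Z0_comm (_h : JC K J) {z : G} (hz : z ∈ Cfsg.omegaCenterOf J) :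
    ∀ j ∈ J, j * z = z * j :=
  fun j hj => (Subgroup.mem_centralizer_iff.mp (omegaCenterOf_le J hz).2) j hj

theorem Z0_elemAb (h : JC K J) : Cfsg.IsElementaryAbelian 2 (Cfsg.omegaCenterOf J) := by
  rw [elemAb_iff]
  exact ⟨fun a ha b hb => h.Z0_comm hb a (h.Z0_le_J ha), omegaCenterOf_sq J⟩

theorem Z0_le (h : JC K J) {A : Subgroup G} (hA : IsMaxEAIn 2 (jcS K J) A) :
    Cfsg.omegaCenterOf J ≤ A :=
  hA.le_of_commute (h.Z0_le_J.trans h.J_le_S) h.Z0_elemAb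
    (fun a ha b hb => h.Z0_comm hb a (h.A_le_J hA ha))

theorem W_le_D (h : JC K J) : Cfsg.wOf K ≤ jcD K J := by
  intro w hw
  rw [mem_jcD]
  intro B hB hBR
  refine hB.le_of_commute h.W_le_S h.W_elemAb ?_ hw
  intro a ha b hb
  exact ((Subgroup.mem_centralizer_iff.mp (h.R_le_centW (hBR ha))) b hb).symm

theorem Z0_le_D (h : JC K J) : Cfsg.omegaCenterOf J ≤ jcD K J := by
  intro z hz
  rw [mem_jcD]
  intro B hB _
  exact h.Z0_le hB hz

theorem conj_mem_D (h : JC K J) {k d : G} (hk : k ∈ K) (hd : d ∈ jcD K J) :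
    k * d * k⁻¹ ∈ jcD K J := by
  rw [mem_jcD] at hd ⊢
  intro B hB hBR
  have hBR' : B.map (MulAut.conj k⁻¹).toMonoidHom ≤ jcR K J := by
    rintro _ ⟨b, hb, rfl⟩
    have := h.conj_mem_R (K.inv_mem hk) (hBR hb)
    simpa using this
  have h1 := hd _ (hB.map_conj (hBR'.trans h.R_le_S)) hBR'
  obtain ⟨b, hb, hbd⟩ := h1
  have e : k * d * k⁻¹ = b := by
    rw [← hbd]; simp only [MulEquiv.coe_toMonoidHom, MulAut.conj_apply, inv_inv]; group
  rw [e]; exact hb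

theorem K_le_normD (h : JC K J) : K ≤ Subgroup.normalizer (jcD K J : Set G) :=
  mem_normalizer_of_forall_conj (fun _ hk _ hd => h.conj_mem_D hk hd)

/-- every largest elementary abelian subgroup of `S₀` acts trivially on `D / W` -/
theorem A_le_N (h : JC K J) {A : Subgroup G} (hA : IsMaxEAIn 2 (jcS K J) A) : A ≤ jcN K J := by
  have hcomm : ∀ a ∈ A, ∀ d ∈ jcD K J, a * d * a⁻¹ * d⁻¹ ∈ Cfsg.wOf K := by
    intro a ha d hd
    by_cases hAC : A ≤ Subgroup.centralizer (Cfsg.wOf K : Set G)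
    · have hdA : d ∈ A := (mem_jcD.mp hd) A hA (le_inf hA.1 hAC)
      have h1 : a * d = d * a := ((elemAb_iff 2 A).mp hA.2.1).1 a ha d hdA
      have e : a * d * a⁻¹ * d⁻¹ = 1 := by rw [h1]; group
      rw [e]; exact Subgroup.one_mem _
    · have hB := h.isMax_EA hA hAC
      have hdB : d ∈ (A ⊓ jcR K J) ⊔ Cfsg.wOf K :=
        (mem_jcD.mp hd) _ hB (sup_le inf_le_right h.W_le_R)
      rw [sup_comm] at hdB
      have hn : A ⊓ jcR K J ≤ Subgroup.normalizer (Cfsg.wOf K : Set G) :=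
        (inf_le_left.trans hA.1).trans h.S_le_normW
      obtain ⟨w, hw, b, hb, rfl⟩ := exists_mul_of_mem_sup hn hdB
      have hab : a * b = b * a := ((elemAb_iff 2 A).mp hA.2.1).1 a ha b (Subgroup.mem_inf.mp hb).1
      have e : a * (w * b) * a⁻¹ * (w * b)⁻¹ = (a * w * a⁻¹) * w⁻¹ := by
        calc a * (w * b) * a⁻¹ * (w * b)⁻¹ = a * w * (b * a⁻¹) * b⁻¹ * w⁻¹ := by group
          _ = a * w * (a⁻¹ * b) * b⁻¹ * w⁻¹ := by
              have : b * a⁻¹ = a⁻¹ * b := (Commute.inv_right (show Commute b a from hab.symm)).eq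
              rw [this]
          _ = (a * w * a⁻¹) * w⁻¹ := by group
      rw [e]
      exact Subgroup.mul_mem _ (conj_mem_of_mem_normalizer (h.S_le_normW (hA.1 ha)) hw)
        (Subgroup.inv_mem _ hw)
  intro a ha
  refine ⟨h.S_le_normW (hA.1 ha), ?_, hcomm a ha⟩
  have hn : A ≤ Subgroup.normalizer (jcD K J : Set G) := by
    apply mem_normalizer_of_forall_conj
    intro g hg d hd
    have h1 := hcomm g hg d hd
    have e : g * d * g⁻¹ = (g * d * g⁻¹ * d⁻¹) * d := by group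
    rw [e]
    exact Subgroup.mul_mem _ (h.W_le_D h1) hd
  exact hn ha

theorem J_le_N (h : JC K J) : J ≤ jcN K J := by
  have h1 : Cfsg.thompsonSubgroupOf 2 (jcS K J) ≤ jcN K J :=
    thompsonOf_le_of_forall (fun A hA => h.A_le_N hA)
  rwa [h.thomS] at h1

theorem conj_mem_N (h : JC K J) {k x : G} (hk : k ∈ K) (hx : x ∈ jcN K J) :
    k * x * k⁻¹ ∈ jcN K J := by
  obtain ⟨hxW, hxD, hxc⟩ := hx
  have hkW : k ∈ Subgroup.normalizer (Cfsg.wOf K : Set G) :=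
    h.normK_le_normW (Subgroup.le_normalizer hk)
  have hkD : k ∈ Subgroup.normalizer (jcD K J : Set G) := h.K_le_normD hk
  refine ⟨?_, ?_, ?_⟩
  · exact Subgroup.mul_mem _ (Subgroup.mul_mem _ hkW hxW) (Subgroup.inv_mem _ hkW)
  · exact Subgroup.mul_mem _ (Subgroup.mul_mem _ hkD hxD) (Subgroup.inv_mem _ hkD)
  · intro d hd
    have hd' : k⁻¹ * d * k ∈ jcD K J := conj_inv_mem_of_mem_normalizer hkD hd
    have h1 := hxc _ hd'
    have e : k * x * k⁻¹ * d * (k * x * k⁻¹)⁻¹ * d⁻¹ =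
        k * (x * (k⁻¹ * d * k) * x⁻¹ * (k⁻¹ * d * k)⁻¹) * k⁻¹ := by group
    rw [e]
    exact conj_mem_of_mem_normalizer hkW h1

/-- `K` acts trivially on `D / W`. -/
theorem K_le_N (h : JC K J) : K ≤ jcN K J := by
  have h1 : ⁅K, J⁆ ≤ jcN K J := by
    rw [Subgroup.commutator_le]
    intro k hk j hj
    have e : ⁅k, j⁆ = (k * j * k⁻¹) * j⁻¹ := by rw [commutatorElement_def]
    rw [e]
    exact Subgroup.mul_mem _ (h.conj_mem_N hk (h.J_le_N hj)) (Subgroup.inv_mem _ (h.J_le_N hj))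
  rwa [h.comm] at h1

theorem K_acts (h : JC K J) {k d : G} (hk : k ∈ K) (hd : d ∈ jcD K J) :
    k * d * k⁻¹ * d⁻¹ ∈ Cfsg.wOf K :=
  (h.K_le_N hk).2.2 d hd

end JC

end Cfsg.Agent.Helper49
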