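import Mathlib

/-!
Helper49: a counting lemma for the construction of `J(T)`-components (KS ch. 12).

`U` is an elementary abelian 2-group on which `d` acts fixed-point-freely with `1 + δ + δ² = 0`,
`a` is an involution inverting the action of `d`, and `B` is an elementary abelian 2-group
commuting with `a` and (in its action on `U`) with `d`.  If `B ⟨a⟩` is "of largest order" among
the elementary abelian groups `B' U'` (`B' ≤ B`, `U' ≤ C_U(B')`), then `|U| ≤ 4`.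
-/

set_option autoImplicit false

namespace Cfsg.Agent.Helper49

section JExW

variable {G : Type*} [Group G]

/-- A proper subgroup has at most half the order. -/
theorem jexw_two_mul_card_le [Finite G] {K H : Subgroup G} (hKH : K ≤ H) (hne : ¬ H ≤ K) :
    2 * Nat.card K ≤ Nat.card H := by
  obtain ⟨m, hm⟩ := Subgroup.card_dvd_of_le hKH
  have hpos : 0 < Nat.card H := Nat.card_pos
  rcases Nat.lt_or_ge m 2 with h | h
  · interval_cases m
    · rw [mul_zero] at hm; omega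
    · exfalso; apply hne
      have h1 : Nat.card H ≤ Nat.card K := by omega
      exact (Subgroup.eq_of_le_of_card_ge hKH h1).ge
  · calc 2 * Nat.card K ≤ m * Nat.card K := Nat.mul_le_mul_right _ h
      _ = Nat.card H := by rw [hm, mul_comm]

/-- Elements of `P ⊔ ⟨u⟩` for an involution `u` commuting with `P`. -/
theorem jexw_mem_sup_zpowers {U P : Subgroup G} (hPU : P ≤ U)
    (hU2 : ∀ u ∈ U, u * u = 1) (hUc : ∀ u ∈ U, ∀ v ∈ U, u * v = v * u) {u : G} (hu : u ∈ U)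
    {x : G} (hx : x ∈ P ⊔ Subgroup.zpowers u) : x ∈ P ∨ x * u ∈ P := by
  let H : Subgroup G :=
    { carrier := {x | x ∈ U ∧ (x ∈ P ∨ x * u ∈ P)}
      one_mem' := ⟨U.one_mem, Or.inl P.one_mem⟩
      mul_mem' := by
        rintro x y ⟨hxU, hx⟩ ⟨hyU, hy⟩
        refine ⟨U.mul_mem hxU hyU, ?_⟩
        rcases hx with hx | hx <;> rcases hy with hy | hy
        · exact Or.inl (P.mul_mem hx hy)
        · right
          have : x * y * u = x * (y * u) := by group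
          rw [this]; exact P.mul_mem hx hy
        · right
          have : x * y * u = (x * u) * y := by
            rw [mul_assoc, hUc y hyU u hu, ← mul_assoc]
          rw [this]; exact P.mul_mem hx hy
        · left
          have : x * y = (x * u) * (y * u) := by
            rw [mul_assoc x u, ← mul_assoc u y u, hUc u hu y hyU, mul_assoc y u u, hU2 u hu,
              mul_one]
          rw [this]; exact P.mul_mem hx hy
      inv_mem' := by
        rintro x ⟨hxU, hx⟩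
        have : x⁻¹ = x := inv_eq_of_mul_eq_one_right (hU2 x hxU)
        rw [this]; exact ⟨hxU, hx⟩ }
  have hle : P ⊔ Subgroup.zpowers u ≤ H := by
    refine sup_le ?_ ?_
    · intro p hp; exact ⟨hPU hp, Or.inl hp⟩
    · rw [Subgroup.zpowers_le]
      refine ⟨hu, Or.inr ?_⟩
      rw [hU2 u hu]; exact P.one_mem
  exact (hle hx).2

/-- The counting lemma. -/
theorem jexw_card_le_four [Finite G] (U B : Subgroup G) (d a : G)
    (hU2 : ∀ u ∈ U, u * u = 1) (hUc : ∀ u ∈ U, ∀ v ∈ U, u * v = v * u)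
    (hd : ∀ u ∈ U, d * u * d⁻¹ ∈ U)
    (hτ : ∀ u ∈ U, u * (d * u * d⁻¹) * (d * (d * u * d⁻¹) * d⁻¹) = 1)
    (haa : a * a = 1) (ha : ∀ u ∈ U, a * u * a⁻¹ ∈ U)
    (had : ∀ u ∈ U, a * (d * u * d⁻¹) * a⁻¹ = d⁻¹ * (a * u * a⁻¹) * d)
    (hBU : ∀ b ∈ B, ∀ u ∈ U, b * u * b⁻¹ ∈ U)
    (hBd : ∀ b ∈ B, ∀ u ∈ U, b * (d * u * d⁻¹) * b⁻¹ = d * (b * u * b⁻¹) * d⁻¹)
    (hBa : ∀ b ∈ B, b * a = a * b) (hBc : ∀ b ∈ B, ∀ b' ∈ B, b * b' = b' * b)
    (hB2 : ∀ b ∈ B, b * b = 1)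
    (hcount : ∀ B' : Subgroup G, B' ≤ B → ∀ U' : Subgroup G, U' ≤ U →
      (∀ b ∈ B', ∀ u ∈ U', b * u = u * b) →
      Nat.card B' * Nat.card U' ≤ 2 * Nat.card B * Nat.card (B' ⊓ U' : Subgroup G)) :
    Nat.card U ≤ 4 := by
  classical
  have hinv : ∀ u ∈ U, u⁻¹ = u := fun u hu => inv_eq_of_mul_eq_one_right (hU2 u hu)
  have hainv : a⁻¹ = a := inv_eq_of_mul_eq_one_right haa
  -- `δ³ = 1` on `U`
  have hδ3 : ∀ u ∈ U, d * (d * (d * u * d⁻¹) * d⁻¹) * d⁻¹ = u := by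
    intro u hu
    have h1 := hτ u hu
    have h2 := hτ (d * u * d⁻¹) (hd u hu)
    have e1 : (d * u * d⁻¹) * (d * (d * u * d⁻¹) * d⁻¹) = u⁻¹ := by
      have : u * ((d * u * d⁻¹) * (d * (d * u * d⁻¹) * d⁻¹)) = 1 := by
        rw [← mul_assoc]; exact h1
      exact eq_inv_of_mul_eq_one_right this
    rw [e1] at h2
    have := eq_inv_of_mul_eq_one_right h2
    rw [this, inv_inv]
  have hfpf : ∀ u ∈ U, d * u * d⁻¹ = u → u = 1 := by
    intro u hu h
    have h1 := hτ u hu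
    rw [h, h, hU2 u hu, one_mul] at h1
    exact h1
  have hδinv : ∀ v ∈ U, d⁻¹ * v * d = d * (d * v * d⁻¹) * d⁻¹ := by
    intro v hv
    have h := hδ3 v hv
    calc d⁻¹ * v * d = d⁻¹ * (d * (d * (d * v * d⁻¹) * d⁻¹) * d⁻¹) * d := by rw [h]
      _ = d * (d * v * d⁻¹) * d⁻¹ := by group
  -- the fixed points of `B`
  obtain ⟨P, hPdef⟩ : ∃ P : Subgroup G, P = U ⊓ Subgroup.centralizer (B : Set G) := ⟨_, rfl⟩
  obtain ⟨Ca, hCadef⟩ : ∃ Ca : Subgroup G, Ca = Subgroup.centralizer ({a} : Set G) := ⟨_, rfl⟩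
  have memP : ∀ x, x ∈ P ↔ x ∈ U ∧ ∀ b ∈ B, b * x = x * b := by
    intro x; rw [hPdef, Subgroup.mem_inf, Subgroup.mem_centralizer_iff]; rfl
  have memCa : ∀ x, x ∈ Ca ↔ a * x = x * a := by
    intro x; rw [hCadef, Subgroup.mem_centralizer_iff]; simp
  have hPU : P ≤ U := fun x hx => ((memP x).1 hx).1
  have hPd : ∀ y ∈ P, d * y * d⁻¹ ∈ P := by
    intro y hy
    obtain ⟨hyU, hyB⟩ := (memP y).1 hy
    refine (memP _).2 ⟨hd y hyU, fun b hb => ?_⟩
    have h1 := hBd b hb y hyU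
    have h2 : b * y * b⁻¹ = y := by rw [hyB b hb, mul_inv_cancel_right]
    rw [h2] at h1
    exact mul_inv_eq_iff_eq_mul.1 h1
  -- `|P₀|² ≤ |P|`
  have hF4 : Nat.card (P ⊓ Ca : Subgroup G) * Nat.card (P ⊓ Ca : Subgroup G) ≤ Nat.card P := by
    rw [← Nat.card_prod]
    let f : (↥(P ⊓ Ca) × ↥(P ⊓ Ca)) → ↥P := fun xy =>
      ⟨(xy.1 : G) * (d * (xy.2 : G) * d⁻¹),
        P.mul_mem (Subgroup.mem_inf.1 xy.1.2).1 (hPd _ (Subgroup.mem_inf.1 xy.2.2).1)⟩
    apply Nat.card_le_card_of_injective f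
    rintro ⟨⟨x, hx⟩, ⟨y, hy⟩⟩ ⟨⟨x', hx'⟩, ⟨y', hy'⟩⟩ h
    have h0 : x * (d * y * d⁻¹) = x' * (d * y' * d⁻¹) := congrArg Subtype.val h
    have hw : x'⁻¹ * x = d * (y' * y⁻¹) * d⁻¹ := by
      have : x = x' * (d * y' * d⁻¹) * (d * y * d⁻¹)⁻¹ := by rw [← h0]; group
      rw [this]; group
    have hvP0 : y' * y⁻¹ ∈ P ⊓ Ca := (P ⊓ Ca).mul_mem hy' ((P ⊓ Ca).inv_mem hy)
    have hwP0 : x'⁻¹ * x ∈ P ⊓ Ca := (P ⊓ Ca).mul_mem ((P ⊓ Ca).inv_mem hx') hx
    have hvU : y' * y⁻¹ ∈ U := hPU (Subgroup.mem_inf.1 hvP0).1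
    have hva : a * (y' * y⁻¹) * a⁻¹ = y' * y⁻¹ := by
      rw [(memCa _).1 (Subgroup.mem_inf.1 hvP0).2, mul_inv_cancel_right]
    have hwa : a * (x'⁻¹ * x) * a⁻¹ = x'⁻¹ * x := by
      rw [(memCa _).1 (Subgroup.mem_inf.1 hwP0).2, mul_inv_cancel_right]
    have h3 := had (y' * y⁻¹) hvU
    rw [hva, ← hw, hwa, hw, hδinv _ hvU] at h3
    -- h3 : δ v = δ (δ v)
    have h4 : d * (y' * y⁻¹) * d⁻¹ = 1 := hfpf _ (hd _ hvU) h3.symm
    have h5 : y' * y⁻¹ = 1 := by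
      have : y' * y⁻¹ = d⁻¹ * (d * (y' * y⁻¹) * d⁻¹) * d := by group
      rw [this, h4]; group
    have h6 : x'⁻¹ * x = 1 := by rw [hw, h4]
    have e1 : y' = y := mul_inv_eq_one.1 h5
    have e2 : x' = x := inv_mul_eq_one.1 h6
    subst e1; subst e2; rfl
  have hBpos : 0 < Nat.card B := Nat.card_pos
  have hP0pos : 0 < Nat.card (P ⊓ Ca : Subgroup G) := Nat.card_pos
  have hBP : B ⊓ P ≤ P ⊓ Ca := by
    intro x hx
    obtain ⟨hxB, hxP⟩ := Subgroup.mem_inf.1 hx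
    exact Subgroup.mem_inf.2 ⟨hxP, (memCa x).2 (hBa x hxB).symm⟩
  have hF6 : Nat.card P ≤ 2 * Nat.card (P ⊓ Ca : Subgroup G) := by
    have h1 := hcount B le_rfl P hPU (fun b hb u hu => ((memP u).1 hu).2 b hb)
    have h2 : Nat.card (B ⊓ P : Subgroup G) ≤ Nat.card (P ⊓ Ca : Subgroup G) :=
      Subgroup.card_le_of_le hBP
    have h3 : Nat.card B * Nat.card P ≤ Nat.card B * (2 * Nat.card (P ⊓ Ca : Subgroup G)) := by
      calc Nat.card B * Nat.card P ≤ 2 * Nat.card B * Nat.card (B ⊓ P : Subgroup G) := h1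
        _ ≤ 2 * Nat.card B * Nat.card (P ⊓ Ca : Subgroup G) := Nat.mul_le_mul_left _ h2
        _ = Nat.card B * (2 * Nat.card (P ⊓ Ca : Subgroup G)) := by ring
    exact Nat.le_of_mul_le_mul_left h3 hBpos
  have hP0le : Nat.card (P ⊓ Ca : Subgroup G) ≤ 2 := by
    have h1 : Nat.card (P ⊓ Ca : Subgroup G) * Nat.card (P ⊓ Ca : Subgroup G) ≤
        2 * Nat.card (P ⊓ Ca : Subgroup G) := hF4.trans hF6
    exact Nat.le_of_mul_le_mul_right h1 hP0pos
  -- `|U| ≤ |U₀|²`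
  have hF7 : Nat.card U ≤ Nat.card (U ⊓ Ca : Subgroup G) * Nat.card (U ⊓ Ca : Subgroup G) := by
    have hmemφ : ∀ u ∈ U, u * (a * u * a⁻¹) ∈ U ⊓ Ca := by
      intro u hu
      refine Subgroup.mem_inf.2 ⟨U.mul_mem hu (ha u hu), (memCa _).2 ?_⟩
      have hc := hUc u hu (a * u * a⁻¹) (ha u hu)
      calc a * (u * (a * u * a⁻¹)) = a * ((a * u * a⁻¹) * u) := by rw [hc]
        _ = (a * a) * u * a⁻¹ * u := by group
        _ = u * a * u := by rw [haa, one_mul, hainv]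
        _ = u * (a * u * a⁻¹) * a := by group
    let φ : ↥U →* ↥(U ⊓ Ca) := MonoidHom.mk' (fun u => ⟨(u : G) * (a * (u : G) * a⁻¹), hmemφ u u.2⟩)
      (by
        rintro ⟨u, hu⟩ ⟨v, hv⟩
        apply Subtype.ext
        show u * v * (a * (u * v) * a⁻¹) = u * (a * u * a⁻¹) * (v * (a * v * a⁻¹))
        have hc := hUc v hv (a * u * a⁻¹) (ha u hu)
        calc u * v * (a * (u * v) * a⁻¹) = u * (v * (a * u * a⁻¹)) * (a * v * a⁻¹) := by group
          _ = u * ((a * u * a⁻¹) * v) * (a * v * a⁻¹) := by rw [hc]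
          _ = u * (a * u * a⁻¹) * (v * (a * v * a⁻¹)) := by group)
    have h1 := Subgroup.card_mul_index φ.ker
    rw [Subgroup.index_ker] at h1
    have h2 : Nat.card φ.ker ≤ Nat.card (U ⊓ Ca : Subgroup G) := by
      let g : ↥φ.ker → ↥(U ⊓ Ca) := fun k => ⟨((k : ↥U) : G), by
        have hk : φ (k : ↥U) = 1 := k.2
        have hk' : ((k : ↥U) : G) * (a * ((k : ↥U) : G) * a⁻¹) = 1 := congrArg Subtype.val hk
        refine Subgroup.mem_inf.2 ⟨(k : ↥U).2, (memCa _).2 ?_⟩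
        have e1 : a * ((k : ↥U) : G) * a⁻¹ = (((k : ↥U) : G))⁻¹ := eq_inv_of_mul_eq_one_right hk'
        rw [hinv _ (k : ↥U).2] at e1
        exact mul_inv_eq_iff_eq_mul.1 e1⟩
      apply Nat.card_le_card_of_injective g
      intro k k' h
      apply Subtype.ext; apply Subtype.ext
      have h' : ((g k : ↥(U ⊓ Ca)) : G) = ((g k' : ↥(U ⊓ Ca)) : G) := congrArg Subtype.val h
      exact h'
    have h3 : Nat.card φ.range ≤ Nat.card (U ⊓ Ca : Subgroup G) := Subgroup.card_le_card_group _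
    calc Nat.card U = Nat.card φ.ker * Nat.card φ.range := h1.symm
      _ ≤ Nat.card (U ⊓ Ca : Subgroup G) * Nat.card (U ⊓ Ca : Subgroup G) := Nat.mul_le_mul h2 h3
  by_contra hcon
  rw [not_le] at hcon
  have hP0U0 : P ⊓ Ca ≤ U ⊓ Ca := inf_le_inf_right _ hPU
  have hU0P0 : ¬ U ⊓ Ca ≤ P ⊓ Ca := by
    intro h
    have h1 := Subgroup.card_le_of_le h
    have h2 : Nat.card (U ⊓ Ca : Subgroup G) ≤ 2 := h1.trans hP0le
    have h3 : Nat.card (U ⊓ Ca : Subgroup G) * Nat.card (U ⊓ Ca : Subgroup G) ≤ 2 * 2 :=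
      Nat.mul_le_mul h2 h2
    omega
  -- a minimal `B`-invariant subgroup of `U₀` not inside `P₀`
  let 𝒴 : Set (Subgroup G) :=
    {Y | Y ≤ U ⊓ Ca ∧ (∀ b ∈ B, ∀ y ∈ Y, b * y * b⁻¹ ∈ Y) ∧ ¬ Y ≤ P ⊓ Ca}
  have hU0mem : U ⊓ Ca ∈ 𝒴 := by
    refine ⟨le_rfl, ?_, hU0P0⟩
    intro b hb y hy
    obtain ⟨hyU, hya⟩ := Subgroup.mem_inf.1 hy
    refine Subgroup.mem_inf.2 ⟨hBU b hb y hyU, (memCa _).2 ?_⟩
    have h1 := (memCa y).1 hya
    have h2 := hBa b hb
    calc a * (b * y * b⁻¹) = (a * b) * y * b⁻¹ := by group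
      _ = b * (a * y) * b⁻¹ := by rw [← h2]; group
      _ = b * (y * a) * b⁻¹ := by rw [h1]
      _ = b * y * b⁻¹ * (b * a) * b⁻¹ := by group
      _ = b * y * b⁻¹ * (a * b) * b⁻¹ := by rw [h2]
      _ = b * y * b⁻¹ * a := by group
  obtain ⟨Y, hY𝒴, hYmin⟩ := (wellFounded_lt (α := Subgroup G)).has_min 𝒴 ⟨_, hU0mem⟩
  obtain ⟨hYU0, hYinv, hYP0⟩ := hY𝒴
  have hYU : Y ≤ U := hYU0.trans inf_le_left
  have hkey : ∀ b ∈ B, ∀ y ∈ Y, b * y * b⁻¹ * y⁻¹ ∈ P ⊓ Ca := by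
    intro b hb
    by_contra hne
    push Not at hne
    obtain ⟨Yb, hYbdef⟩ : ∃ Yb : Subgroup G,
        Yb = Subgroup.closure {g | ∃ y ∈ Y, g = b * y * b⁻¹ * y⁻¹} := ⟨_, rfl⟩
    have hYbY : Yb ≤ Y := by
      rw [hYbdef, Subgroup.closure_le]; rintro _ ⟨y, hy, rfl⟩
      exact Y.mul_mem (hYinv b hb y hy) (Y.inv_mem hy)
    have hYbinv : ∀ b' ∈ B, ∀ z ∈ Yb, b' * z * b'⁻¹ ∈ Yb := by
      intro b' hb' z hz
      have hle : Yb ≤ Yb.comap (MulAut.conj b').toMonoidHom := by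
        rw [hYbdef, Subgroup.closure_le]
        rintro _ ⟨y, hy, rfl⟩
        rw [SetLike.mem_coe, Subgroup.mem_comap]
        apply Subgroup.subset_closure
        refine ⟨b' * y * b'⁻¹, hYinv b' hb' y hy, ?_⟩
        have h1 := hBc b' hb' b hb
        show b' * (b * y * b⁻¹ * y⁻¹) * b'⁻¹ = b * (b' * y * b'⁻¹) * b⁻¹ * (b' * y * b'⁻¹)⁻¹
        have h2 : b'⁻¹ * b⁻¹ = b⁻¹ * b'⁻¹ := by
          rw [← mul_inv_rev, ← mul_inv_rev, h1]
        calc b' * (b * y * b⁻¹ * y⁻¹) * b'⁻¹ = (b' * b) * y * b⁻¹ * y⁻¹ * b'⁻¹ := by group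
          _ = (b * b') * y * (b'⁻¹ * b⁻¹) * (b' * y⁻¹ * b'⁻¹) := by rw [h1, h2]; group
          _ = b * (b' * y * b'⁻¹) * b⁻¹ * (b' * y * b'⁻¹)⁻¹ := by group
      have := hle hz
      rw [Subgroup.mem_comap] at this
      exact this
    have hYbP : ¬ Yb ≤ P ⊓ Ca := by
      intro h; obtain ⟨y, hy, hyn⟩ := hne
      exact hyn (h (by rw [hYbdef]; exact Subgroup.subset_closure ⟨y, hy, rfl⟩))
    have hYbmem : Yb ∈ 𝒴 := ⟨hYbY.trans hYU0, hYbinv, hYbP⟩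
    have hYeq : Yb = Y := by
      by_contra hne2
      exact hYmin Yb hYbmem (lt_of_le_of_ne hYbY hne2)
    have hcent : Yb ≤ Subgroup.centralizer ({b} : Set G) := by
      rw [hYbdef, Subgroup.closure_le]
      rintro _ ⟨y, hy, rfl⟩
      rw [SetLike.mem_coe, Subgroup.mem_centralizer_iff]
      intro c hc
      rw [Set.mem_singleton_iff] at hc
      subst hc
      have hzU : c * y * c⁻¹ * y⁻¹ ∈ U := U.mul_mem (hBU c hb y (hYU hy)) (U.inv_mem (hYU hy))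
      have hbinv : c⁻¹ = c := inv_eq_of_mul_eq_one_right (hB2 c hb)
      have hz2 := hinv _ hzU
      have e1 : c * (c * y * c⁻¹ * y⁻¹) * c⁻¹ = (c * y * c⁻¹ * y⁻¹)⁻¹ := by
        calc c * (c * y * c⁻¹ * y⁻¹) * c⁻¹ = (c * c) * y * c⁻¹ * y⁻¹ * c⁻¹ := by group
          _ = y * c * y⁻¹ * c⁻¹ := by rw [hB2 c hb, one_mul, hbinv]
          _ = (c * y * c⁻¹ * y⁻¹)⁻¹ := by group
      rw [hz2] at e1
      exact mul_inv_eq_iff_eq_mul.1 e1
    have hbot : Yb = ⊥ := by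
      rw [hYbdef, Subgroup.closure_eq_bot_iff]
      rintro _ ⟨y, hy, rfl⟩
      have hy' : y ∈ Yb := by rw [hYeq]; exact hy
      have h1 := hcent hy'
      rw [Subgroup.mem_centralizer_iff] at h1
      have h2 := h1 b (Set.mem_singleton b)
      rw [Set.mem_singleton_iff, h2]; group
    apply hYbP; rw [hbot]; exact bot_le
  obtain ⟨u, huY, huP0⟩ := SetLike.not_le_iff_exists.1 hYP0
  have huU0 := hYU0 huY
  have huU : u ∈ U := (Subgroup.mem_inf.1 huU0).1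
  have huCa : u ∈ Ca := (Subgroup.mem_inf.1 huU0).2
  have huP : u ∉ P := fun h => huP0 (Subgroup.mem_inf.2 ⟨h, huCa⟩)
  -- the centralizer of `u` in `B` has index at most 2
  obtain ⟨B', hB'def⟩ : ∃ B' : Subgroup G, B' = B ⊓ Subgroup.centralizer ({u} : Set G) := ⟨_, rfl⟩
  have memB' : ∀ x, x ∈ B' ↔ x ∈ B ∧ u * x = x * u := by
    intro x; rw [hB'def, Subgroup.mem_inf, Subgroup.mem_centralizer_iff]; simp
  have hB'B : B' ≤ B := fun x hx => ((memB' x).1 hx).1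
  have hBB' : Nat.card B ≤ 2 * Nat.card B' := by
    let ψ : ↥B →* ↥(P ⊓ Ca) := MonoidHom.mk'
      (fun b => ⟨(b : G) * u * (b : G)⁻¹ * u⁻¹, hkey b b.2 u huY⟩)
      (by
        rintro ⟨b, hb⟩ ⟨b', hb'⟩
        apply Subtype.ext
        show b * b' * u * (b * b')⁻¹ * u⁻¹ = (b * u * b⁻¹ * u⁻¹) * (b' * u * b'⁻¹ * u⁻¹)
        have hz := hkey b' hb' u huY
        have hzP := (memP _).1 (Subgroup.mem_inf.1 hz).1
        have h1 : b * (b' * u * b'⁻¹ * u⁻¹) * b⁻¹ = b' * u * b'⁻¹ * u⁻¹ := by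
          rw [hzP.2 b hb, mul_inv_cancel_right]
        have hw := hkey b hb u huY
        have hwU := hPU (Subgroup.mem_inf.1 hw).1
        have hc := hUc _ hzP.1 _ hwU
        calc b * b' * u * (b * b')⁻¹ * u⁻¹
            = (b * (b' * u * b'⁻¹ * u⁻¹) * b⁻¹) * (b * u * b⁻¹ * u⁻¹) := by group
          _ = (b' * u * b'⁻¹ * u⁻¹) * (b * u * b⁻¹ * u⁻¹) := by rw [h1]
          _ = (b * u * b⁻¹ * u⁻¹) * (b' * u * b'⁻¹ * u⁻¹) := hc)
    have h1 := Subgroup.card_mul_index ψ.ker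
    rw [Subgroup.index_ker] at h1
    have h2 : Nat.card ψ.ker ≤ Nat.card B' := by
      let g : ↥ψ.ker → ↥B' := fun k => ⟨((k : ↥B) : G), by
        have hk : ψ (k : ↥B) = 1 := k.2
        have hk' : ((k : ↥B) : G) * u * ((k : ↥B) : G)⁻¹ * u⁻¹ = 1 := congrArg Subtype.val hk
        refine (memB' _).2 ⟨(k : ↥B).2, ?_⟩
        have e1 : ((k : ↥B) : G) * u * ((k : ↥B) : G)⁻¹ = u := mul_inv_eq_one.1 hk'
        exact (mul_inv_eq_iff_eq_mul.1 e1).symm⟩
      apply Nat.card_le_card_of_injective g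
      intro k k' h
      apply Subtype.ext; apply Subtype.ext
      have h' : ((g k : ↥B') : G) = ((g k' : ↥B') : G) := congrArg Subtype.val h
      exact h'
    have h3 : Nat.card ψ.range ≤ 2 := (Subgroup.card_le_card_group _).trans hP0le
    calc Nat.card B = Nat.card ψ.ker * Nat.card ψ.range := h1.symm
      _ ≤ Nat.card B' * 2 := Nat.mul_le_mul h2 h3
      _ = 2 * Nat.card B' := mul_comm _ _
  -- the subgroup `U' = P ⟨u⟩ ⟨δ u⟩`
  have hδuU : d * u * d⁻¹ ∈ U := hd u huU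
  have hPdinv : ∀ y, d * y * d⁻¹ ∈ P → y ∈ U → y ∈ P := by
    intro y hy hyU
    have h1 := hPd _ (hPd _ hy)
    rw [hδ3 y hyU] at h1
    exact h1
  have hδuP : d * u * d⁻¹ ∉ P := fun h => huP (hPdinv u h huU)
  have huδu : d * u * d⁻¹ * u ∉ P := by
    intro h
    -- `δu * u = δ²u`
    have h1 := hτ u huU
    have h2 : d * (d * u * d⁻¹) * d⁻¹ = (u * (d * u * d⁻¹))⁻¹ := eq_inv_of_mul_eq_one_right h1
    have h3 : u * (d * u * d⁻¹) = d * u * d⁻¹ * u := hUc u huU _ hδuU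
    rw [h3, hinv _ (U.mul_mem hδuU huU)] at h2
    rw [← h2] at h
    exact hδuP (hPdinv _ h hδuU)
  have h1le : 2 * Nat.card P ≤ Nat.card (P ⊔ Subgroup.zpowers u : Subgroup G) := by
    apply jexw_two_mul_card_le le_sup_left
    intro h
    exact huP (h (le_sup_right (a := P) (Subgroup.mem_zpowers u)))
  have hPuU : P ⊔ Subgroup.zpowers u ≤ U := sup_le hPU (by rw [Subgroup.zpowers_le]; exact huU)
  have h2le : 2 * Nat.card (P ⊔ Subgroup.zpowers u : Subgroup G) ≤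
      Nat.card (P ⊔ Subgroup.zpowers u ⊔ Subgroup.zpowers (d * u * d⁻¹) : Subgroup G) := by
    apply jexw_two_mul_card_le le_sup_left
    intro h
    have h1 := h (le_sup_right (a := P ⊔ Subgroup.zpowers u) (Subgroup.mem_zpowers (d * u * d⁻¹)))
    rcases jexw_mem_sup_zpowers hPU hU2 hUc huU h1 with h2 | h2
    · exact hδuP h2
    · exact huδu h2
  have hU'U : P ⊔ Subgroup.zpowers u ⊔ Subgroup.zpowers (d * u * d⁻¹) ≤ U :=
    sup_le hPuU (by rw [Subgroup.zpowers_le]; exact hδuU)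
  have hcomm : ∀ b ∈ B', ∀ x ∈ P ⊔ Subgroup.zpowers u ⊔ Subgroup.zpowers (d * u * d⁻¹),
      b * x = x * b := by
    intro b hb x hx
    obtain ⟨hbB, hbu⟩ := (memB' b).1 hb
    have hle : P ⊔ Subgroup.zpowers u ⊔ Subgroup.zpowers (d * u * d⁻¹) ≤
        Subgroup.centralizer ({b} : Set G) := by
      refine sup_le (sup_le ?_ ?_) ?_
      · intro p hp
        rw [Subgroup.mem_centralizer_iff]
        intro c hc
        rw [Set.mem_singleton_iff] at hc; subst hc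
        exact ((memP p).1 hp).2 c hbB
      · rw [Subgroup.zpowers_le, Subgroup.mem_centralizer_iff]
        intro c hc
        rw [Set.mem_singleton_iff] at hc; subst hc
        exact hbu.symm
      · rw [Subgroup.zpowers_le, Subgroup.mem_centralizer_iff]
        intro c hc
        rw [Set.mem_singleton_iff] at hc; subst hc
        have h1 := hBd c hbB u huU
        have h2 : c * u * c⁻¹ = u := by rw [← hbu, mul_inv_cancel_right]
        rw [h2] at h1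
        exact mul_inv_eq_iff_eq_mul.1 h1
    have := hle hx
    rw [Subgroup.mem_centralizer_iff] at this
    exact this b (Set.mem_singleton b)
  have h3 := hcount B' hB'B _ hU'U hcomm
  have h4 : B' ⊓ (P ⊔ Subgroup.zpowers u ⊔ Subgroup.zpowers (d * u * d⁻¹)) ≤ P ⊓ Ca := by
    intro x hx
    obtain ⟨hxB', hxU'⟩ := Subgroup.mem_inf.1 hx
    have hxB := hB'B hxB'
    exact Subgroup.mem_inf.2 ⟨(memP x).2 ⟨hU'U hxU', fun b hb => hBc b hb x hxB⟩,
      (memCa x).2 (hBa x hxB).symm⟩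
  have h5 := Subgroup.card_le_of_le h4
  have hB'pos : 0 < Nat.card B' := Nat.card_pos
  -- `4 |P| |B'| ≤ |B'| |U'| ≤ 2 |B| |P₀| ≤ 4 |B'| |P₀|`
  have h6 : Nat.card B' * (4 * Nat.card P) ≤ Nat.card B' * (4 * Nat.card (P ⊓ Ca : Subgroup G)) := by
    calc Nat.card B' * (4 * Nat.card P)
        ≤ Nat.card B' *
          Nat.card (P ⊔ Subgroup.zpowers u ⊔ Subgroup.zpowers (d * u * d⁻¹) : Subgroup G) := by
          apply Nat.mul_le_mul_left; omega
      _ ≤ 2 * Nat.card B * Nat.card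
          (B' ⊓ (P ⊔ Subgroup.zpowers u ⊔ Subgroup.zpowers (d * u * d⁻¹)) : Subgroup G) := h3
      _ ≤ 2 * (2 * Nat.card B') * Nat.card (P ⊓ Ca : Subgroup G) :=
          Nat.mul_le_mul (Nat.mul_le_mul_left _ hBB') h5
      _ = Nat.card B' * (4 * Nat.card (P ⊓ Ca : Subgroup G)) := by ring
  have h7 : Nat.card P ≤ Nat.card (P ⊓ Ca : Subgroup G) := by
    have := Nat.le_of_mul_le_mul_left h6 hB'pos
    omega
  have h8 : Nat.card (P ⊓ Ca : Subgroup G) ≤ 1 := by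
    have h9 : Nat.card (P ⊓ Ca : Subgroup G) * Nat.card (P ⊓ Ca : Subgroup G) ≤
        1 * Nat.card (P ⊓ Ca : Subgroup G) := by rw [one_mul]; exact hF4.trans h7
    exact Nat.le_of_mul_le_mul_right h9 hP0pos
  have h10 : P ⊓ Ca = ⊥ := (Subgroup.card_le_one_iff_eq_bot _).1 h8
  apply huP
  refine (memP u).2 ⟨huU, fun b hb => ?_⟩
  have h11 := hkey b hb u huY
  rw [h10, Subgroup.mem_bot] at h11
  have h12 : b * u * b⁻¹ = u := mul_inv_eq_one.1 h11
  exact mul_inv_eq_iff_eq_mul.1 h12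

end JExW

end Cfsg.Agent.Helper49
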