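import Cfsg.Agent.Helper49.JComp3
import Cfsg.Agent.Helper49.JExW
import Cfsg.Agent.Helper49.PCore

/-!
Helper49: existence of a `J(T)`-component (see `Cfsg.IsJComponent`) from abstract data
`JEx T N Q C V D`: `T` a 2-group inside `N`, `Q ≤ T` normal in `N`, `Q ≤ C ≤ D ≤ N` with `C`
normal in `N`, `C / Q` without 2-elements and centralized by `T`, `V ≤ Ω₁(Z(Q))` normal in `N`
with `C = C_N(V)`, and `D / C` of order three normalized by `J(T)` and not centralized by it.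
The component is the normal closure of a suitable element `d` of order three of `D` under `Q`.
-/

set_option autoImplicit false

namespace Cfsg.Agent.Helper49

open scoped commutatorElement
open Cfsg.Agent.Helper10 Cfsg.Agent.Helper47

variable {G : Type*} [Group G]

/-- The abstract data from which a `J(T)`-component is built. -/
structure JEx (T N Q C V D : Subgroup G) : Prop where
  T2 : IsPGroup 2 T
  TN : T ≤ N
  QT : Q ≤ T
  QC : Q ≤ C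
  CD : C ≤ D
  DN : D ≤ N
  Qn : ∀ g ∈ N, ∀ q ∈ Q, g * q * g⁻¹ ∈ Q
  Cn : ∀ g ∈ N, ∀ c ∈ C, g * c * g⁻¹ ∈ C
  two_mem : ∀ c ∈ C, ∀ k : ℕ, c ^ 2 ^ k = 1 → c ∈ Q
  comm_T : ∀ c ∈ C, ∀ t ∈ T, c * t * c⁻¹ * t⁻¹ ∈ Q
  V_sq : ∀ v ∈ V, v * v = 1
  VQ : V ≤ Q
  V_comm : ∀ v ∈ V, ∀ q ∈ Q, v * q = q * v
  Vn : ∀ g ∈ N, ∀ v ∈ V, g * v * g⁻¹ ∈ V
  mem_C : ∀ c ∈ N, (∀ v ∈ V, c * v = v * c) → c ∈ C
  Dn : ∀ x ∈ Cfsg.thompsonSubgroupOf 2 T, ∀ y ∈ D, x * y * x⁻¹ ∈ D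
  D_cube : ∀ y ∈ D, y ^ 3 ∈ C
  D_three : ∀ x ∈ D, x ∉ C → ∀ y ∈ D, y ∈ C ∨ y * x⁻¹ ∈ C ∨ y * x ∈ C
  Tsyl : ∀ S : Subgroup G, S ≤ N → IsPGroup 2 S → Cfsg.thompsonSubgroupOf 2 T ≤ S →
    Cfsg.thompsonSubgroupOf 2 S = Cfsg.thompsonSubgroupOf 2 T

theorem jex_conj_closure_mem {S : Set G} {g : G}
    (hS : ∀ s ∈ S, g * s * g⁻¹ ∈ Subgroup.closure S) :
    ∀ x ∈ Subgroup.closure S, g * x * g⁻¹ ∈ Subgroup.closure S := by
  intro x hx
  induction hx using Subgroup.closure_induction with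
  | mem y hy => exact hS y hy
  | one => simp
  | mul y z _ _ ihy ihz =>
    have e : g * (y * z) * g⁻¹ = (g * y * g⁻¹) * (g * z * g⁻¹) := by group
    rw [e]; exact Subgroup.mul_mem _ ihy ihz
  | inv y _ ihy =>
    have e : g * y⁻¹ * g⁻¹ = (g * y * g⁻¹)⁻¹ := by group
    rw [e]; exact Subgroup.inv_mem _ ihy

theorem jex_inv_conj {a x : G} (ha : a * a = 1) :
    a * (x⁻¹ * (a * x * a⁻¹)) * a⁻¹ = (x⁻¹ * (a * x * a⁻¹))⁻¹ := by
  have hai : a⁻¹ = a := inv_eq_of_mul_eq_one_left ha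
  have e1 : a * (x⁻¹ * (a * x * a⁻¹)) * a⁻¹ = a * x⁻¹ * a * x * (a * a)⁻¹ := by group
  have e2 : (x⁻¹ * (a * x * a⁻¹))⁻¹ = a * x⁻¹ * a⁻¹ * x := by group
  rw [e1, ha, inv_one, mul_one, e2, hai]

namespace JEx

variable {T N Q C V D : Subgroup G}

theorem QN (h : JEx T N Q C V D) : Q ≤ N := h.QT.trans h.TN

theorem CN (h : JEx T N Q C V D) : C ≤ N := h.CD.trans h.DN

theorem JT (_h : JEx T N Q C V D) : Cfsg.thompsonSubgroupOf 2 T ≤ T := thompsonOf_le_self 2 T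

theorem JN (h : JEx T N Q C V D) : Cfsg.thompsonSubgroupOf 2 T ≤ N := h.JT.trans h.TN

theorem T_pow (h : JEx T N Q C V D) {t : G} (ht : t ∈ T) : ∃ k : ℕ, t ^ 2 ^ k = 1 := by
  obtain ⟨k, hk⟩ := h.T2 ⟨t, ht⟩
  exact ⟨k, by simpa using congrArg Subtype.val hk⟩

theorem Q_pow (h : JEx T N Q C V D) {t : G} (ht : t ∈ Q) : ∃ k : ℕ, t ^ 2 ^ k = 1 :=
  h.T_pow (h.QT ht)

theorem Q2 (h : JEx T N Q C V D) : IsPGroup 2 Q := h.T2.to_le h.QT

/-- Step A: an element `d ∈ D ∖ C` of order three inverted by `a`. -/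
theorem exists_d (h : JEx T N Q C V D) {a d₀ : G}
    (haT : a ∈ Cfsg.thompsonSubgroupOf 2 T) (ha2 : a * a = 1) (hd₀ : d₀ ∈ D)
    (hne : a * d₀ * a⁻¹ * d₀⁻¹ ∉ C) (hfin : IsOfFinOrder (d₀⁻¹ * (a * d₀ * a⁻¹))) :
    ∃ d ∈ D, d ∉ C ∧ d ^ 3 = 1 ∧ a * d * a⁻¹ = d⁻¹ := by
  set d₁ : G := d₀⁻¹ * (a * d₀ * a⁻¹) with hd₁
  have hd₁D : d₁ ∈ D := D.mul_mem (D.inv_mem hd₀) (h.Dn a haT d₀ hd₀)
  have hd₁C : d₁ ∉ C := by
    intro hc
    apply hne
    have h1 := h.Cn d₀ (h.DN hd₀) d₁ hc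
    have e : d₀ * d₁ * d₀⁻¹ = a * d₀ * a⁻¹ * d₀⁻¹ := by rw [hd₁]; group
    rwa [e] at h1
  have hinv1 : a * d₁ * a⁻¹ = d₁⁻¹ := jex_inv_conj ha2
  obtain ⟨k, m, hm, hkm⟩ := Nat.exists_eq_two_pow_mul_odd (hfin.orderOf_pos).ne'
  refine ⟨d₁ ^ 2 ^ k, D.pow_mem hd₁D _, ?_, ?_, ?_⟩
  · intro hc
    apply hd₁C
    exact mem_of_pow_mem_of_coprime (m := 3) (n := 2 ^ k)
      (Nat.Coprime.pow_right k (by norm_num)) (h.D_cube d₁ hd₁D) hc
  · have hdm : (d₁ ^ 2 ^ k) ^ m = 1 := by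
      rw [← pow_mul, ← hkm, pow_orderOf_eq_one]
    have hinv : a * d₁ ^ 2 ^ k * a⁻¹ = (d₁ ^ 2 ^ k)⁻¹ := by
      rw [← conj_pow, hinv1, inv_pow]
    set d : G := d₁ ^ 2 ^ k with hd
    have hdD : d ∈ D := D.pow_mem hd₁D _
    have hcC : d ^ 3 ∈ C := h.D_cube d hdD
    have hcinv : a * d ^ 3 * a⁻¹ = (d ^ 3)⁻¹ := by
      rw [← conj_pow, hinv, inv_pow]
    have h1 := h.comm_T (d ^ 3) hcC a (h.JT haT)
    have e : d ^ 3 * a * (d ^ 3)⁻¹ * a⁻¹ = d ^ 3 * d ^ 3 := by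
      have e' : d ^ 3 * a * (d ^ 3)⁻¹ * a⁻¹ = d ^ 3 * (a * d ^ 3 * a⁻¹)⁻¹ := by group
      rw [e', hcinv, inv_inv]
    rw [e] at h1
    obtain ⟨j, hj⟩ := h.Q_pow h1
    have h2 : (d ^ 3) ^ 2 ^ (j + 1) = 1 := by
      have e0 : 2 ^ (j + 1) = 2 * 2 ^ j := pow_succ' 2 j
      rw [e0, pow_mul, pow_two]
      exact hj
    have h3 : (d ^ 3) ^ m = 1 := by
      rw [← pow_mul, mul_comm, pow_mul, hdm, one_pow]
    have hcop : m.Coprime 2 := hm.coprime_two_right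
    exact eq_one_of_pow_eq_one_of_coprime h3 h2 hcop
  · rw [← conj_pow, hinv1, inv_pow]

/-- Step B1: an element of `T` centralizing `d` modulo `C` centralizes it modulo `Q`. -/
theorem B1 (h : JEx T N Q C V D) {d t : G} (ht : t ∈ T)
    (hc : d⁻¹ * (t * d * t⁻¹) ∈ C) : d⁻¹ * (t * d * t⁻¹) ∈ Q := by
  set c : G := d⁻¹ * (t * d * t⁻¹) with hcdef
  have key : ∀ i : ℕ, d⁻¹ * (t ^ i * d * (t ^ i)⁻¹) ∈ C ∧
      (c ^ i)⁻¹ * (d⁻¹ * (t ^ i * d * (t ^ i)⁻¹)) ∈ Q := by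
    intro i
    induction i with
    | zero => simp [C.one_mem, Q.one_mem]
    | succ i ih =>
      obtain ⟨ih1, ih2⟩ := ih
      set ci : G := d⁻¹ * (t ^ i * d * (t ^ i)⁻¹) with hci
      have e1 : d⁻¹ * (t ^ (i + 1) * d * (t ^ (i + 1))⁻¹) = c * (t * ci * t⁻¹) := by
        rw [pow_succ', hcdef, hci]; group
      have h1 : t * ci * t⁻¹ ∈ C := h.Cn t (h.TN ht) ci ih1
      refine ⟨by rw [e1]; exact C.mul_mem hc h1, ?_⟩
      have h2 : ci⁻¹ * t * ci * t⁻¹ ∈ Q := by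
        have := h.comm_T ci⁻¹ (C.inv_mem ih1) t ht
        simpa using this
      have e2 : (c ^ (i + 1))⁻¹ * (c * (t * ci * t⁻¹)) =
          ((c ^ i)⁻¹ * ci) * (ci⁻¹ * t * ci * t⁻¹) := by
        rw [pow_succ']; group
      rw [e1, e2]
      exact Q.mul_mem ih2 h2
  obtain ⟨j, hj⟩ := h.T_pow ht
  have h1 := (key (2 ^ j)).2
  rw [hj] at h1
  have h2 : c ^ 2 ^ j ∈ Q := by
    have : (c ^ 2 ^ j)⁻¹ ∈ Q := by simpa using h1
    simpa using Q.inv_mem this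
  obtain ⟨j', hj'⟩ := h.Q_pow h2
  apply h.two_mem c hc (j + j')
  rw [pow_add, pow_mul, hj']

/-- Step B2: every element of `J(T)` centralizes or inverts `d` modulo `Q`. -/
theorem B2 (h : JEx T N Q C V D) {a d : G}
    (haT : a ∈ Cfsg.thompsonSubgroupOf 2 T) (hdD : d ∈ D) (hdC : d ∉ C)
    (hinv : a * d * a⁻¹ = d⁻¹) {x : G} (hx : x ∈ Cfsg.thompsonSubgroupOf 2 T) :
    d⁻¹ * (x * d * x⁻¹) ∈ Q ∨ (x * d * x⁻¹) * d ∈ Q := by
  have hxd := h.Dn x hx d hdD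
  rcases h.D_three d hdD hdC (x * d * x⁻¹) hxd with h1 | h1 | h1
  · exfalso
    apply hdC
    have := h.Cn x⁻¹ (N.inv_mem (h.JN hx)) _ h1
    have e : x⁻¹ * (x * d * x⁻¹) * x⁻¹⁻¹ = d := by group
    rwa [e] at this
  · left
    apply h.B1 (h.JT hx)
    have := h.Cn d⁻¹ (N.inv_mem (h.DN hdD)) _ h1
    have e : d⁻¹ * (x * d * x⁻¹ * d⁻¹) * d⁻¹⁻¹ = d⁻¹ * (x * d * x⁻¹) := by group
    rwa [e] at this
  · right
    have ht : x * a ∈ T := T.mul_mem (h.JT hx) (h.JT haT)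
    have e : d⁻¹ * ((x * a) * d * (x * a)⁻¹) = ((x * d * x⁻¹) * d)⁻¹ := by
      have e' : (x * a) * d * (x * a)⁻¹ = x * (a * d * a⁻¹) * x⁻¹ := by group
      rw [e', hinv]; group
    have h2 := h.B1 (d := d) ht (by rw [e]; exact C.inv_mem h1)
    rw [e] at h2
    simpa using Q.inv_mem h2

theorem N_le_normQ (h : JEx T N Q C V D) : N ≤ Subgroup.normalizer (Q : Set G) :=
  mem_normalizer_of_forall_conj h.Qn

end JEx

/-- The normal closure of `d` under `Q`. -/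
def jexK (Q : Subgroup G) (d : G) : Subgroup G :=
  Subgroup.closure {g : G | ∃ q ∈ Q, g = q * d * q⁻¹}

theorem jexK_self (Q : Subgroup G) (d : G) : d ∈ jexK Q d :=
  Subgroup.subset_closure ⟨1, Q.one_mem, by simp⟩

theorem jexK_conj_mem (Q : Subgroup G) (d : G) {q : G} (hq : q ∈ Q) :
    q * d * q⁻¹ ∈ jexK Q d :=
  Subgroup.subset_closure ⟨q, hq, rfl⟩

theorem jexK_Q_norm (Q : Subgroup G) (d : G) :
    Q ≤ Subgroup.normalizer (jexK Q d : Set G) := by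
  apply mem_normalizer_of_forall_conj
  intro g hg x hx
  refine jex_conj_closure_mem (S := {g : G | ∃ q ∈ Q, g = q * d * q⁻¹}) ?_ x hx
  rintro _ ⟨q, hq, rfl⟩
  apply Subgroup.subset_closure
  exact ⟨g * q, Q.mul_mem hg hq, by group⟩

theorem jexK_le {Q N : Subgroup G} {d : G} (hQ : Q ≤ N) (hd : d ∈ N) : jexK Q d ≤ N := by
  unfold jexK
  rw [Subgroup.closure_le]
  rintro _ ⟨q, hq, rfl⟩
  exact N.mul_mem (N.mul_mem (hQ hq) hd) (N.inv_mem (hQ hq))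

/-- The data of the construction: a largest elementary abelian subgroup `A` of `T`, an element
`a ∈ A` and an element `d ∈ D ∖ C` of order three inverted by `a`. -/
structure JExD (T N Q C V D A : Subgroup G) (a d : G) : Prop extends JEx T N Q C V D where
  hA : IsMaxEAIn 2 T A
  aA : a ∈ A
  dD : d ∈ D
  dC : d ∉ C
  d3 : d ^ 3 = 1
  inv : a * d * a⁻¹ = d⁻¹

namespace JExD

variable {T N Q C V D A : Subgroup G} {a d : G}

theorem aJ (h : JExD T N Q C V D A a d) : a ∈ Cfsg.thompsonSubgroupOf 2 T :=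
  h.hA.le_thompsonOf h.aA

theorem A_sq (h : JExD T N Q C V D A a d) {x : G} (hx : x ∈ A) : x * x = 1 := by
  have := ((elemAb_iff 2 A).mp h.hA.2.1).2 x hx
  rwa [pow_two] at this

theorem A_comm (h : JExD T N Q C V D A a d) {x y : G} (hx : x ∈ A) (hy : y ∈ A) :
    x * y = y * x :=
  ((elemAb_iff 2 A).mp h.hA.2.1).1 x hx y hy

theorem a2 (h : JExD T N Q C V D A a d) : a * a = 1 := h.A_sq h.aA

theorem dN (h : JExD T N Q C V D A a d) : d ∈ N := h.DN h.dD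

theorem dQ (h : JExD T N Q C V D A a d) : d ∉ Q := fun hq => h.dC (h.QC hq)

theorem d_ne (h : JExD T N Q C V D A a d) : d ≠ 1 := by
  rintro rfl
  exact h.dC C.one_mem

theorem orderOf_d (h : JExD T N Q C V D A a d) : orderOf d = 3 := by
  have : Fact (Nat.Prime 3) := ⟨Nat.prime_three⟩
  exact orderOf_eq_prime h.d3 h.d_ne

theorem sub (h : JExD T N Q C V D A a d) {q : G} (hq : q ∈ Q) (h3 : (d * q) ^ 3 = 1) :
    q ∈ jexK Q d := by
  have hdK : d ∈ jexK Q d := jexK_self Q d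
  have hqd : q * d * q⁻¹ ∈ jexK Q d := jexK_conj_mem Q d hq
  have hd3 : d * d * d = 1 := by rw [← h.d3, pow_succ, pow_two]
  have h3' : (d * q) * (d * q) * (d * q) = 1 := by rw [← h3, pow_succ, pow_two]
  have hk1 : d * q * d⁻¹ * q⁻¹ ∈ jexK Q d := by
    have e : d * q * d⁻¹ * q⁻¹ = d * (q * d * q⁻¹)⁻¹ := by group
    rw [e]; exact Subgroup.mul_mem _ hdK (Subgroup.inv_mem _ hqd)
  have hk2 : (d * d) * q * (d * d)⁻¹ * q⁻¹ ∈ jexK Q d := by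
    have e : (d * d) * q * (d * d)⁻¹ * q⁻¹ = (d * d) * ((q * d * q⁻¹) * (q * d * q⁻¹))⁻¹ := by
      group
    rw [e]
    exact Subgroup.mul_mem _ (Subgroup.mul_mem _ hdK hdK)
      (Subgroup.inv_mem _ (Subgroup.mul_mem _ hqd hqd))
  have e1 : (d * q) * (d * q) * (d * q) = (d * q * d⁻¹ * q⁻¹) * q *
      ((d * d) * q * (d * d)⁻¹ * q⁻¹) * q * ((d * d * d) * q * (d * d * d)⁻¹) * (d * d * d) := by
    group
  rw [h3', hd3] at e1
  have hq3 : q ^ 3 ∈ jexK Q d := by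
    have e2 : q ^ 3 = (q * ((d * d) * q * (d * d)⁻¹ * q⁻¹) * q⁻¹)⁻¹ *
        (d * q * d⁻¹ * q⁻¹)⁻¹ *
        ((d * q * d⁻¹ * q⁻¹) * q * ((d * d) * q * (d * d)⁻¹ * q⁻¹) * q * (1 * q * 1⁻¹) * 1) := by
      group
    rw [e2, ← e1, mul_one]
    exact Subgroup.mul_mem _
      (Subgroup.inv_mem _ (conj_mem_of_mem_normalizer (jexK_Q_norm Q d hq) hk2))
      (Subgroup.inv_mem _ hk1)
  obtain ⟨j, hj⟩ := h.Q_pow hq
  exact mem_of_pow_mem_of_coprime (m := 3) (n := 2 ^ j)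
    (Nat.Coprime.pow_right j (by norm_num)) hq3 (by rw [hj]; exact Subgroup.one_mem _)

theorem J_norm (h : JExD T N Q C V D A a d) :
    Cfsg.thompsonSubgroupOf 2 T ≤ Subgroup.normalizer (jexK Q d : Set G) := by
  apply mem_normalizer_of_forall_conj
  intro x hx y hy
  have hxd : x * d * x⁻¹ ∈ jexK Q d := by
    have h3 : (x * d * x⁻¹) ^ 3 = 1 := by rw [conj_pow, h.d3]; group
    rcases h.toJEx.B2 h.aJ h.dD h.dC h.inv hx with h1 | h1
    · have e : x * d * x⁻¹ = d * (d⁻¹ * (x * d * x⁻¹)) := by group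
      have h4 : (d * (d⁻¹ * (x * d * x⁻¹))) ^ 3 = 1 := by rw [← e]; exact h3
      rw [e]; exact Subgroup.mul_mem _ (jexK_self Q d) (h.sub h1 h4)
    · have e : x * d * x⁻¹ = (x * d * x⁻¹ * d) * d⁻¹ := by group
      have h4 : (d * (x * d * x⁻¹ * d)⁻¹) ^ 3 = 1 := by
        have e' : d * (x * d * x⁻¹ * d)⁻¹ = (x * d * x⁻¹)⁻¹ := by group
        rw [e', inv_pow, h3, inv_one]
      have h5 := h.sub (Q.inv_mem h1) h4
      rw [e]
      exact Subgroup.mul_mem _ (by simpa using Subgroup.inv_mem _ h5)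
        (Subgroup.inv_mem _ (jexK_self Q d))
  refine jex_conj_closure_mem (S := {g : G | ∃ q ∈ Q, g = q * d * q⁻¹}) ?_ y hy
  rintro _ ⟨q, hq, rfl⟩
  have hxq : x * q * x⁻¹ ∈ Q := h.Qn x (h.JN hx) q hq
  have e : x * (q * d * q⁻¹) * x⁻¹ = (x * q * x⁻¹) * (x * d * x⁻¹) * (x * q * x⁻¹)⁻¹ := by
    group
  rw [e]
  exact conj_mem_of_mem_normalizer (jexK_Q_norm Q d hxq) hxd

theorem gen (h : JExD T N Q C V D A a d) :
    Subgroup.closure {g : G | g ∈ jexK Q d ∧ Odd (orderOf g)} = jexK Q d := by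
  apply le_antisymm
  · rw [Subgroup.closure_le]; exact fun g hg => hg.1
  · have : Subgroup.closure {g : G | ∃ q ∈ Q, g = q * d * q⁻¹} ≤
        Subgroup.closure {g : G | g ∈ jexK Q d ∧ Odd (orderOf g)} := by
      rw [Subgroup.closure_le]
      rintro _ ⟨q, hq, rfl⟩
      apply Subgroup.subset_closure
      refine ⟨jexK_conj_mem Q d hq, ?_⟩
      have h3 : (q * d * q⁻¹) ^ 3 = 1 := by rw [conj_pow, h.d3]; group
      rcases (Nat.dvd_prime Nat.prime_three).1 (orderOf_dvd_of_pow_eq_one h3) with h1 | h1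
      · rw [h1]; exact ⟨0, rfl⟩
      · rw [h1]; exact ⟨1, rfl⟩
    exact this

theorem comm (h : JExD T N Q C V D A a d) :
    ⁅jexK Q d, Cfsg.thompsonSubgroupOf 2 T⁆ = jexK Q d := by
  apply le_antisymm
  · rw [Subgroup.commutator_le]
    intro k hk j hj
    rw [commutatorElement_def]
    have e : k * j * k⁻¹ * j⁻¹ = k * (j * k⁻¹ * j⁻¹) := by group
    rw [e]
    exact Subgroup.mul_mem _ hk
      (conj_mem_of_mem_normalizer (h.J_norm hj) (Subgroup.inv_mem _ hk))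
  · have hd : d ∈ ⁅jexK Q d, Cfsg.thompsonSubgroupOf 2 T⁆ := by
      have h1 : ⁅d⁻¹, a⁆ ∈ ⁅jexK Q d, Cfsg.thompsonSubgroupOf 2 T⁆ :=
        Subgroup.commutator_mem_commutator (Subgroup.inv_mem _ (jexK_self Q d)) h.aJ
      have e : ⁅d⁻¹, a⁆ = d := by
        rw [commutatorElement_def]
        have e' : d⁻¹ * a * d⁻¹⁻¹ * a⁻¹ = d⁻¹ * (a * d * a⁻¹) := by group
        have e'' : d⁻¹ * d⁻¹ = d⁻¹ * d⁻¹ * d ^ 3 := by rw [h.d3, mul_one]
        rw [e', h.inv, e'']; group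
      rwa [e] at h1
    have hQn : Q ≤ Subgroup.normalizer
        ((⁅jexK Q d, Cfsg.thompsonSubgroupOf 2 T⁆ : Subgroup G) : Set G) := by
      refine le_trans (le_inf (jexK_Q_norm Q d) ?_) (normalizer_inf_le_normalizer_commutator _ _)
      exact h.QT.trans (Subgroup.le_normalizer.trans (normalizer_le_normalizer_thompsonOf 2 T))
    have : Subgroup.closure {g : G | ∃ q ∈ Q, g = q * d * q⁻¹} ≤
        ⁅jexK Q d, Cfsg.thompsonSubgroupOf 2 T⁆ := by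
      rw [Subgroup.closure_le]
      rintro _ ⟨q, hq, rfl⟩
      exact conj_mem_of_mem_normalizer (hQn hq) hd
    exact this

theorem K_le (h : JExD T N Q C V D A a d) : jexK Q d ≤ N := jexK_le h.QN h.dN

theorem K_le_sup (_h : JExD T N Q C V D A a d) : jexK Q d ≤ Q ⊔ Subgroup.zpowers d := by
  unfold jexK
  rw [Subgroup.closure_le]
  rintro _ ⟨q, hq, rfl⟩
  have hq' : q ∈ Q ⊔ Subgroup.zpowers d := (le_sup_left : Q ≤ Q ⊔ Subgroup.zpowers d) hq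
  have hd' : d ∈ Q ⊔ Subgroup.zpowers d :=
    (le_sup_right : Subgroup.zpowers d ≤ Q ⊔ Subgroup.zpowers d) (Subgroup.mem_zpowers d)
  exact Subgroup.mul_mem _ (Subgroup.mul_mem _ hq' hd') (Subgroup.inv_mem _ hq')

theorem zpowers_le_K (_h : JExD T N Q C V D A a d) : Subgroup.zpowers d ≤ jexK Q d :=
  (Subgroup.zpowers_le).mpr (jexK_self Q d)

theorem K_decomp (h : JExD T N Q C V D A a d) {k : G} (hk : k ∈ jexK Q d) :
    ∃ r ∈ jexK Q d ⊓ Q, ∃ z ∈ Subgroup.zpowers d, k = r * z := by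
  have hzn : Subgroup.zpowers d ≤ Subgroup.normalizer (Q : Set G) := by
    rw [Subgroup.zpowers_le]
    exact h.N_le_normQ h.dN
  obtain ⟨q, hq, z, hz, rfl⟩ := exists_mul_of_mem_sup hzn (h.K_le_sup hk)
  refine ⟨q, Subgroup.mem_inf.mpr ⟨?_, hq⟩, z, hz, rfl⟩
  have hzK : z ∈ jexK Q d := h.zpowers_le_K hz
  have e : q = (q * z) * z⁻¹ := by group
  rw [e]; exact Subgroup.mul_mem _ hk (Subgroup.inv_mem _ hzK)

theorem zpowers_inf [Finite G] (h : JExD T N Q C V D A a d) : Subgroup.zpowers d ⊓ Q = ⊥ := by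
  have : Fact (Nat.Prime 2) := ⟨Nat.prime_two⟩
  apply disjoint_iff.mp
  apply Subgroup.disjoint_of_coprime_natCard
  obtain ⟨n, hn⟩ := h.Q2.exists_card_eq
  rw [hn, Nat.card_zpowers, h.orderOf_d]
  exact Nat.Coprime.pow_right n (by norm_num)

theorem card_K [Finite G] (h : JExD T N Q C V D A a d) :
    Nat.card (jexK Q d) = Nat.card (jexK Q d ⊓ Q : Subgroup G) * 3 := by
  let f : ↥(jexK Q d ⊓ Q : Subgroup G) × ↥(Subgroup.zpowers d) → ↥(jexK Q d) := fun p =>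
    ⟨(p.1 : G) * (p.2 : G), Subgroup.mul_mem _ (Subgroup.mem_inf.mp p.1.2).1
      (h.zpowers_le_K p.2.2)⟩
  have hf : Function.Bijective f := by
    constructor
    · rintro ⟨r, z⟩ ⟨r', z'⟩ hEq
      have h' : ((f (r, z) : ↥(jexK Q d)) : G) = ((f (r', z') : ↥(jexK Q d)) : G) :=
        congrArg Subtype.val hEq
      change (r : G) * (z : G) = (r' : G) * (z' : G) at h'
      have e : (r' : G)⁻¹ * (r : G) = (z' : G) * (z : G)⁻¹ := by
        rw [inv_mul_eq_iff_eq_mul, ← mul_assoc, ← h', mul_inv_cancel_right]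
      have hx : (r' : G)⁻¹ * (r : G) ∈ Subgroup.zpowers d ⊓ Q := by
        refine Subgroup.mem_inf.mpr ⟨?_, ?_⟩
        · rw [e]; exact Subgroup.mul_mem _ z'.2 (Subgroup.inv_mem _ z.2)
        · exact Q.mul_mem (Q.inv_mem (Subgroup.mem_inf.mp r'.2).2) (Subgroup.mem_inf.mp r.2).2
      rw [h.zpowers_inf, Subgroup.mem_bot] at hx
      have hr : (r' : G) = (r : G) := inv_mul_eq_one.mp hx
      have hz : (z' : G) = (z : G) := by
        rw [e] at hx; exact mul_inv_eq_one.mp hx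
      exact Prod.ext (Subtype.ext hr.symm) (Subtype.ext hz.symm)
    · rintro ⟨k, hk⟩
      obtain ⟨r, hr, z, hz, rfl⟩ := h.K_decomp hk
      exact ⟨(⟨r, hr⟩, ⟨z, hz⟩), rfl⟩
  rw [← Nat.card_congr (Equiv.ofBijective f hf), Nat.card_prod, Nat.card_zpowers, h.orderOf_d]

theorem relIndex_R [Finite G] (h : JExD T N Q C V D A a d) :
    (jexK Q d ⊓ Q).relIndex (jexK Q d) = 3 := by
  have h1 := card_eq_card_mul_relIndex (inf_le_left : jexK Q d ⊓ Q ≤ jexK Q d)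
  rw [h.card_K] at h1
  have hpos : 0 < Nat.card (jexK Q d ⊓ Q : Subgroup G) := Nat.card_pos
  exact (Nat.eq_of_mul_eq_mul_left hpos h1).symm

theorem pCoreOf_K [Finite G] (h : JExD T N Q C V D A a d) :
    Cfsg.pCoreOf 2 (jexK Q d) = jexK Q d ⊓ Q := by
  have : Fact (Nat.Prime 2) := ⟨Nat.prime_two⟩
  have hRn : jexK Q d ≤ Subgroup.normalizer ((jexK Q d ⊓ Q : Subgroup G) : Set G) := by
    apply mem_normalizer_of_forall_conj
    intro g hg x hx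
    obtain ⟨hxK, hxQ⟩ := Subgroup.mem_inf.mp hx
    exact Subgroup.mem_inf.mpr ⟨Subgroup.mul_mem _ (Subgroup.mul_mem _ hg hxK)
      (Subgroup.inv_mem _ hg), h.Qn g (h.K_le hg) x hxQ⟩
  have hR2 : IsPGroup 2 (jexK Q d ⊓ Q : Subgroup G) := h.Q2.to_le inf_le_right
  have h1 : jexK Q d ⊓ Q ≤ Cfsg.pCoreOf 2 (jexK Q d) := le_pCoreOf inf_le_left hR2 hRn
  have h2 : Cfsg.pCoreOf 2 (jexK Q d) ≤ jexK Q d := pCoreOf_le 2 _
  apply le_antisymm _ h1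
  rw [← Subgroup.relIndex_eq_one]
  have hmul := Subgroup.relIndex_mul_relIndex _ _ _ h1 h2
  rw [h.relIndex_R] at hmul
  have hdvd3 : (jexK Q d ⊓ Q).relIndex (Cfsg.pCoreOf 2 (jexK Q d)) ∣ 3 := Dvd.intro _ hmul
  obtain ⟨n, hn⟩ := (pCoreOf_isPGroup (p := 2) (jexK Q d)).exists_card_eq
  have hdvd2 : (jexK Q d ⊓ Q).relIndex (Cfsg.pCoreOf 2 (jexK Q d)) ∣ 2 ^ n := by
    rw [← hn]; exact Dvd.intro_left _ (card_eq_card_mul_relIndex h1).symm
  have h3 := Nat.dvd_gcd hdvd3 hdvd2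
  have hg : Nat.gcd 3 (2 ^ n) = 1 := Nat.Coprime.pow_right n (by norm_num)
  rw [hg] at h3
  exact Nat.dvd_one.mp h3

theorem thom (h : JExD T N Q C V D A a d) :
    ∀ S : Subgroup G, Cfsg.IsSylowTwoIn S (jexK Q d ⊔ Cfsg.thompsonSubgroupOf 2 T) →
      Cfsg.thompsonSubgroupOf 2 T ≤ S →
      Cfsg.thompsonSubgroupOf 2 S = Cfsg.thompsonSubgroupOf 2 T := by
  intro S hS hJS
  exact h.Tsyl S (hS.1.trans (sup_le h.K_le h.JN)) hS.2.1 hJS

end JExD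

/-- The norm `x δ(x) δ²(x)` for `δ` conjugation by `d`. -/
def jexτ (d x : G) : G := x * (d * x * d⁻¹) * (d * (d * x * d⁻¹) * d⁻¹)

theorem jexτ_mul {d x y : G} (h1 : Commute y (d * x * d⁻¹))
    (h2 : Commute y (d * (d * x * d⁻¹) * d⁻¹))
    (h3 : Commute (d * y * d⁻¹) (d * (d * x * d⁻¹) * d⁻¹)) :
    jexτ d (x * y) = jexτ d x * jexτ d y := by
  unfold jexτ
  have e1 : d * (x * y) * d⁻¹ = (d * x * d⁻¹) * (d * y * d⁻¹) := by group
  have e2 : d * ((d * x * d⁻¹) * (d * y * d⁻¹)) * d⁻¹ =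
      (d * (d * x * d⁻¹) * d⁻¹) * (d * (d * y * d⁻¹) * d⁻¹) := by group
  rw [e1, e2, h1.mul_mul_mul_comm x (d * y * d⁻¹),
    (Commute.mul_left h2 h3).mul_mul_mul_comm (x * (d * x * d⁻¹)) (d * (d * y * d⁻¹) * d⁻¹)]

namespace JExD

variable {T N Q C V D A : Subgroup G} {a d : G}

theorem d3' (h : JExD T N Q C V D A a d) : d * d * d = 1 := by
  rw [← h.d3, pow_succ, pow_two]

theorem δ3 (h : JExD T N Q C V D A a d) (z : G) :
    d * (d * (d * z * d⁻¹) * d⁻¹) * d⁻¹ = z := by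
  have e : d * (d * (d * z * d⁻¹) * d⁻¹) * d⁻¹ = (d * d * d) * z * (d * d * d)⁻¹ := by group
  rw [e, h.d3']; simp

section fin

variable [Finite G]

theorem Z_le_R (h : JExD T N Q C V D A a d) :
    Cfsg.omegaCenterOf (Cfsg.pCoreOf 2 (jexK Q d)) ≤ jexK Q d ⊓ Q := by
  intro z hz
  have := (omegaCenterOf_le _ hz).1
  rwa [h.pCoreOf_K] at this

theorem Z_comm_R (h : JExD T N Q C V D A a d) {z r : G}
    (hz : z ∈ Cfsg.omegaCenterOf (Cfsg.pCoreOf 2 (jexK Q d))) (hr : r ∈ jexK Q d ⊓ Q) :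
    r * z = z * r := by
  have h1 : z ∈ Subgroup.centralizer (Cfsg.pCoreOf 2 (jexK Q d) : Set G) :=
    (omegaCenterOf_le _ hz).2
  rw [Subgroup.mem_centralizer_iff] at h1
  exact h1 r (by rw [SetLike.mem_coe, h.pCoreOf_K]; exact hr)

theorem Z_comm (h : JExD T N Q C V D A a d) {z z' : G}
    (hz : z ∈ Cfsg.omegaCenterOf (Cfsg.pCoreOf 2 (jexK Q d)))
    (hz' : z' ∈ Cfsg.omegaCenterOf (Cfsg.pCoreOf 2 (jexK Q d))) : z * z' = z' * z :=
  h.Z_comm_R hz' (h.Z_le_R hz)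

omit [Finite G] in
theorem Z_sq (_h : JExD T N Q C V D A a d) {z : G}
    (hz : z ∈ Cfsg.omegaCenterOf (Cfsg.pCoreOf 2 (jexK Q d))) : z * z = 1 := by
  have := omegaCenterOf_sq _ z hz
  rwa [pow_two] at this

omit [Finite G] in
theorem Z_inv (h : JExD T N Q C V D A a d) {z : G}
    (hz : z ∈ Cfsg.omegaCenterOf (Cfsg.pCoreOf 2 (jexK Q d))) : z⁻¹ = z :=
  inv_eq_of_mul_eq_one_left (h.Z_sq hz)

theorem normK_le_normZ (_h : JExD T N Q C V D A a d) :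
    Subgroup.normalizer (jexK Q d : Set G) ≤
      Subgroup.normalizer (Cfsg.omegaCenterOf (Cfsg.pCoreOf 2 (jexK Q d)) : Set G) :=
  (normalizer_le_normalizer_pCoreOf _).trans (normalizer_le_normalizer_omegaCenterOf _)

theorem normK_le_normW (h : JExD T N Q C V D A a d) :
    Subgroup.normalizer (jexK Q d : Set G) ≤ Subgroup.normalizer (Cfsg.wOf (jexK Q d) : Set G) := by
  unfold Cfsg.wOf
  exact (le_inf h.normK_le_normZ le_rfl).trans (normalizer_inf_le_normalizer_commutator _ _)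

theorem δZ (h : JExD T N Q C V D A a d) {z : G}
    (hz : z ∈ Cfsg.omegaCenterOf (Cfsg.pCoreOf 2 (jexK Q d))) :
    d * z * d⁻¹ ∈ Cfsg.omegaCenterOf (Cfsg.pCoreOf 2 (jexK Q d)) :=
  conj_mem_of_mem_normalizer (h.normK_le_normZ (Subgroup.le_normalizer (jexK_self Q d))) hz

theorem U_le_Z (h : JExD T N Q C V D A a d) :
    Cfsg.wOf (jexK Q d) ≤ Cfsg.omegaCenterOf (Cfsg.pCoreOf 2 (jexK Q d)) := by
  unfold Cfsg.wOf
  rw [Subgroup.commutator_le]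
  intro z hz k hk
  have h1 : k * z⁻¹ * k⁻¹ ∈ Cfsg.omegaCenterOf (Cfsg.pCoreOf 2 (jexK Q d)) :=
    conj_mem_of_mem_normalizer (h.normK_le_normZ (Subgroup.le_normalizer hk))
      (Subgroup.inv_mem _ hz)
  have e : ⁅z, k⁆ = z * (k * z⁻¹ * k⁻¹) := by rw [commutatorElement_def]; group
  rw [e]
  exact Subgroup.mul_mem _ hz h1

theorem U_le_T (h : JExD T N Q C V D A a d) : Cfsg.wOf (jexK Q d) ≤ T :=
  fun _ hu => h.QT (Subgroup.mem_inf.mp (h.Z_le_R (h.U_le_Z hu))).2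

/-- every element of `K` acts on `Z` as a power of `d` -/
theorem K_act (h : JExD T N Q C V D A a d) {k : G} (hk : k ∈ jexK Q d) :
    ∃ i : ℕ, ∀ z ∈ Cfsg.omegaCenterOf (Cfsg.pCoreOf 2 (jexK Q d)),
      k * z * k⁻¹ = d ^ i * z * (d ^ i)⁻¹ := by
  obtain ⟨r, hr, t, ht, rfl⟩ := h.K_decomp hk
  obtain ⟨i, rfl⟩ : ∃ i : ℕ, d ^ i = t :=
    (Submonoid.mem_powers_iff _ _).mp ((mem_powers_iff_mem_zpowers (x := d)).mpr ht)
  refine ⟨i, fun z hz => ?_⟩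
  have hdi : d ^ i ∈ jexK Q d := Subgroup.pow_mem _ (jexK_self Q d) i
  have h1 : d ^ i * z * (d ^ i)⁻¹ ∈ Cfsg.omegaCenterOf (Cfsg.pCoreOf 2 (jexK Q d)) :=
    conj_mem_of_mem_normalizer (h.normK_le_normZ (Subgroup.le_normalizer hdi)) hz
  have h2 := h.Z_comm_R h1 hr
  have e : r * d ^ i * z * (r * d ^ i)⁻¹ = r * (d ^ i * z * (d ^ i)⁻¹) * r⁻¹ := by group
  rw [e, h2, mul_inv_cancel_right]

theorem τ_mem (h : JExD T N Q C V D A a d) {z : G}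
    (hz : z ∈ Cfsg.omegaCenterOf (Cfsg.pCoreOf 2 (jexK Q d))) :
    jexτ d z ∈ Cfsg.omegaCenterOf (Cfsg.pCoreOf 2 (jexK Q d)) :=
  Subgroup.mul_mem _ (Subgroup.mul_mem _ hz (h.δZ hz)) (h.δZ (h.δZ hz))

theorem τ_mul (h : JExD T N Q C V D A a d) {x y : G}
    (hx : x ∈ Cfsg.omegaCenterOf (Cfsg.pCoreOf 2 (jexK Q d)))
    (hy : y ∈ Cfsg.omegaCenterOf (Cfsg.pCoreOf 2 (jexK Q d))) :
    jexτ d (x * y) = jexτ d x * jexτ d y :=
  jexτ_mul (h.Z_comm hy (h.δZ hx)) (h.Z_comm hy (h.δZ (h.δZ hx)))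
    (h.Z_comm (h.δZ hy) (h.δZ (h.δZ hx)))

theorem τ_δ (h : JExD T N Q C V D A a d) {z : G}
    (hz : z ∈ Cfsg.omegaCenterOf (Cfsg.pCoreOf 2 (jexK Q d))) :
    jexτ d (d * z * d⁻¹) = jexτ d z := by
  unfold jexτ
  rw [h.δ3 z, mul_assoc z]
  exact (h.Z_comm (Subgroup.mul_mem _ (h.δZ hz) (h.δZ (h.δZ hz))) hz)

theorem τ_pow (h : JExD T N Q C V D A a d) {z : G}
    (hz : z ∈ Cfsg.omegaCenterOf (Cfsg.pCoreOf 2 (jexK Q d))) (i : ℕ) :
    d ^ i * z * (d ^ i)⁻¹ ∈ Cfsg.omegaCenterOf (Cfsg.pCoreOf 2 (jexK Q d)) ∧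
      jexτ d (d ^ i * z * (d ^ i)⁻¹) = jexτ d z := by
  induction i with
  | zero => simpa using hz
  | succ i ih =>
    have e : d ^ (i + 1) * z * (d ^ (i + 1))⁻¹ = d * (d ^ i * z * (d ^ i)⁻¹) * d⁻¹ := by
      rw [pow_succ']; group
    rw [e]
    exact ⟨h.δZ ih.1, (h.τ_δ ih.1).trans ih.2⟩

theorem τ_U (h : JExD T N Q C V D A a d) {u : G} (hu : u ∈ Cfsg.wOf (jexK Q d)) :
    jexτ d u = 1 := by
  have hu' : u ∈ Subgroup.closure {g : G | ∃ z ∈ Cfsg.omegaCenterOf (Cfsg.pCoreOf 2 (jexK Q d)),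
      ∃ k ∈ jexK Q d, ⁅z, k⁆ = g} := hu
  have hcl : Subgroup.closure {g : G | ∃ z ∈ Cfsg.omegaCenterOf (Cfsg.pCoreOf 2 (jexK Q d)),
      ∃ k ∈ jexK Q d, ⁅z, k⁆ = g} ≤ Cfsg.omegaCenterOf (Cfsg.pCoreOf 2 (jexK Q d)) :=
    h.U_le_Z
  clear hu
  induction hu' using Subgroup.closure_induction with
  | mem y hy =>
    obtain ⟨z, hz, k, hk, rfl⟩ := hy
    obtain ⟨i, hi⟩ := h.K_act hk
    have hzi : z⁻¹ ∈ Cfsg.omegaCenterOf (Cfsg.pCoreOf 2 (jexK Q d)) := Subgroup.inv_mem _ hz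
    have e : ⁅z, k⁆ = z * (d ^ i * z⁻¹ * (d ^ i)⁻¹) := by
      rw [commutatorElement_def, ← hi z⁻¹ hzi]; group
    obtain ⟨h1, h2⟩ := h.τ_pow hzi i
    rw [e, h.τ_mul hz h1, h2, ← h.τ_mul hz hzi, mul_inv_cancel]
    simp [jexτ]
  | one => simp [jexτ]
  | mul x y hx hy ihx ihy =>
    rw [h.τ_mul (hcl hx) (hcl hy), ihx, ihy, one_mul]
  | inv x hx ihx =>
    rw [h.Z_inv (hcl hx)]
    exact ihx

omit [Finite G] in
theorem exists_B (h : JExD T N Q C V D A a d) :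
    ∃ B : Subgroup G, ∀ b, b ∈ B ↔ b ∈ A ∧ d⁻¹ * (b * d * b⁻¹) ∈ Q := by
  refine ⟨{ carrier := {b | b ∈ A ∧ d⁻¹ * (b * d * b⁻¹) ∈ Q}
            one_mem' := ⟨A.one_mem, by simp⟩
            mul_mem' := ?_
            inv_mem' := ?_ }, fun b => Iff.rfl⟩
  · rintro x y ⟨hx, hxq⟩ ⟨hy, hyq⟩
    refine ⟨A.mul_mem hx hy, ?_⟩
    have e : d⁻¹ * (x * y * d * (x * y)⁻¹) =
        (d⁻¹ * (x * d * x⁻¹)) * (x * (d⁻¹ * (y * d * y⁻¹)) * x⁻¹) := by group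
    rw [e]
    exact Q.mul_mem hxq (h.Qn x (h.TN (h.hA.1 hx)) _ hyq)
  · rintro x ⟨hx, hxq⟩
    refine ⟨A.inv_mem hx, ?_⟩
    have e : d⁻¹ * (x⁻¹ * d * x⁻¹⁻¹) = x⁻¹ * (d⁻¹ * (x * d * x⁻¹))⁻¹ * x⁻¹⁻¹ := by group
    rw [e]
    exact h.Qn x⁻¹ (N.inv_mem (h.TN (h.hA.1 hx))) _ (Q.inv_mem hxq)

omit [Finite G] in
theorem card_A (h : JExD T N Q C V D A a d) {B : Subgroup G}
    (hB : ∀ b, b ∈ B ↔ b ∈ A ∧ d⁻¹ * (b * d * b⁻¹) ∈ Q) : Nat.card A = Nat.card B * 2 := by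
  have hBA : B ≤ A := fun b hb => ((hB b).mp hb).1
  have haB : a ∉ B := by
    intro ha
    have h1 := ((hB a).mp ha).2
    rw [h.inv] at h1
    apply h.dQ
    have e : d = d⁻¹ * d⁻¹ * (d * d * d) := by group
    rw [e, h.d3', mul_one]
    exact h1
  have h2 : B.relIndex A = 2 := by
    rw [Subgroup.relIndex_eq_two_iff]
    refine ⟨a, h.aA, fun b hb => ?_⟩
    by_cases hbB : b ∈ B
    · right
      refine ⟨hbB, fun hba => haB ?_⟩
      have e : a = b⁻¹ * (b * a) := by group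
      rw [e]; exact B.mul_mem (B.inv_mem hbB) hba
    · left
      refine ⟨?_, hbB⟩
      rw [hB]
      refine ⟨A.mul_mem hb h.aA, ?_⟩
      rcases h.toJEx.B2 h.aJ h.dD h.dC h.inv (h.hA.le_thompsonOf hb) with h1 | h1
      · exact absurd ((hB b).mpr ⟨hb, h1⟩) hbB
      · have e : d⁻¹ * (b * a * d * (b * a)⁻¹) = ((b * d * b⁻¹) * d)⁻¹ := by
          have e' : b * a * d * (b * a)⁻¹ = b * (a * d * a⁻¹) * b⁻¹ := by group
          rw [e', h.inv]; group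
        rw [e]; exact Q.inv_mem h1
  rw [card_eq_card_mul_relIndex hBA, h2]

theorem card_W_le (h : JExD T N Q C V D A a d) : Nat.card (Cfsg.wOf (jexK Q d)) ≤ 4 := by
  obtain ⟨B, hB⟩ := h.exists_B
  have hBA : B ≤ A := fun b hb => ((hB b).mp hb).1
  have hcardA := h.card_A hB
  have hJW : Cfsg.thompsonSubgroupOf 2 T ≤ Subgroup.normalizer (Cfsg.wOf (jexK Q d) : Set G) :=
    h.J_norm.trans h.normK_le_normW
  refine jexw_card_le_four (Cfsg.wOf (jexK Q d)) B d a (fun u hu => h.Z_sq (h.U_le_Z hu))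
    (fun u hu v hv => h.Z_comm (h.U_le_Z hu) (h.U_le_Z hv)) ?_ ?_ h.a2 ?_ ?_ ?_ ?_ ?_ ?_ ?_ ?_
  · exact fun u hu => conj_mem_of_mem_normalizer
      (h.normK_le_normW (Subgroup.le_normalizer (jexK_self Q d))) hu
  · intro u hu
    exact h.τ_U hu
  · exact fun u hu => conj_mem_of_mem_normalizer (hJW h.aJ) hu
  · intro u _
    have e : a * (d * u * d⁻¹) * a⁻¹ = (a * d * a⁻¹) * (a * u * a⁻¹) * (a * d * a⁻¹)⁻¹ := by
      group
    rw [e, h.inv, inv_inv]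
  · exact fun b hb u hu => conj_mem_of_mem_normalizer (hJW (h.hA.le_thompsonOf (hBA hb))) hu
  · intro b hb u hu
    have hbJ := h.hA.le_thompsonOf (hBA hb)
    have hrQ : d⁻¹ * (b * d * b⁻¹) ∈ Q := ((hB b).mp hb).2
    have hrK : d⁻¹ * (b * d * b⁻¹) ∈ jexK Q d :=
      Subgroup.mul_mem _ (Subgroup.inv_mem _ (jexK_self Q d))
        (conj_mem_of_mem_normalizer (h.J_norm hbJ) (jexK_self Q d))
    have hbu : b * u * b⁻¹ ∈ Cfsg.wOf (jexK Q d) := conj_mem_of_mem_normalizer (hJW hbJ) hu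
    have hcomm := h.Z_comm_R (h.U_le_Z hbu) (Subgroup.mem_inf.mpr ⟨hrK, hrQ⟩)
    have e : b * (d * u * d⁻¹) * b⁻¹ =
        d * ((d⁻¹ * (b * d * b⁻¹)) * (b * u * b⁻¹) * (d⁻¹ * (b * d * b⁻¹))⁻¹) * d⁻¹ := by group
    rw [e, hcomm, mul_inv_cancel_right]
  · exact fun b hb => h.A_comm (hBA hb) h.aA
  · exact fun b hb b' hb' => h.A_comm (hBA hb) (hBA hb')
  · exact fun b hb => h.A_sq (hBA hb)
  · intro B' hB' U' hU' hc
    have hB'el : Cfsg.IsElementaryAbelian 2 B' := elemAb_of_le h.hA.2.1 (hB'.trans hBA)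
    have hU'el : Cfsg.IsElementaryAbelian 2 U' := by
      rw [elemAb_iff]
      exact ⟨fun x hx y hy => h.Z_comm (h.U_le_Z (hU' hx)) (h.U_le_Z (hU' hy)),
        fun x hx => by rw [pow_two]; exact h.Z_sq (h.U_le_Z (hU' hx))⟩
    have hE : Cfsg.IsElementaryAbelian 2 (B' ⊔ U') := elemAb_sup hB'el hU'el hc
    have hET : B' ⊔ U' ≤ T := sup_le ((hB'.trans hBA).trans h.hA.1) (hU'.trans h.U_le_T)
    have h1 := h.hA.2.2 _ hET hE
    have h2 := card_mul_card_le (le_sup_left : B' ≤ B' ⊔ U') (le_sup_right : U' ≤ B' ⊔ U')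
    calc Nat.card B' * Nat.card U'
        ≤ Nat.card (B' ⊔ U' : Subgroup G) * Nat.card (B' ⊓ U' : Subgroup G) := h2
      _ ≤ Nat.card A * Nat.card (B' ⊓ U' : Subgroup G) := Nat.mul_le_mul_right _ h1
      _ = 2 * Nat.card B * Nat.card (B' ⊓ U' : Subgroup G) := by rw [hcardA]; ring

theorem exists_U_ne (h : JExD T N Q C V D A a d) : ∃ u ∈ Cfsg.wOf (jexK Q d), u ≠ 1 := by
  have hex : ∃ v ∈ V, d * v ≠ v * d := by
    by_contra hcon
    push Not at hcon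
    exact h.dC (h.mem_C d h.dN hcon)
  obtain ⟨v, hv, hdv⟩ := hex
  have hvinv : v⁻¹ = v := inv_eq_of_mul_eq_one_left (h.V_sq v hv)
  have hv₁V : d * v * d⁻¹ ∈ V := h.Vn d h.dN v hv
  have hwV : v * (d * v * d⁻¹) ∈ V := V.mul_mem hv hv₁V
  have hwK : v * (d * v * d⁻¹) ∈ jexK Q d := by
    have e : v * (d * v * d⁻¹) = (v * d * v⁻¹) * d⁻¹ := by rw [hvinv]; group
    rw [e]
    exact Subgroup.mul_mem _ (jexK_conj_mem Q d (h.VQ hv)) (Subgroup.inv_mem _ (jexK_self Q d))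
  have hwZ : v * (d * v * d⁻¹) ∈ Cfsg.omegaCenterOf (Cfsg.pCoreOf 2 (jexK Q d)) := by
    apply mem_omegaCenterOf
    · rw [h.pCoreOf_K]; exact Subgroup.mem_inf.mpr ⟨hwK, h.VQ hwV⟩
    · intro y hy
      rw [h.pCoreOf_K] at hy
      exact (h.V_comm _ hwV y (Subgroup.mem_inf.mp hy).2).symm
    · rw [pow_two]; exact h.V_sq _ hwV
  refine ⟨⁅v * (d * v * d⁻¹), d⁆, Subgroup.commutator_mem_commutator hwZ (jexK_self Q d), ?_⟩
  intro h1
  rw [commutatorElement_eq_one_iff_mul_comm] at h1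
  have h2 : d * (v * (d * v * d⁻¹)) * d⁻¹ = v * (d * v * d⁻¹) := by
    rw [← h1, mul_inv_cancel_right]
  have h3 : d * (v * (d * v * d⁻¹)) * d⁻¹ = (d * v * d⁻¹) * (d * (d * v * d⁻¹) * d⁻¹) := by
    group
  have hVc : v * (d * v * d⁻¹) = (d * v * d⁻¹) * v := h.V_comm v hv _ (h.VQ hv₁V)
  have h4 : d * (d * v * d⁻¹) * d⁻¹ = v := by
    have : (d * v * d⁻¹) * (d * (d * v * d⁻¹) * d⁻¹) = (d * v * d⁻¹) * v := by
      rw [← h3, h2, hVc]
    exact mul_left_cancel this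
  have h5 := h.δ3 v
  rw [h4] at h5
  exact hdv (mul_inv_eq_iff_eq_mul.mp h5)

theorem card_W (h : JExD T N Q C V D A a d) : Nat.card (Cfsg.wOf (jexK Q d)) = 4 := by
  apply le_antisymm h.card_W_le
  obtain ⟨u, hu, hu1⟩ := h.exists_U_ne
  have hu2 : u * u = 1 := h.Z_sq (h.U_le_Z hu)
  have hzu : ∀ x ∈ Subgroup.zpowers u, x = 1 ∨ x = u := by
    intro x hx
    obtain ⟨k, rfl⟩ := Subgroup.mem_zpowers_iff.mp hx
    have hu2' : u ^ (2 : ℤ) = 1 := by rw [zpow_two]; exact hu2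
    rcases Int.even_or_odd' k with ⟨m, rfl | rfl⟩
    · left; rw [zpow_mul, hu2', one_zpow]
    · right; rw [zpow_add, zpow_mul, hu2', one_zpow, one_mul, zpow_one]
  have hle : Subgroup.zpowers u ≤ Cfsg.wOf (jexK Q d) := Subgroup.zpowers_le.mpr hu
  have hδu : d * u * d⁻¹ ∈ Cfsg.wOf (jexK Q d) :=
    conj_mem_of_mem_normalizer (h.normK_le_normW (Subgroup.le_normalizer (jexK_self Q d))) hu
  have hne : ¬ Cfsg.wOf (jexK Q d) ≤ Subgroup.zpowers u := by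
    intro hcon
    rcases hzu _ (hcon hδu) with h1 | h1
    · apply hu1
      have e : u = d⁻¹ * (d * u * d⁻¹) * d := by group
      rw [e, h1]; group
    · have h2 := h.τ_U hu
      unfold jexτ at h2
      rw [h1, h1, hu2, one_mul] at h2
      exact hu1 h2
  have h3 := jexw_two_mul_card_le hle hne
  have h4 : Nat.card (Subgroup.zpowers u) = 2 := by
    rw [Nat.card_zpowers]
    exact orderOf_eq_prime (by rw [pow_two]; exact hu2) hu1
  omega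

theorem isJComponent (h : JExD T N Q C V D A a d) : Cfsg.IsJComponent T (jexK Q d) :=
  ⟨h.gen, h.comm, by rw [h.pCoreOf_K]; exact h.relIndex_R, h.thom, h.card_W,
    fun _ hw => h.Z_sq (h.U_le_Z hw)⟩

end fin

end JExD

/-- **Existence of a `J(T)`-component** from the abstract data: if some element `a` of a largest
elementary abelian subgroup `A` of `T` does not centralize `D / C`, there is a `J(T)`-component
`K ≤ N` containing an element of `D ∖ C`. -/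
theorem JEx.exists_isJComponent [Finite G] {T N Q C V D : Subgroup G} (h : JEx T N Q C V D)
    {A : Subgroup G} (hA : IsMaxEAIn 2 T A) {a d₀ : G} (ha : a ∈ A) (hd₀ : d₀ ∈ D)
    (hne : a * d₀ * a⁻¹ * d₀⁻¹ ∉ C) :
    ∃ (K : Subgroup G) (d : G), Cfsg.IsJComponent T K ∧ K ≤ N ∧ d ∈ K ∧ d ∈ D ∧ d ∉ C := by
  have haJ : a ∈ Cfsg.thompsonSubgroupOf 2 T := hA.le_thompsonOf ha
  have ha2 : a * a = 1 := by
    have := ((elemAb_iff 2 A).mp hA.2.1).2 a ha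
    rwa [pow_two] at this
  obtain ⟨d, hdD, hdC, hd3, hinv⟩ := h.exists_d haJ ha2 hd₀ hne (isOfFinOrder_of_finite _)
  have hD : JExD T N Q C V D A a d :=
    { h with hA := hA, aA := ha, dD := hdD, dC := hdC, d3 := hd3, inv := hinv }
  exact ⟨jexK Q d, d, hD.isJComponent, hD.K_le, jexK_self Q d, hdD, hdC⟩

end Cfsg.Agent.Helper49
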