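import Mathlib

/-!
Helper49: sections of order three.  `JSec J C D` says that `D / C` has order (dividing) three and
is normalized by `J`; such sections come from a section `E / C ≃ SL(2, 2)`
(`jsec_exists_section`), are stable under conjugation (`JSec.conj`), and the elements acting
trivially on `D / C` form a subgroup (`jsec_act_sSup`).
-/

set_option autoImplicit false

namespace Cfsg.Agent.Helper49

variable {X : Type*} [Group X]

/-- `D / C` is a section of order three normalized by `J`. -/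
structure JSec (J C D : Subgroup X) : Prop where
  CD : C ≤ D
  Dn : ∀ x ∈ J, ∀ y ∈ D, x * y * x⁻¹ ∈ D
  cube : ∀ y ∈ D, y ^ 3 ∈ C
  three : ∀ x ∈ D, x ∉ C → ∀ y ∈ D, y ∈ C ∨ y * x⁻¹ ∈ C ∨ y * x ∈ C

theorem jsec_mem_map_conj {D : Subgroup X} {l z : X} :
    z ∈ D.map (MulAut.conj l).toMonoidHom ↔ ∃ y ∈ D, z = l * y * l⁻¹ := by
  constructor
  · rintro ⟨y, hy, rfl⟩; exact ⟨y, hy, rfl⟩
  · rintro ⟨y, hy, rfl⟩; exact ⟨y, hy, rfl⟩

theorem JSec.conj {J C D : Subgroup X} [hJ : J.Normal] [hC : C.Normal] (h : JSec J C D) (l : X) :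
    JSec J C (D.map (MulAut.conj l).toMonoidHom) := by
  refine ⟨?_, ?_, ?_, ?_⟩
  · intro c hc
    rw [jsec_mem_map_conj]
    refine ⟨l⁻¹ * c * l, h.CD ?_, by group⟩
    have := hC.conj_mem c hc l⁻¹
    simpa using this
  · intro x hx z hz
    rw [jsec_mem_map_conj] at hz ⊢
    obtain ⟨y, hy, rfl⟩ := hz
    refine ⟨(l⁻¹ * x * l) * y * (l⁻¹ * x * l)⁻¹, h.Dn _ ?_ y hy, by group⟩
    have := hJ.conj_mem x hx l⁻¹
    simpa using this
  · intro z hz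
    rw [jsec_mem_map_conj] at hz
    obtain ⟨y, hy, rfl⟩ := hz
    rw [conj_pow]
    exact hC.conj_mem _ (h.cube y hy) l
  · intro x hx hxC z hz
    rw [jsec_mem_map_conj] at hx hz
    obtain ⟨x₀, hx₀, rfl⟩ := hx
    obtain ⟨y₀, hy₀, rfl⟩ := hz
    have hxC' : x₀ ∉ C := fun hc => hxC (hC.conj_mem x₀ hc l)
    rcases h.three x₀ hx₀ hxC' y₀ hy₀ with h1 | h1 | h1
    · left; exact hC.conj_mem _ h1 l
    · right; left
      have e : l * y₀ * l⁻¹ * (l * x₀ * l⁻¹)⁻¹ = l * (y₀ * x₀⁻¹) * l⁻¹ := by group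
      rw [e]; exact hC.conj_mem _ h1 l
    · right; right
      have e : l * y₀ * l⁻¹ * (l * x₀ * l⁻¹) = l * (y₀ * x₀) * l⁻¹ := by group
      rw [e]; exact hC.conj_mem _ h1 l

theorem jsec_sl2_mul : ∀ a b : Matrix.SpecialLinearGroup (Fin 2) (ZMod 2),
    a ^ 3 = 1 → b ^ 3 = 1 → (a * b) ^ 3 = 1 := by
  decide

theorem jsec_sl2_inv : ∀ a : Matrix.SpecialLinearGroup (Fin 2) (ZMod 2),
    a ^ 3 = 1 → a⁻¹ ^ 3 = 1 := by
  decide

theorem jsec_sl2_three : ∀ m n : Matrix.SpecialLinearGroup (Fin 2) (ZMod 2),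
    m ^ 3 = 1 → n ^ 3 = 1 → m ≠ 1 → n = 1 ∨ n * m⁻¹ = 1 ∨ n * m = 1 := by
  decide

theorem jsec_sl2_exists : ∃ m n : Matrix.SpecialLinearGroup (Fin 2) (ZMod 2),
    n ^ 3 = 1 ∧ m * n * m⁻¹ * n⁻¹ ≠ 1 := by
  decide

/-- the elements of order dividing three of `SL(2, 2)` -/
def jsecP3 : Subgroup (Matrix.SpecialLinearGroup (Fin 2) (ZMod 2)) where
  carrier := {m | m ^ 3 = 1}
  one_mem' := one_pow 3
  mul_mem' := fun {a b} ha hb => jsec_sl2_mul a b ha hb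
  inv_mem' := fun {a} ha => jsec_sl2_inv a ha

/-- A section `E / C ≃ SL(2, 2)` contains a section `D / C` of order three, not centralized by
`E`. -/
theorem jsec_exists_section (C E : Subgroup X) (hCE : C ≤ E) (hn : (C.subgroupOf E).Normal)
    (e : ↥E ⧸ C.subgroupOf E ≃* Matrix.SpecialLinearGroup (Fin 2) (ZMod 2)) :
    ∃ D : Subgroup X, C ≤ D ∧ D ≤ E ∧ (∀ y, y ∈ D ↔ y ∈ E ∧ y ^ 3 ∈ C) ∧
      (∀ x ∈ D, x ∉ C → ∀ y ∈ D, y ∈ C ∨ y * x⁻¹ ∈ C ∨ y * x ∈ C) ∧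
      ∃ g ∈ E, ∃ d₀ ∈ D, g * d₀ * g⁻¹ * d₀⁻¹ ∉ C := by
  let φ : ↥E →* Matrix.SpecialLinearGroup (Fin 2) (ZMod 2) :=
    e.toMonoidHom.comp (QuotientGroup.mk' (C.subgroupOf E))
  have hker : ∀ y : ↥E, φ y = 1 ↔ (y : X) ∈ C := by
    intro y
    show e (QuotientGroup.mk y) = 1 ↔ _
    rw [MulEquiv.map_eq_one_iff, QuotientGroup.eq_one_iff, Subgroup.mem_subgroupOf]
  have hsurj : Function.Surjective φ := e.surjective.comp (QuotientGroup.mk'_surjective _)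
  have hmem : ∀ y, y ∈ (jsecP3.comap φ).map E.subtype ↔ ∃ hy : y ∈ E, φ ⟨y, hy⟩ ^ 3 = 1 := by
    intro y
    constructor
    · rintro ⟨y', hy', rfl⟩; exact ⟨y'.2, hy'⟩
    · rintro ⟨hy, h3⟩; exact ⟨⟨y, hy⟩, h3, rfl⟩
  refine ⟨(jsecP3.comap φ).map E.subtype, ?_, ?_, ?_, ?_, ?_⟩
  · intro c hc
    rw [hmem]
    refine ⟨hCE hc, ?_⟩
    rw [(hker ⟨c, hCE hc⟩).mpr hc, one_pow]
  · exact Subgroup.map_subtype_le _
  · intro y
    rw [hmem]
    constructor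
    · rintro ⟨hy, h3⟩
      refine ⟨hy, ?_⟩
      rw [← map_pow] at h3
      exact (hker _).mp h3
    · rintro ⟨hy, h3⟩
      refine ⟨hy, ?_⟩
      rw [← map_pow]
      exact (hker _).mpr h3
  · intro x hx hxC y hy
    rw [hmem] at hx hy
    obtain ⟨hxE, hx3⟩ := hx
    obtain ⟨hyE, hy3⟩ := hy
    have hx1 : φ ⟨x, hxE⟩ ≠ 1 := fun h1 => hxC ((hker _).mp h1)
    rcases jsec_sl2_three _ _ hx3 hy3 hx1 with h1 | h1 | h1
    · left; exact (hker _).mp h1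
    · right; left
      rw [← map_inv, ← map_mul] at h1
      exact (hker _).mp h1
    · right; right
      rw [← map_mul] at h1
      exact (hker _).mp h1
  · obtain ⟨m, n, hn3, hmn⟩ := jsec_sl2_exists
    obtain ⟨g', rfl⟩ := hsurj m
    obtain ⟨d', rfl⟩ := hsurj n
    refine ⟨g', g'.2, d', (hmem _).mpr ⟨d'.2, hn3⟩, ?_⟩
    intro hc
    apply hmn
    rw [← map_inv, ← map_inv, ← map_mul, ← map_mul, ← map_mul]
    exact (hker _).mpr hc

/-- The elements normalizing `D` and centralizing `D / C` form a subgroup. -/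
theorem jsec_act_sSup {C D : Subgroup X} (S : Set (Subgroup X))
    (hS : ∀ A ∈ S, ∀ a ∈ A, ∀ y ∈ D, a * y * a⁻¹ ∈ D ∧ a * y * a⁻¹ * y⁻¹ ∈ C) :
    ∀ g ∈ sSup S, ∀ y ∈ D, g * y * g⁻¹ ∈ D ∧ g * y * g⁻¹ * y⁻¹ ∈ C := by
  let Ker : Subgroup X :=
    { carrier := {g | ∀ y ∈ D, (g * y * g⁻¹ ∈ D ∧ g * y * g⁻¹ * y⁻¹ ∈ C) ∧
        (g⁻¹ * y * g ∈ D ∧ g⁻¹ * y * g * y⁻¹ ∈ C)}
      one_mem' := by
        intro y hy
        simp [hy, C.one_mem]
      mul_mem' := by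
        intro g h hg hh y hy
        obtain ⟨⟨h1, h2⟩, -, -⟩ := hh y hy
        obtain ⟨⟨g1, g2⟩, -, -⟩ := hg _ h1
        obtain ⟨-, g3, g4⟩ := hg y hy
        obtain ⟨-, h5, h6⟩ := hh _ g3
        refine ⟨⟨?_, ?_⟩, ?_, ?_⟩
        · have e : g * h * y * (g * h)⁻¹ = g * (h * y * h⁻¹) * g⁻¹ := by group
          rw [e]; exact g1
        · have e : g * h * y * (g * h)⁻¹ * y⁻¹ =
              (g * (h * y * h⁻¹) * g⁻¹ * (h * y * h⁻¹)⁻¹) * (h * y * h⁻¹ * y⁻¹) := by group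
          rw [e]; exact C.mul_mem g2 h2
        · have e : (g * h)⁻¹ * y * (g * h) = h⁻¹ * (g⁻¹ * y * g) * h := by group
          rw [e]; exact h5
        · have e : (g * h)⁻¹ * y * (g * h) * y⁻¹ =
              (h⁻¹ * (g⁻¹ * y * g) * h * (g⁻¹ * y * g)⁻¹) * (g⁻¹ * y * g * y⁻¹) := by group
          rw [e]; exact C.mul_mem h6 g4
      inv_mem' := by
        intro g hg y hy
        obtain ⟨h1, h2⟩ := hg y hy
        exact ⟨by simpa using h2, by simpa using h1⟩ }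
  have hle : sSup S ≤ Ker := by
    apply sSup_le
    intro A hA a ha y hy
    refine ⟨hS A hA a ha y hy, ?_⟩
    have := hS A hA a⁻¹ (A.inv_mem ha) y hy
    simpa using this
  intro g hg y hy
  exact (hle hg y hy).1

end Cfsg.Agent.Helper49
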