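import Cfsg.Agent.Helper64.MRDefs
import Cfsg.Agent.Helper64.UC2Defs

/-!
# CALL MR (helper64), piece YCOMM: relation (R2) for the units `1 + t e_r`
-/

set_option autoImplicit false

namespace Cfsg.Agent.Helper49.MRYCOMM

open Cfsg Cfsg.Lie Cfsg.Agent.Helper36 Cfsg.Agent.Helper64.UC Cfsg.Agent.Helper64.UC2
open Cfsg.Agent.Helper64.MR

universe u

theorem ycomm_alg0 {K : Type*} [Field K] {A : Type*} [Ring A] [Algebra K A] (e f : A) (t u : K)
    (h : e * f = f * e) : (1 + u • f) * (1 + t • e) = (1 + t • e) * (1 + u • f) := by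
  simp only [mul_add, add_mul, mul_one, one_mul, smul_mul_assoc, mul_smul_comm, h]
  module

theorem ycomm_alg1 {K : Type*} [Field K] {A : Type*} [Ring A] [Algebra K A] (e f g : A)
    (C t u : K) (h1 : e * f - f * e = C • g) (h2 : e * g = 0) (h3 : f * g = 0) :
    (1 + u • f) * (1 + t • e) =
      (1 + t • e) * (1 + u • f) * (1 + (C * (-t) ^ 1 * u ^ 1) • g) := by
  have hef : e * f = f * e + C • g := by rw [← h1]; abel
  have hR1 : (1 + u • f) * (1 + (C * (-t) ^ 1 * u ^ 1) • g) =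
      1 + u • f + (C * (-t) ^ 1 * u ^ 1) • g := by
    simp only [mul_add, add_mul, mul_one, one_mul, smul_mul_assoc, mul_smul_comm, h3, smul_zero,
      add_zero]
  rw [mul_assoc, hR1]
  simp only [mul_add, add_mul, mul_one, one_mul, smul_mul_assoc, mul_smul_comm, smul_smul, h2,
    hef, smul_zero, add_zero, smul_add, pow_one]
  module

/-- PIECE YCOMM: relation (R2) for the units `1 + t e_r`. -/
theorem y_comm {R : SRep} {D : ChevalleyDatum} (C2 : Cert2 D) (K : Type*) [Field K]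
    (hsq : ∀ r < D.nroots, R.op K r * R.op K r = 0)
    (hc0 : ∀ r < D.nroots, ∀ s < D.nroots, s ≠ r → s ≠ D.neg r → D.commTerms r s = [] →
      R.op K r * R.op K s = R.op K s * R.op K r)
    (hc1 : ∀ r < D.nroots, ∀ s < D.nroots, s ≠ r → s ≠ D.neg r → ∀ (k : ℕ) (C : ℤ),
      D.commTerms r s = [(k, C, 1, 1)] →
      R.op K r * R.op K s - R.op K s * R.op K r = (C : K) • R.op K k ∧
        R.op K r * R.op K k = 0 ∧ R.op K s * R.op K k = 0) :
    ∀ r < D.nroots, ∀ s < D.nroots, s ≠ r → s ≠ D.neg r → ∀ t u : K,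
      R.y D K s u * R.y D K r t =
        R.y D K r t * R.y D K s u * sW (R.y D K) (D.commWord K r s t u) := by
  intro r hr s hs h1 h2 t u
  rcases C2.shape r hr s hs h1 h2 with h0 | ⟨k, C, hT⟩
  · have hw : D.commWord K r s t u = [] := by
      unfold ChevalleyDatum.commWord
      rw [h0]
      rfl
    rw [hw, sW_nil, mul_one]
    apply Units.ext
    rw [Units.val_mul, Units.val_mul, R.y_val D K hr (hsq r hr), R.y_val D K hs (hsq s hs)]
    exact ycomm_alg0 _ _ t u (hc0 r hr s hs h1 h2 h0)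
  · obtain ⟨_, hk, _, hct⟩ := hT
    have hw : D.commWord K r s t u = [(k, (C : K) * (-t) ^ 1 * u ^ 1)] := by
      unfold ChevalleyDatum.commWord
      rw [hct]
      rfl
    obtain ⟨e1, e2, e3⟩ := hc1 r hr s hs h1 h2 k C hct
    have hsw : sW (R.y D K) [(k, (C : K) * (-t) ^ 1 * u ^ 1)] =
        R.y D K k ((C : K) * (-t) ^ 1 * u ^ 1) := by
      rw [sW_cons, sW_nil, mul_one]
    rw [hw, hsw]
    apply Units.ext
    rw [Units.val_mul, Units.val_mul, Units.val_mul, R.y_val D K hr (hsq r hr),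
      R.y_val D K hs (hsq s hs), R.y_val D K hk (hsq k hk)]
    exact ycomm_alg1 _ _ _ (C : K) t u e1 e2 e3

end Cfsg.Agent.Helper49.MRYCOMM
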