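import Mathlib
import Cfsg.Prelude.Def_GeometricClasses
import Cfsg.Prelude.Def_Classical
import Cfsg.Agent.Helper13.NPDefs
import Cfsg.Agent.Helper96.OHDefs
import Cfsg.Agent.Helper31.OHOFIX
import Cfsg.Agent.Helper26.OHOCDVD
import Cfsg.Agent.Helper35.TSSTDP
import Cfsg.Agent.Helper88.OHOTYPEEVEN
import Cfsg.Agent.Helper10.NPSCALX
import Cfsg.Agent.Helper57.NPGOODCORE

set_option autoImplicit false

namespace Cfsg.Agent.Helper49.NP5989

open Module Cfsg Cfsg.Geo Cfsg.Agent.Helper13.NP Cfsg.Agent.Helper96.OH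
open scoped MatrixGroups

universe u



section stages

variable {F : Type*} [Field F] [Fintype F]

/-- the arithmetic core: from `c ∣ n - f`, `f ≤ n`: `n % c ≤ f`. -/
theorem np_good_arith (n f c : ℕ) (hf : f ≤ n) (hdvd : c ∣ n - f) : n % c ≤ f := by
  obtain ⟨k, hk⟩ := hdvd
  have hn : n = f + c * k := by omega
  rw [hn, Nat.add_mul_mod_self_left]
  exact Nat.mod_le _ _

theorem np_good (p : ℕ) [Fact p.Prime] [CharP F p] (q : ℕ) (hq : Fintype.card F = q)
    (hodd : Odd q) (d m : ℕ) (hd : 4 ≤ d) (hm : Odd m) (hmd : m < d)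
    (W₀ : Submodule F (Fin d ⊕ Fin d → F))
    (hW₀ : Module.finrank F ↥W₀ = m ∧
      IsNondegenerateOn (QuadraticMap.polar (Cfsg.quadFormPlus d F)) W₀)
    (r : ℕ) [Fact r.Prime] (hr2 : 2 < r) (hrp : r ≠ p) (i c : ℕ)
    (hi : i = orderOf ((q : ℕ) : ZMod r)) (hc : c = if Even i then i else 2 * i)
    (hcond : (Odd i ∧ c ≤ m ∧ m % c < (2 * d) % c) ∨
      (Even i ∧ (((2 * d) % c = 0 ∧ Odd ((2 * d) / i)) ∨ (i ≤ m ∧ m % c < (2 * d) % c))))
    (x : GL (Fin d ⊕ Fin d) F) (hx : x ∈ Cfsg.isometryGroup F (Cfsg.quadFormPlus d F))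
    (hxr : ∃ z : F, ((x ^ r : GL (Fin d ⊕ Fin d) F) : Matrix (Fin d ⊕ Fin d) (Fin d ⊕ Fin d) F) =
      z • (1 : Matrix (Fin d ⊕ Fin d) (Fin d ⊕ Fin d) F))
    (hns : ∀ z : F, (x : Matrix (Fin d ⊕ Fin d) (Fin d ⊕ Fin d) F) ≠
      z • (1 : Matrix (Fin d ⊕ Fin d) (Fin d ⊕ Fin d) F)) :
    NPFix (Cfsg.quadFormPlus d F) W₀ m (x : Matrix (Fin d ⊕ Fin d) (Fin d ⊕ Fin d) F) := by
  subst hq
  have hrprime : r.Prime := Fact.out
  have hpprime : p.Prime := Fact.out
  obtain ⟨hQ, hpl⟩ := Cfsg.Agent.Helper35.TS5973.ts_std_plus (F := F) d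
  -- characteristic facts
  have h2 : (2 : F) ≠ 0 := by
    intro h
    obtain ⟨k, hk⟩ := hodd
    have h0 : ((Fintype.card F : ℕ) : F) = 0 := FiniteField.cast_card_eq_zero F
    rw [hk] at h0
    push_cast at h0
    rw [h, zero_mul, zero_add] at h0
    exact one_ne_zero h0
  have hrF : ((r : ℕ) : F) ≠ 0 := by
    intro h
    have hdvd : p ∣ r := (CharP.cast_eq_zero_iff F p r).1 h
    exact hrp ((Nat.prime_dvd_prime_iff_eq hpprime hrprime).1 hdvd).symm
  have hrodd : Odd r := hrprime.odd_of_ne_two (by omega)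
  have hne : Nonempty (Fin d ⊕ Fin d) := ⟨Sum.inl ⟨0, by omega⟩⟩
  obtain ⟨z, hz⟩ := hxr
  obtain ⟨T, hT, hTr, hT1, hTW⟩ :=
    Cfsg.Agent.Helper10.NP5989.np_scal_x (Cfsg.quadFormPlus d F) hQ hne r hrodd x hx z hz hns
  -- the fixed space
  have hcard : Fintype.card (Fin d ⊕ Fin d) = 2 * d := by
    rw [Fintype.card_sum, Fintype.card_fin]; omega
  have htop : finrank F (⊤ : Submodule F (Fin d ⊕ Fin d → F)) = 2 * d := by
    rw [finrank_top, Module.finrank_fintype_fun_eq_card, hcard]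
  have hofix := Cfsg.Agent.Helper31.OH5992.o_fix (Cfsg.quadFormPlus d F) hQ T hT r
    hrprime.pos hrF hTr ⊤ le_top (ond_top _ hQ)
  have hcd := Cfsg.Agent.Helper26.OH5992.o_cdvd (Cfsg.quadFormPlus d F) hQ h2 T hT r hr2 hrF hTr
    i c hi hc ⊤ le_top (ond_top _ hQ)
  rw [top_inf_eq, htop] at hcd
  have hfle : finrank F (LinearMap.ker (T - 1)) ≤ 2 * d := by
    rw [← htop]; exact Submodule.finrank_mono le_top
  have hmodle := np_good_arith (2 * d) (finrank F (LinearMap.ker (T - 1))) c hfle hcd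
  have hC : m % c < finrank F (LinearMap.ker (T - 1)) := by
    rcases hcond with ⟨_, _, hlt⟩ | ⟨hev, ⟨h0, hoddq⟩ | ⟨_, hlt⟩⟩
    · omega
    · -- `c = i` divides `2d`, `2d / i` odd: the fixed space is nonzero
      have hci : c = i := by rw [hc, if_pos hev]
      have hcpos : 0 < c := by
        rcases Nat.eq_zero_or_pos c with h | h
        · rw [h, Nat.mod_zero] at h0; omega
        · exact h
      have hfpos : 0 < finrank F (LinearMap.ker (T - 1)) := by
        rcases Nat.eq_zero_or_pos (finrank F (LinearMap.ker (T - 1))) with h | h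
        · exfalso
          have hbot : LinearMap.ker (T - 1) = ⊥ := Submodule.finrank_eq_zero.1 h
          have hte := Cfsg.Agent.Helper88.OH5992.o_type_even (Cfsg.quadFormPlus d F) hQ h2 T hT r
            hr2 hrF hTr (by rw [← hi]; exact hev) ⊤ le_top (ond_top _ hQ)
            (by rw [hbot, inf_bot_eq])
          have hE := hte.1 hpl
          rw [htop, ← hi] at hE
          exact (Nat.not_even_iff_odd.2 hoddq) hE
        · exact h
      have hcdvd : c ∣ finrank F (LinearMap.ker (T - 1)) := by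
        have h1 : c ∣ 2 * d := Nat.dvd_of_mod_eq_zero h0
        exact (Nat.dvd_sub_iff_right hfle h1).1 hcd
      have := Nat.le_of_dvd hfpos hcdvd
      have := Nat.mod_lt m hcpos
      omega
    · omega
  obtain ⟨W, hWX, hWT⟩ := Cfsg.Agent.Helper57.NP5989.np_good_core (Cfsg.quadFormPlus d F) hQ h2 T hT r hr2 hrF hTr i c hi hc
    W₀ hW₀.2 m hW₀.1 hm (by rw [hcard]; omega) (Or.inl hC)
  exact ⟨W, hWX, hTW W hWT⟩

end stages

end Cfsg.Agent.Helper49.NP5989
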