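import Mathlib
import Cfsg.Agent.Helper90.HTDefs

set_option autoImplicit false

/-!
# CALL OT piece FIXV (helper49, double): an isometry of odd order of an odd-dimensional
nondegenerate symmetric space has a nonzero fixed vector.
-/

namespace Cfsg.Agent.Helper49.OT5972

open Module Polynomial Cfsg.Agent.Helper90.HT

section geom

variable {F : Type*} [Field F] {V : Type*} [AddCommGroup V] [Module F V] [FiniteDimensional F V]
  (h : V → V → F)

/-- FIXV: an isometry of odd order of an odd-dimensional nondegenerate symmetric space has a nonzero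
fixed vector (`det T = 1` and `det (T - 1) = (-1)^n det (T - 1)`). -/
theorem ot_fixv (hh : IsHerm (RingHom.id F) h) (h2 : (2 : F) ≠ 0) (T : Module.End F V)
    (hT : HPres h T) (r : ℕ) (hr : Odd r) (hTr : T ^ r = 1) (D : Submodule F V)
    (hDT : D.map T ≤ D) (hD : HNondegOn h D) (hodd : Odd (finrank F D)) :
    ∃ v ∈ D, v ≠ 0 ∧ T v = v := by
  classical
  have hDT' : ∀ x ∈ D, T x ∈ D := fun x hx => hDT ⟨x, hx, rfl⟩
  obtain ⟨T', hT'⟩ : ∃ T' : D →ₗ[F] D, T' = T.restrict hDT' := ⟨_, rfl⟩
  have hT'c : ∀ u : D, ((T' u : D) : V) = T (u : V) := fun u => by rw [hT']; rfl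
  -- the form as a map `D → Dual D`
  obtain ⟨φ, hφ⟩ : ∃ φ : D →ₗ[F] Module.Dual F D, ∀ u v : D, φ u v = h (u : V) (v : V) :=
    ⟨LinearMap.mk₂ F (fun u v : D => h (u : V) (v : V)) (fun u u' v => hh.add_left _ _ _)
      (fun c u v => hh.smul_left _ _ _) (fun u v v' => hh.add_right _ _ _)
      (fun c u v => by simpa using hh.smul_right c (u : V) (v : V)), fun u v => rfl⟩
  have hinj : Function.Injective φ := by
    rw [← LinearMap.ker_eq_bot, LinearMap.ker_eq_bot']
    intro u hu
    have := hD u u.2 (fun w hw => by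
      have h1 := hφ u ⟨w, hw⟩
      rw [hu] at h1
      simpa using h1.symm)
    exact Subtype.ext this
  obtain ⟨e, he⟩ : ∃ e : D ≃ₗ[F] Module.Dual F D, ∀ u, e u = φ u :=
    ⟨LinearMap.linearEquivOfInjective φ hinj (Subspace.dual_finrank_eq).symm, fun u => rfl⟩
  -- the isometry relation
  have hrel : ∀ u : D, T'.dualMap (e (T' u)) = e u := by
    intro u
    ext v
    rw [LinearMap.dualMap_apply, he, he, hφ, hφ, hT'c, hT'c]
    exact hT _ _
  have hc : T'.dualMap ∘ₗ ((e : D →ₗ[F] Module.Dual F D) ∘ₗ T' ∘ₗ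
      (e.symm : Module.Dual F D →ₗ[F] D)) = LinearMap.id := by
    refine LinearMap.ext fun ψ => ?_
    obtain ⟨u, rfl⟩ := e.surjective ψ
    simp only [LinearMap.comp_apply, LinearEquiv.coe_coe, LinearEquiv.symm_apply_apply,
      LinearMap.id_apply]
    exact hrel u
  have hdd : LinearMap.det T' * LinearMap.det T' = 1 := by
    have := congrArg LinearMap.det hc
    rwa [LinearMap.det_comp, LinearMap.det_conj, LinearMap.det_dualMap, LinearMap.det_id] at this
  -- `det T' = 1`
  have hpow : T' ^ r = 1 := by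
    rw [hT', Module.End.pow_restrict]
    refine LinearMap.ext fun u => Subtype.ext ?_
    rw [LinearMap.coe_restrict_apply]
    simp [hTr]
  have hd1 : LinearMap.det T' = 1 := by
    have h1 : LinearMap.det T' ^ r = 1 := by
      rw [← map_pow, hpow, map_one]
    obtain ⟨k, rfl⟩ := hr
    rw [pow_succ, pow_mul, sq, hdd, one_pow, one_mul] at h1
    exact h1
  -- `det (T' - 1) = - det (T' - 1)`
  have hc2 : (e : D →ₗ[F] Module.Dual F D) ∘ₗ (T' - 1) ∘ₗ (e.symm : Module.Dual F D →ₗ[F] D) =
      (1 - T').dualMap ∘ₗ ((e : D →ₗ[F] Module.Dual F D) ∘ₗ T' ∘ₗ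
        (e.symm : Module.Dual F D →ₗ[F] D)) := by
    refine LinearMap.ext fun ψ => ?_
    obtain ⟨u, rfl⟩ := e.surjective ψ
    simp only [LinearMap.comp_apply, LinearEquiv.coe_coe, LinearEquiv.symm_apply_apply]
    ext v
    rw [LinearMap.dualMap_apply, LinearMap.sub_apply, LinearMap.sub_apply, Module.End.one_apply,
      Module.End.one_apply, map_sub, map_sub, LinearMap.sub_apply]
    have := congrArg (fun ψ => ψ v) (hrel u)
    simp only [LinearMap.dualMap_apply] at this
    rw [this]
  have hneg : (1 : Module.End F D) - T' = (-1 : F) • (T' - 1) := by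
    refine LinearMap.ext fun u => ?_
    simp
  have hdet : LinearMap.det (T' - 1) = -LinearMap.det (T' - 1) := by
    have := congrArg LinearMap.det hc2
    rw [LinearMap.det_conj, LinearMap.det_comp, LinearMap.det_conj, LinearMap.det_dualMap, hd1,
      mul_one, hneg, LinearMap.det_smul, hodd.neg_one_pow, neg_one_mul] at this
    exact this
  have hdet0 : LinearMap.det (T' - 1) = 0 := by
    have h3 : (2 : F) * LinearMap.det (T' - 1) = 0 := by
      rw [two_mul]
      nth_rewrite 1 [hdet]
      exact neg_add_cancel _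
    exact (mul_eq_zero.mp h3).resolve_left h2
  have hker := LinearMap.bot_lt_ker_of_det_eq_zero hdet0
  obtain ⟨u, huk, hu0⟩ := (Submodule.ne_bot_iff _).mp hker.ne'
  refine ⟨(u : V), u.2, fun hu => hu0 (Subtype.ext hu), ?_⟩
  have h4 : T' u = u := by
    have := LinearMap.mem_ker.mp huk
    rw [LinearMap.sub_apply, Module.End.one_apply, sub_eq_zero] at this
    exact this
  rw [← hT'c, h4]

end geom

end Cfsg.Agent.Helper49.OT5972
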