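import Mathlib
import Cfsg.Agent.Helper90.HTDefs
import Cfsg.Agent.Helper90.BGChain
import Cfsg.Agent.Helper46.BGLIRR

set_option autoImplicit false

/-!
# CALL OT piece ODD, core (helper49): `ot_odd` with the fixed-vector statement FIXV as a hypothesis.
-/

namespace Cfsg.Agent.Helper49.OT5972

open Module Polynomial Cfsg.Agent.Helper90.HT

section geom2

variable {F : Type*} [Field F] {V : Type*} [AddCommGroup V] [Module F V] [FiniteDimensional F V]
  (h : V → V → F)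

/-- the radical of `h` on `W` -/
def otRad (W : Submodule F V) (hh : IsHerm (RingHom.id F) h) : Submodule F V where
  carrier := {v | v ∈ W ∧ ∀ w ∈ W, h v w = 0}
  add_mem' := by
    rintro a b ⟨ha, ha'⟩ ⟨hb, hb'⟩
    refine ⟨W.add_mem ha hb, fun w hw => ?_⟩
    rw [hh.add_left, ha' w hw, hb' w hw, add_zero]
  zero_mem' := ⟨W.zero_mem, fun w _ => hh.zero_left w⟩
  smul_mem' := by
    rintro c a ⟨ha, ha'⟩
    refine ⟨W.smul_mem c ha, fun w hw => ?_⟩
    rw [hh.smul_left, ha' w hw, mul_zero]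

theorem ot_pow_mem (T : Module.End F V) (W : Submodule F V) (hW : W.map T ≤ W) (n : ℕ) {w : V}
    (hw : w ∈ W) : (T ^ n) w ∈ W := by
  induction n with
  | zero => simpa using hw
  | succ n ih =>
    rw [pow_succ', Module.End.mul_apply]
    exact hW ⟨_, ih, rfl⟩

theorem ot_odd_core [Fintype F] (hh : IsHerm (RingHom.id F) h) (T : Module.End F V)
    (hT : HPres h T) (r : ℕ) [Fact r.Prime] (hrF : (r : F) ≠ 0) (hTr : T ^ r = 1)
    (hodd : Odd (orderOf ((Fintype.card F : ℕ) : ZMod r))) (U : Submodule F V)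
    (hU : U.map T ≤ U) (hU0 : U ≠ ⊥) (hUk : U ⊓ LinearMap.ker (T - 1) = ⊥)
    (hfixv : ∀ D : Submodule F V, D.map T ≤ D → HNondegOn h D → Odd (finrank F D) →
      ∃ v ∈ D, v ≠ 0 ∧ T v = v) :
    ∃ W' : Submodule F V, W' ≤ U ∧ HTI h W' ∧ W'.map T ≤ W' ∧ W' ≠ ⊥ := by
  classical
  have hr : r.Prime := Fact.out
  set i := orderOf ((Fintype.card F : ℕ) : ZMod r) with hi
  have hd : ∀ g : F[X], Irreducible g → g ∣ ∑ j ∈ Finset.range r, (X : F[X]) ^ j →
      g.natDegree = i := fun g hg hdvd =>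
    Cfsg.Agent.Helper46.bgl_irr_factor_degree r hrF g hg hdvd
  have hi0 : 0 < i := hodd.pos
  -- `i ≤ finrank U`
  have hdvd := Cfsg.Agent.Helper90.BG.cyc_dvd T r i hrF hTr hd U hU
  rw [hUk, finrank_bot, Nat.sub_zero] at hdvd
  have hUpos : 0 < finrank F U := by
    rw [Module.finrank_pos_iff_exists_ne_zero]
    obtain ⟨v, hvU, hv0⟩ := (Submodule.ne_bot_iff U).mp hU0
    exact ⟨⟨v, hvU⟩, fun hv => hv0 (congrArg Subtype.val hv)⟩
  have hile : i ≤ finrank F U := Nat.le_of_dvd hUpos hdvd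
  -- an invariant subspace of dimension `i`
  have hPW : ∀ v ∈ U, aeval T (∑ j ∈ Finset.range r, (X : F[X]) ^ j) v ∈ (⊥ : Submodule F V) := by
    intro v hv
    have h1 : aeval T (∑ j ∈ Finset.range r, (X : F[X]) ^ j) v ∈ U :=
      Cfsg.Agent.Helper90.BG.aeval_mem T U hU _ hv
    have h2 : aeval T (∑ j ∈ Finset.range r, (X : F[X]) ^ j) v ∈ LinearMap.ker (T - 1) := by
      rw [LinearMap.mem_ker, ← Module.End.mul_apply,
        Cfsg.Agent.Helper90.BG.sub_one_mul_aeval_phi T r hTr, LinearMap.zero_apply]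
    have h3 : aeval T (∑ j ∈ Finset.range r, (X : F[X]) ^ j) v ∈ U ⊓ LinearMap.ker (T - 1) :=
      ⟨h1, h2⟩
    rwa [hUk] at h3
  obtain ⟨W, -, hWU, hWT, hWdim⟩ := Cfsg.Agent.Helper90.BG.chain_exists T ⊥ U bot_le
    (by simp) hU _ (Cfsg.Agent.Helper90.BG.phi_ne_zero r hrF) hPW i hd 1
    (by rw [finrank_bot]; omega)
  rw [finrank_bot, zero_add, mul_one] at hWdim
  -- `T⁻¹ = T ^ (r - 1)` on `W`
  have hinv : ∀ w : V, T ((T ^ (r - 1)) w) = w := by
    intro w
    have : T * T ^ (r - 1) = 1 := by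
      rw [← pow_succ', Nat.sub_add_cancel hr.one_lt.le, hTr]
    rw [← Module.End.mul_apply, this, Module.End.one_apply]
  by_cases hrad : otRad h W hh = ⊥
  · -- `W` is nondegenerate: FIXV gives a fixed vector, contradiction
    exfalso
    have hnd : HNondegOn h W := by
      intro v hv hv'
      have : v ∈ otRad h W hh := ⟨hv, hv'⟩
      rw [hrad] at this
      exact (Submodule.mem_bot F).mp this
    obtain ⟨v, hvW, hv0, hTv⟩ := hfixv W hWT hnd (by rw [hWdim]; exact hodd)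
    have hmem : v ∈ U ⊓ LinearMap.ker (T - 1) :=
      ⟨hWU hvW, (Cfsg.Agent.Helper90.BG.mem_ker_sub_one T v).mpr hTv⟩
    rw [hUk] at hmem
    exact hv0 ((Submodule.mem_bot F).mp hmem)
  · refine ⟨otRad h W hh, fun v hv => hWU hv.1, ?_, ?_, hrad⟩
    · intro u hu v hv
      exact hu.2 v hv.1
    · rintro _ ⟨v, hv, rfl⟩
      refine ⟨hWT ⟨v, hv.1, rfl⟩, fun w hw => ?_⟩
      have h1 : h (T v) w = h (T v) (T ((T ^ (r - 1)) w)) := by rw [hinv w]
      rw [h1, hT]
      exact hv.2 _ (ot_pow_mem T W hWT (r - 1) hw)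

end geom2

end Cfsg.Agent.Helper49.OT5972
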