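import Cfsg.Agent.Helper49.BSBlock
import Cfsg.Agent.Helper49.BSQuat
import Cfsg.Agent.S0844
import Cfsg.Agent.Helper53.QuatIso

/-!
# The `Z*`-theorem for groups of 2-rank one (Burnside, Brauer–Suzuki)

(helper49)  `rank_one_zstar`: if a Sylow 2-subgroup `P` of the finite group `G` has exactly one
involution `u`, then `u` is central modulo a normal subgroup of odd order.  `P` is cyclic
(Burnside transfer) or generalized quaternion; for order 8 a nontrivial irreducible character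
with `u` in its kernel comes from the principal 2-block (`exists_irr_ker`), for order at least
16 from the exceptional characters of S0844; then induction through the kernel.
-/

set_option autoImplicit false

namespace Cfsg.Agent.Helper49

open Cfsg

/-- `u` is the only involution of the subgroup `P`. -/
structure R1Data {G : Type*} [Group G] (P : Subgroup G) (u : G) : Prop where
  u_mem : u ∈ P
  u_ne : u ≠ 1
  u_sq : u * u = 1
  uniq : ∀ t ∈ P, t * t = 1 → t ≠ 1 → t = u

theorem Q8Data.toR1Data {G : Type*} [Group G] {P : Subgroup G} {u : G} (hQ : Q8Data P u) :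
    R1Data P u :=
  ⟨hQ.u_mem, hQ.u_ne, hQ.u_sq, fun _ ht h2 h1 => hQ.eq_u_of_sq ht h2 h1⟩

namespace R1Data

variable {G : Type*} [Group G] {u : G}

/-- Two involutions of a 2-subgroup coincide. -/
theorem invol_eq_of_mem [Finite G] (P : Sylow 2 G) (hR : R1Data (P : Subgroup G) u)
    (T : Subgroup G) (hT : IsPGroup 2 T) {s t : G} (hs : s ∈ T) (ht : t ∈ T)
    (hs2 : s * s = 1) (hs1 : s ≠ 1) (ht2 : t * t = 1) (ht1 : t ≠ 1) : s = t := by
  have : Fact (Nat.Prime 2) := ⟨Nat.prime_two⟩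
  obtain ⟨Q, hQ'⟩ := hT.exists_le_sylow
  obtain ⟨g, rfl⟩ := MulAction.exists_smul_eq G P Q
  have key : ∀ x : G, x ∈ ((g • P : Sylow 2 G) : Subgroup G) → x * x = 1 → x ≠ 1 →
      x = g * u * g⁻¹ := by
    intro x hx hx2 hx1
    rw [Sylow.coe_subgroup_smul, Subgroup.mem_pointwise_smul_iff_inv_smul_mem] at hx
    have hx' : g⁻¹ * x * g ∈ (P : Subgroup G) := by
      simpa [MulAut.smul_def] using hx
    have h1 : g⁻¹ * x * g = u := by
      apply hR.uniq _ hx'
      · have : g⁻¹ * x * g * (g⁻¹ * x * g) = g⁻¹ * (x * x) * g := by group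
        rw [this, hx2]; group
      · intro h0
        apply hx1
        have : x = g * (g⁻¹ * x * g) * g⁻¹ := by group
        rw [this, h0]; group
    rw [← h1]; group
  rw [key s (hQ' hs) hs2 hs1, key t (hQ' ht) ht2 ht1]

/-- Two commuting involutions coincide. -/
theorem invol_eq_of_commute [Finite G] (P : Sylow 2 G) (hR : R1Data (P : Subgroup G) u)
    {s t : G} (hs2 : s * s = 1) (hs1 : s ≠ 1) (ht2 : t * t = 1) (ht1 : t ≠ 1)
    (hst : s * t = t * s) : s = t := by
  have hps : IsPGroup 2 (Subgroup.zpowers s) := by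
    apply IsPGroup.of_card (n := 1)
    rw [Nat.card_zpowers, pow_one]
    exact orderOf_eq_prime (by rw [pow_two]; exact hs2) hs1
  have hpt : IsPGroup 2 (Subgroup.zpowers t) := by
    apply IsPGroup.of_card (n := 1)
    rw [Nat.card_zpowers, pow_one]
    exact orderOf_eq_prime (by rw [pow_two]; exact ht2) ht1
  have hle : Subgroup.zpowers t ≤ Subgroup.normalizer (Subgroup.zpowers s : Set G) := by
    rw [Subgroup.zpowers_le]
    rw [Subgroup.mem_normalizer_iff]
    intro h
    have hcomm : ∀ h ∈ Subgroup.zpowers s, t * h * t⁻¹ = h := by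
      intro h hh
      obtain ⟨k, rfl⟩ := Subgroup.mem_zpowers_iff.mp hh
      have : Commute t (s ^ k) := (Commute.zpow_right (show Commute t s from hst.symm) k)
      rw [this.eq, mul_inv_cancel_right]
    constructor
    · intro hh
      rw [hcomm h hh]; exact hh
    · intro hh
      have hcomm' : ∀ h ∈ Subgroup.zpowers s, t⁻¹ * h * t = h := by
        intro h hh
        have h1 := hcomm h hh
        calc t⁻¹ * h * t = t⁻¹ * (t * h * t⁻¹) * t := by rw [h1]
          _ = h := by group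
      have h2 : t⁻¹ * (t * h * t⁻¹) * t = h := by group
      rw [hcomm' _ hh] at h2
      rw [← h2]
      exact hh
  have hsup : IsPGroup 2 (Subgroup.zpowers t ⊔ Subgroup.zpowers s : Subgroup G) :=
    IsPGroup.to_sup_of_normal_right' hpt hps hle
  exact hR.invol_eq_of_mem P _ hsup (Subgroup.mem_sup_right (Subgroup.mem_zpowers s))
    (Subgroup.mem_sup_left (Subgroup.mem_zpowers t)) hs2 hs1 ht2 ht1

/-- The product of two conjugates of the involution has odd order. -/
theorem odd_mul_conj [Finite G] (P : Sylow 2 G) (hR : R1Data (P : Subgroup G) u) (y : G) :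
    Odd (orderOf (y * u * y⁻¹ * u)) := by
  set s := y * u * y⁻¹ with hs
  have hs2 : s * s = 1 := by
    have : s * s = y * (u * u) * y⁻¹ := by rw [hs]; group
    rw [this, hR.u_sq]; group
  have hs1 : s ≠ 1 := by
    intro h0
    apply hR.u_ne
    have : u = y⁻¹ * s * y := by rw [hs]; group
    rw [this, h0]; group
  have huinv : u⁻¹ = u := inv_eq_of_mul_eq_one_left hR.u_sq
  have hsinv : s⁻¹ = s := inv_eq_of_mul_eq_one_left hs2
  set w := s * u with hw
  have hinv : u * w * u⁻¹ = w⁻¹ := by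
    rw [hw, mul_inv_rev, huinv, hsinv]
    have : u * (s * u) * u = u * s * (u * u) := by group
    rw [this, hR.u_sq, mul_one]
  by_contra hodd
  rw [Nat.not_odd_iff_even] at hodd
  obtain ⟨m, hm⟩ := hodd
  have hpos : 0 < orderOf w := orderOf_pos w
  have hm0 : m ≠ 0 := by omega
  set t := w ^ m with ht
  have ht2 : t * t = 1 := by
    rw [ht, ← pow_add, ← hm, pow_orderOf_eq_one]
  have ht1 : t ≠ 1 := by
    intro h0
    have := orderOf_dvd_of_pow_eq_one h0
    have := Nat.le_of_dvd (Nat.pos_of_ne_zero hm0) this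
    omega
  have htinv : t⁻¹ = t := inv_eq_of_mul_eq_one_left ht2
  have hut : u * t = t * u := by
    have h1 : u * t * u⁻¹ = t := by
      rw [ht, ← conj_pow, hinv, inv_pow, ← ht, htinv]
    calc u * t = u * t * u⁻¹ * u := by group
      _ = t * u := by rw [h1]
  have htu : u = t := hR.invol_eq_of_commute P hR.u_sq hR.u_ne ht2 ht1 hut
  have hcw : u * w = w * u := by
    rw [htu, ht]
    exact (Commute.pow_left (Commute.refl w) m).eq
  have hww : w = w⁻¹ := by
    rw [← hinv, hcw, mul_inv_cancel_right]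
  have hw2 : w ^ 2 = 1 := by
    rw [pow_two]
    nth_rw 2 [hww]
    exact mul_inv_cancel w
  have hdvd := orderOf_dvd_of_pow_eq_one hw2
  have hle := Nat.le_of_dvd (by norm_num) hdvd
  have hm1 : m = 1 := by omega
  have hwu : w = u := by
    rw [htu, ht, hm1, pow_one]
  rw [hw] at hwu
  exact hs1 (mul_eq_right.mp hwu)

/-- Step 6: if `u` lies in a normal subgroup `K` and is central in `K` modulo a normal subgroup
of odd order of `K`, then `u` is central in `G` modulo a normal subgroup of odd order. -/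
theorem step6 [Finite G] (P : Sylow 2 G) (hR : R1Data (P : Subgroup G) u) (K : Subgroup G)
    [hKn : K.Normal] (huK : u ∈ K) (N₀ : Subgroup K) (hN₀n : N₀.Normal)
    (hN₀odd : Odd (Nat.card N₀))
    (hN₀c : ∀ k : K, (⟨u, huK⟩ : K) * k * (⟨u, huK⟩ : K)⁻¹ * k⁻¹ ∈ N₀) :
    ∃ N : Subgroup G, N.Normal ∧ Odd (Nat.card N) ∧ ∀ g : G, u * g * u⁻¹ * g⁻¹ ∈ N := by
  have huinv : u⁻¹ = u := inv_eq_of_mul_eq_one_left hR.u_sq
  refine ⟨pPrimeCoreOf 2 K, pPrimeCoreOf_normal 2 K, (pPrimeCoreOf_coprime 2 K).odd_of_right, ?_⟩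
  have hN₀le : N₀.map K.subtype ≤ pPrimeCoreOf 2 K := by
    apply Subgroup.map_mono
    exact le_pPrimeCore' hN₀n (Nat.Coprime.symm (Nat.coprime_two_left.mpr hN₀odd))
  intro g
  set s := g * u * g⁻¹ with hs
  have hsK : s ∈ K := hKn.conj_mem u huK g
  have hs2 : s * s = 1 := by
    have : s * s = g * (u * u) * g⁻¹ := by rw [hs]; group
    rw [this, hR.u_sq]; group
  have hsinv : s⁻¹ = s := inv_eq_of_mul_eq_one_left hs2
  have hgoal : u * g * u⁻¹ * g⁻¹ = u * s := by
    rw [hs, huinv]; group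
  rw [hgoal]
  have hodd : Odd (orderOf (u * s)) := by
    have h1 := hR.odd_mul_conj P g
    have h2 : u * s = (g * u * g⁻¹ * u)⁻¹ := by
      rw [mul_inv_rev, huinv, ← hs, hsinv]
    rw [h2, orderOf_inv]
    exact h1
  have hsq : (u * s) * (u * s) ∈ pPrimeCoreOf 2 K := by
    apply hN₀le
    refine ⟨(⟨u, huK⟩ : K) * ⟨s, hsK⟩ * (⟨u, huK⟩ : K)⁻¹ * (⟨s, hsK⟩ : K)⁻¹, hN₀c ⟨s, hsK⟩, ?_⟩
    simp only [Subgroup.coe_subtype, Subgroup.coe_mul, Subgroup.coe_inv]
    rw [huinv, hsinv]
    group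
  obtain ⟨j, hj⟩ := hodd
  have hpow : ((u * s) * (u * s)) ^ (j + 1) = u * s := by
    rw [← pow_two, ← pow_mul]
    have : 2 * (j + 1) = orderOf (u * s) + 1 := by omega
    rw [this, pow_succ, pow_orderOf_eq_one, one_mul]
  rw [← hpow]
  exact Subgroup.pow_mem _ hsq _

end R1Data

/-- A cyclic Sylow 2-subgroup has a normal complement of odd order containing all
commutators. -/
theorem exists_odd_normal_of_cyclic {G : Type*} [Group G] [Finite G] (R : Sylow 2 G)
    (hRcyc : IsCyclic (R : Subgroup G)) :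
    ∃ N : Subgroup G, N.Normal ∧ Odd (Nat.card N) ∧ ∀ a b : G, a * b * a⁻¹ * b⁻¹ ∈ N := by
  have : Fact (Nat.Prime 2) := ⟨Nat.prime_two⟩
  obtain ⟨r, hr⟩ := R.isPGroup'.exists_card_eq
  have hab : ∀ x ∈ (R : Subgroup G), ∀ y ∈ (R : Subgroup G), x * y = y * x := by
    intro x hx y hy
    have := mul_comm' (⟨x, hx⟩ : (R : Subgroup G)) ⟨y, hy⟩
    exact congrArg Subtype.val this
  obtain ⟨N₀, hN₀n, hN₀⟩ := Helper53.exists_normal_complement_of_odd_centralize R hab
    (fun g hg hodd => Helper53.commute_of_odd_of_mem_normalizer_cyclic (R : Subgroup G) r hr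
      g hg hodd)
  refine ⟨N₀, hN₀n, ?_, ?_⟩
  · have h1 : (R : Subgroup G).index = Nat.card N₀ := hN₀.index_eq_card
    have h2 := R.not_dvd_index
    rw [h1] at h2
    rw [← Nat.not_even_iff_odd, even_iff_two_dvd]
    exact h2
  · intro a b
    obtain ⟨⟨n1, p1⟩, h1, -⟩ := Subgroup.isComplement_iff_existsUnique.mp hN₀ a
    obtain ⟨⟨n2, p2⟩, h2, -⟩ := Subgroup.isComplement_iff_existsUnique.mp hN₀ b
    simp only at h1 h2
    rw [← QuotientGroup.eq_one_iff]
    have ha : (QuotientGroup.mk a : G ⧸ N₀) = QuotientGroup.mk (p1 : G) := by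
      rw [← h1, QuotientGroup.mk_mul, (QuotientGroup.eq_one_iff (n1 : G)).mpr n1.2,
        one_mul]
    have hb : (QuotientGroup.mk b : G ⧸ N₀) = QuotientGroup.mk (p2 : G) := by
      rw [← h2, QuotientGroup.mk_mul, (QuotientGroup.eq_one_iff (n2 : G)).mpr n2.2,
        one_mul]
    rw [QuotientGroup.mk_mul, QuotientGroup.mk_mul, QuotientGroup.mk_mul,
      QuotientGroup.mk_inv, QuotientGroup.mk_inv, ha, hb, ← QuotientGroup.mk_mul,
      hab p1 p1.2 p2 p2.2, QuotientGroup.mk_mul]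
    group

/-- From the exceptional characters of S0844: the second one has `u` in its kernel. -/
theorem apply_eq_of_exceptional {G : Type*} [Group G] [Finite G] (u : G) (hu2 : orderOf u = 2)
    (hodd : ∀ y : G, Odd (orderOf (y * u * y⁻¹ * u))) (χ₁ χ₂ : G → ℂ)
    (h1 : IsIrrCharacter G χ₁) (h2 : IsIrrCharacter G χ₂) (hdeg : χ₁ 1 = χ₂ 1 + 1)
    (hval : ∀ g : G, ¬ 4 ∣ orderOf g → χ₁ g - χ₂ g = 1) : χ₂ u = χ₂ 1 := by
  classical
  haveI : Fintype G := Fintype.ofFinite G
  have hu : χ₁ u - χ₂ u = 1 := hval u (by rw [hu2]; norm_num)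
  have hy : ∀ y : G, χ₁ (y * u * y⁻¹ * u) - χ₂ (y * u * y⁻¹ * u) = 1 := by
    intro y
    apply hval
    intro h4
    have h2' : 2 ∣ orderOf (y * u * y⁻¹ * u) := Dvd.dvd.trans (by norm_num) h4
    exact (hodd y).not_two_dvd_nat h2'
  have hcard : (Fintype.card G : ℂ) ≠ 0 := by exact_mod_cast Fintype.card_ne_zero
  have hf2 : χ₂ 1 ≠ 0 := Helper80.irr_one_ne_zero ⟨χ₂, h2⟩
  have hf1 : χ₂ 1 + 1 ≠ 0 := by
    rw [← hdeg]; exact Helper80.irr_one_ne_zero ⟨χ₁, h1⟩
  have hs : ∑ y : G, (χ₁ (y * u * y⁻¹ * u) - χ₂ (y * u * y⁻¹ * u)) = ∑ _y : G, (1 : ℂ) :=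
    Finset.sum_congr rfl (fun y _ => hy y)
  rw [Finset.sum_sub_distrib] at hs
  have e1 := Helper80.irr_sum_conj_mul (⟨χ₁, h1⟩ : IrrCharacter G) u u
  have e2 := Helper80.irr_sum_conj_mul (⟨χ₂, h2⟩ : IrrCharacter G) u u
  simp only at e1 e2
  rw [e1, e2, Finset.sum_const, Finset.card_univ, nsmul_eq_mul, mul_one, hdeg] at hs
  have ha1 : χ₁ u = χ₂ u + 1 := by linear_combination hu
  rw [ha1] at hs
  have hsum : (χ₂ u + 1) * (χ₂ u + 1) / (χ₂ 1 + 1) - χ₂ u * χ₂ u / χ₂ 1 = 1 := by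
    have h3 : (Fintype.card G : ℂ) * ((χ₂ u + 1) * (χ₂ u + 1) / (χ₂ 1 + 1)
        - χ₂ u * χ₂ u / χ₂ 1) = (Fintype.card G : ℂ) * 1 := by
      rw [mul_one]
      calc (Fintype.card G : ℂ) * ((χ₂ u + 1) * (χ₂ u + 1) / (χ₂ 1 + 1)
            - χ₂ u * χ₂ u / χ₂ 1)
          = (Fintype.card G : ℂ) * (χ₂ u + 1) * (χ₂ u + 1) / (χ₂ 1 + 1)
            - (Fintype.card G : ℂ) * χ₂ u * χ₂ u / χ₂ 1 := by ring
        _ = (Fintype.card G : ℂ) := hs
    exact mul_left_cancel₀ hcard h3
  have e1' : (χ₂ u + 1) * (χ₂ u + 1) / (χ₂ 1 + 1) * (χ₂ 1 * (χ₂ 1 + 1)) =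
      (χ₂ u + 1) * (χ₂ u + 1) * χ₂ 1 := by
    field_simp
  have e2' : χ₂ u * χ₂ u / χ₂ 1 * (χ₂ 1 * (χ₂ 1 + 1)) = χ₂ u * χ₂ u * (χ₂ 1 + 1) := by
    field_simp
  have e : (χ₂ u + 1) * (χ₂ u + 1) * χ₂ 1 - χ₂ u * χ₂ u * (χ₂ 1 + 1) =
      ((χ₂ u + 1) * (χ₂ u + 1) / (χ₂ 1 + 1) - χ₂ u * χ₂ u / χ₂ 1) * (χ₂ 1 * (χ₂ 1 + 1)) := by
    rw [sub_mul, e1', e2']
  rw [hsum, one_mul] at e
  have hsq : (χ₂ 1 - χ₂ u) ^ 2 = 0 := by linear_combination (-1 : ℂ) * e
  have := pow_eq_zero_iff (two_ne_zero) |>.mp hsq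
  linear_combination -this

universe v

/-- **Rank-one `Z*`-theorem**, inductive form. -/
theorem r1_zstar_aux :
    ∀ (n : ℕ) (G : Type v) [Group G] [Finite G], Nat.card G ≤ n →
      ∀ (P : Sylow 2 G) (u : G), R1Data (P : Subgroup G) u →
        ∃ N : Subgroup G, N.Normal ∧ Odd (Nat.card N) ∧ ∀ g : G, u * g * u⁻¹ * g⁻¹ ∈ N := by
  intro n
  induction n with
  | zero =>
    intro G _ _ hn
    have : 0 < Nat.card G := Nat.card_pos
    omega
  | succ n ih =>
    intro G _ _ hn P u hR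
    classical
    have hfact : Fact (Nat.Prime 2) := ⟨Nat.prime_two⟩
    haveI : Fintype G := Fintype.ofFinite G
    have hu2 : orderOf u = 2 := orderOf_eq_prime (by rw [pow_two]; exact hR.u_sq) hR.u_ne
    have hcls := Helper53.isCyclic_or_quaternion_of_unique_invol (P := (P : Subgroup G))
      P.isPGroup' ⟨u, hR.u_mem⟩ (by rw [Subgroup.orderOf_mk]; exact hu2)
      (by
        intro t ht
        apply Subtype.ext
        have ht' : orderOf (t : G) = 2 := by rw [Subgroup.orderOf_coe]; exact ht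
        apply hR.uniq (t : G) t.2
        · have h := pow_orderOf_eq_one (t : G)
          rw [ht', pow_two] at h
          exact h
        · intro h1
          rw [h1, orderOf_one] at ht'
          norm_num at ht')
    rcases hcls with hcyc | ⟨k, hk1, ⟨e⟩⟩
    · -- cyclic Sylow 2-subgroup
      obtain ⟨N, hNn, hNodd, hNc⟩ := exists_odd_normal_of_cyclic P hcyc
      exact ⟨N, hNn, hNodd, fun g => hNc u g⟩
    · -- generalized quaternion: a nontrivial irreducible character with `u` in its kernel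
      have hχ : ∃ χ : IrrCharacter G, χ ≠ Helper80.trivIrr G ∧
          (χ : G → ℂ) u = (χ : G → ℂ) 1 := by
        obtain ⟨m, rfl⟩ : ∃ m, k = m + 1 := ⟨k - 1, by omega⟩
        rcases Nat.eq_zero_or_pos m with hm | hm
        · subst hm
          have hQ : Q8Data (P : Subgroup G) u :=
            q8Data_of_equiv (P : Subgroup G) e u hR.u_mem hR.u_ne hR.u_sq
          obtain ⟨B, hB1, hF1, hF2⟩ := blockHyp G P u hQ
          exact exists_irr_ker (P : Subgroup G) u hQ (hR.odd_mul_conj P) B hB1 hF1 hF2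
        · obtain ⟨j, rfl⟩ : ∃ j, m = j + 1 := ⟨m - 1, by omega⟩
          obtain ⟨χ₁, χ₂, h1, h2, -, hne2, hdeg, hval⟩ := Cfsg.Agent.S0844.result P j e
          refine ⟨⟨χ₂, h2⟩, ?_, ?_⟩
          · intro h
            apply hne2
            have := congrArg Subtype.val h
            exact this
          · exact apply_eq_of_exceptional u hu2 (hR.odd_mul_conj P) χ₁ χ₂ h1 h2 hdeg hval
      obtain ⟨χ, hχ, hχu⟩ := hχ
      obtain ⟨K, hKn, hK⟩ := Helper80.isCharacter_ker (Helper80.isCharacter_of_irr χ.2)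
      have huK : u ∈ K := (hK u).mpr hχu
      obtain ⟨g0, hg0⟩ := exists_ne_of_ne_trivIrr χ hχ
      have hKtop : K ≠ ⊤ := by
        intro h
        apply hg0
        rw [← hK, h]
        exact Subgroup.mem_top _
      have hKcard : Nat.card K ≤ n := by
        have h1 : Nat.card K < Nat.card G := by
          by_contra hcon
          push Not at hcon
          apply hKtop
          exact Subgroup.eq_top_of_le_card K hcon
        omega
      -- a Sylow 2-subgroup of `K` containing `u`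
      have hZ : IsPGroup 2 (Subgroup.zpowers (⟨u, huK⟩ : K)) := by
        apply IsPGroup.of_card (n := 1)
        rw [Nat.card_zpowers, pow_one, Subgroup.orderOf_mk]
        exact hu2
      obtain ⟨R, hRle⟩ := hZ.exists_le_sylow
      have hRK : R1Data (R : Subgroup K) (⟨u, huK⟩ : K) := by
        refine ⟨hRle (Subgroup.mem_zpowers _), ?_, ?_, ?_⟩
        · intro h0
          exact hR.u_ne (congrArg Subtype.val h0)
        · exact Subtype.ext hR.u_sq
        · intro t ht ht2 ht1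
          apply Subtype.ext
          have hT : IsPGroup 2 ((R : Subgroup K).map K.subtype) := R.isPGroup'.map _
          exact hR.invol_eq_of_mem P _ hT ⟨t, ht, rfl⟩
            ⟨⟨u, huK⟩, hRle (Subgroup.mem_zpowers _), rfl⟩
            (congrArg Subtype.val ht2) (fun h0 => ht1 (Subtype.ext h0)) hR.u_sq hR.u_ne
      obtain ⟨N₀, hN₀n, hN₀odd, hN₀c⟩ := ih K hKcard R ⟨u, huK⟩ hRK
      haveI := hKn
      exact hR.step6 P K huK N₀ hN₀n hN₀odd hN₀c

/-- **The `Z*`-theorem for groups of 2-rank one** (Burnside; Brauer–Suzuki): if `u` is the only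
involution of a Sylow 2-subgroup of the finite group `G`, then `u` is central modulo a normal
subgroup of odd order. -/
theorem rank_one_zstar {G : Type v} [Group G] [Finite G] (P : Sylow 2 G) (u : G)
    (hu : orderOf u = 2) (huP : u ∈ P) (huniq : ∀ t ∈ P, orderOf t = 2 → t = u) :
    ∃ N : Subgroup G, N.Normal ∧ Odd (Nat.card N) ∧ ∀ g : G, u * g * u⁻¹ * g⁻¹ ∈ N := by
  have hu1 : u ≠ 1 := by
    intro h
    rw [h, orderOf_one] at hu
    norm_num at hu
  have hu2 : u * u = 1 := by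
    rw [← pow_two, ← hu]; exact pow_orderOf_eq_one u
  refine r1_zstar_aux (Nat.card G) G le_rfl P u ⟨huP, hu1, hu2, ?_⟩
  intro t ht ht2 ht1
  exact huniq t ht (orderOf_eq_prime (by rw [pow_two]; exact ht2) ht1)

end Cfsg.Agent.Helper49
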