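import Cfsg.Agent.Helper49.RankOne

/-!
# The rank-one `Z*`-theorem, centralizer form

(helper49)  `rank_one_zstar_centralizer`: if `u` is the only involution of its centralizer, then
`u` is central modulo a normal subgroup of odd order.  (This is the hypothesis `h2` of
`Cfsg.Agent.Helper55.zstar_of_rank_one`.)  `exists_invol_zstar_of_no_klein`: a group of even
order in which commuting involutions are equal has an involution central modulo a normal
subgroup of odd order.
-/

set_option autoImplicit false

namespace Cfsg.Agent.Helper49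

universe v

/-- A nontrivial finite 2-subgroup has an involution commuting with all its elements. -/
theorem exists_central_invol {G : Type*} [Group G] [Finite G] (P : Subgroup G)
    (hP : IsPGroup 2 P) (hne : P ≠ ⊥) :
    ∃ z ∈ P, orderOf z = 2 ∧ ∀ x ∈ P, x * z = z * x := by
  have : Fact (Nat.Prime 2) := ⟨Nat.prime_two⟩
  haveI : Nontrivial P := (Subgroup.nontrivial_iff_ne_bot P).mpr hne
  have hcn : Nontrivial (Subgroup.center P) := hP.center_nontrivial
  have hcp : IsPGroup 2 (Subgroup.center P) := hP.to_subgroup _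
  obtain ⟨k, hk⟩ := hcp.exists_card_eq
  have hk0 : k ≠ 0 := by
    rintro rfl
    rw [pow_zero] at hk
    have := (Finite.one_lt_card_iff_nontrivial (α := Subgroup.center P)).mpr hcn
    omega
  have hdvd : 2 ∣ Nat.card (Subgroup.center P) := by
    rw [hk]; exact dvd_pow_self 2 hk0
  obtain ⟨z, hz⟩ := exists_prime_orderOf_dvd_card' 2 hdvd
  refine ⟨((z : P) : G), (z : P).2, ?_, ?_⟩
  · rw [Subgroup.orderOf_coe, Subgroup.orderOf_coe]; exact hz
  · intro x hx
    have h := Subgroup.mem_center_iff.mp z.2 ⟨x, hx⟩
    exact congrArg Subtype.val h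

/-- **Rank-one `Z*`-theorem, centralizer form**: if `u` is the only involution commuting with
`u`, then `u` is central modulo a normal subgroup of odd order. -/
theorem rank_one_zstar_centralizer {G : Type v} [Group G] [Finite G] (u : G)
    (hu : orderOf u = 2) (huniq : ∀ t : G, orderOf t = 2 → Commute t u → t = u) :
    ∃ N : Subgroup G, N.Normal ∧ Odd (Nat.card N) ∧ ∀ g : G, u * g * u⁻¹ * g⁻¹ ∈ N := by
  have : Fact (Nat.Prime 2) := ⟨Nat.prime_two⟩
  have hZ : IsPGroup 2 (Subgroup.zpowers u) := by
    apply IsPGroup.of_card (n := 1)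
    rw [Nat.card_zpowers, pow_one, hu]
  obtain ⟨P, hP⟩ := hZ.exists_le_sylow
  have huP : u ∈ (P : Subgroup G) := hP (Subgroup.mem_zpowers u)
  have hu1 : u ≠ 1 := by
    intro h
    rw [h, orderOf_one] at hu
    norm_num at hu
  have hne : (P : Subgroup G) ≠ ⊥ := by
    intro h
    rw [h, Subgroup.mem_bot] at huP
    exact hu1 huP
  obtain ⟨z, hzP, hz2, hzc⟩ := exists_central_invol (P : Subgroup G) P.isPGroup' hne
  have hzu : z = u := huniq z hz2 (hzc u huP).symm
  apply rank_one_zstar P u hu huP
  intro t ht ht2
  apply huniq t ht2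
  rw [← hzu]
  exact hzc t ht

end Cfsg.Agent.Helper49
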