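import Cfsg.Agent.Helper49.JSec
import Cfsg.Agent.Helper49.JComp
import Cfsg.Agent.Helper11.FFMetab
import Cfsg.Agent.Helper11.S3Prod

/-!
Helper49: consequences of the structure theorem for failure of factorization (S0617, via the
holomorph transport of helper11) for sections of order three:
* `s3sq_mem`: in an internal direct product of copies of `SL(2, 2)` every square is a product of
  elements of order dividing three of the factors;
* `jsec_sq_mem`: in a 2-solvable group `X` with `O₂(X / C_X(V)) = 1`, a subgroup `M'` containing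
  `C_X(V)` and all sections `D / C_X(V)` of order three normalized and not centralized by `J(X)`
  contains the squares of the elements of `J(X)`;
* `sq_sylow_le`: a subgroup containing all squares and a conjugate of every 2-element is everything;
* `jsecKer`: the elements acting trivially on a section.
-/

set_option autoImplicit false

namespace Cfsg.Agent.Helper49

open Cfsg.Agent.Helper11

theorem s3sq_sl2_sq_cube : ∀ m : Matrix.SpecialLinearGroup (Fin 2) (ZMod 2),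
    (m * m) ^ 3 = 1 := by
  decide

/-- In an internal direct product of copies of `SL(2, 2)` every square is a product of elements
of order dividing three of the factors. -/
theorem s3sq_mem {Γ : Type*} [Group Γ] {ι : Type*} [Finite ι] (E : ι → Subgroup Γ)
    (H : Subgroup Γ) (hnorm : ∀ i, H ≤ Subgroup.normalizer ((E i : Subgroup Γ) : Set Γ))
    (hind : iSupIndep E) (hsup : (⨆ i, E i) = H)
    (hE : ∀ i, Nonempty (↥(E i) ≃* Matrix.SpecialLinearGroup (Fin 2) (ZMod 2))) :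
    ∀ h ∈ H, h * h ∈ Subgroup.closure {x : Γ | ∃ i, x ∈ E i ∧ x ^ 3 = 1} := by
  classical
  have : Fintype ι := Fintype.ofFinite ι
  have hEH : ∀ i, E i ≤ H := fun i => (le_iSup E i).trans hsup.le
  have hcomm := commute_of_iSupIndep_of_normalizer E H hnorm hind hEH
  have hrange : (Subgroup.noncommPiCoprod hcomm).range = H := by
    rw [Subgroup.noncommPiCoprod_range, hsup]
  intro h hh
  rw [← hrange] at hh
  obtain ⟨h', rfl⟩ := hh
  rw [← map_mul, Subgroup.noncommPiCoprod_apply]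
  apply Subgroup.noncommProd_mem
  intro j _
  apply Subgroup.subset_closure
  obtain ⟨e⟩ := hE j
  have h1 : ((h' * h') j) ^ 3 = 1 := by
    apply e.injective
    rw [map_pow, Pi.mul_apply, map_mul, map_one]
    exact s3sq_sl2_sq_cube _
  refine ⟨j, ((h' * h') j).2, ?_⟩
  have h2 := congrArg Subtype.val h1
  simpa using h2

/-- A section `E / C` mapped onto `SL(2, 2)` with kernel `C` contains a section `D / C` of order
three, not centralized by `E`. -/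
theorem jsec_exists_section_hom {X : Type*} [Group X] (C E : Subgroup X) (hCE : C ≤ E)
    (φ : ↥E →* Matrix.SpecialLinearGroup (Fin 2) (ZMod 2))
    (hker : ∀ y : ↥E, φ y = 1 ↔ (y : X) ∈ C) (hsurj : Function.Surjective φ) :
    ∃ D : Subgroup X, C ≤ D ∧ D ≤ E ∧ (∀ y, y ∈ D ↔ y ∈ E ∧ y ^ 3 ∈ C) ∧
      (∀ x ∈ D, x ∉ C → ∀ y ∈ D, y ∈ C ∨ y * x⁻¹ ∈ C ∨ y * x ∈ C) ∧
      ∃ g ∈ E, ∃ d₀ ∈ D, g * d₀ * g⁻¹ * d₀⁻¹ ∉ C := by
  have hmem : ∀ y, y ∈ (jsecP3.comap φ).map E.subtype ↔ ∃ hy : y ∈ E, φ ⟨y, hy⟩ ^ 3 = 1 := by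
    intro y
    constructor
    · rintro ⟨y', hy', rfl⟩; exact ⟨y'.2, hy'⟩
    · rintro ⟨hy, h3⟩; exact ⟨⟨y, hy⟩, h3, rfl⟩
  refine ⟨(jsecP3.comap φ).map E.subtype, ?_, ?_, ?_, ?_, ?_⟩
  · intro c hc
    rw [hmem]
    refine ⟨hCE hc, ?_⟩
    rw [(hker ⟨c, hCE hc⟩).mpr hc, one_pow]
  · exact Subgroup.map_subtype_le _
  · intro y
    rw [hmem]
    constructor
    · rintro ⟨hy, h3⟩
      refine ⟨hy, ?_⟩
      rw [← map_pow] at h3
      exact (hker _).mp h3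
    · rintro ⟨hy, h3⟩
      refine ⟨hy, ?_⟩
      rw [← map_pow]
      exact (hker _).mpr h3
  · intro x hx hxC y hy
    rw [hmem] at hx hy
    obtain ⟨hxE, hx3⟩ := hx
    obtain ⟨hyE, hy3⟩ := hy
    have hx1 : φ ⟨x, hxE⟩ ≠ 1 := fun h1 => hxC ((hker _).mp h1)
    rcases jsec_sl2_three _ _ hx3 hy3 hx1 with h1 | h1 | h1
    · left; exact (hker _).mp h1
    · right; left
      rw [← map_inv, ← map_mul] at h1
      exact (hker _).mp h1
    · right; right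
      rw [← map_mul] at h1
      exact (hker _).mp h1
  · obtain ⟨m, n, hn3, hmn⟩ := jsec_sl2_exists
    obtain ⟨g', rfl⟩ := hsurj m
    obtain ⟨d', rfl⟩ := hsurj n
    refine ⟨g', g'.2, d', (hmem _).mpr ⟨d'.2, hn3⟩, ?_⟩
    intro hc
    apply hmn
    rw [← map_inv, ← map_inv, ← map_mul, ← map_mul, ← map_mul]
    exact (hker _).mpr hc

/-- The elements normalizing `D` and centralizing `D / C`. -/
def jsecKer {X : Type*} [Group X] (C D : Subgroup X) : Subgroup X where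
  carrier := {g | ∀ y ∈ D, (g * y * g⁻¹ ∈ D ∧ g * y * g⁻¹ * y⁻¹ ∈ C) ∧
    (g⁻¹ * y * g ∈ D ∧ g⁻¹ * y * g * y⁻¹ ∈ C)}
  one_mem' := by
    intro y hy
    simp [hy, C.one_mem]
  mul_mem' := by
    intro g h hg hh y hy
    obtain ⟨⟨h1, h2⟩, -, -⟩ := hh y hy
    obtain ⟨⟨g1, g2⟩, -, -⟩ := hg _ h1
    obtain ⟨-, g3, g4⟩ := hg y hy
    obtain ⟨-, h5, h6⟩ := hh _ g3
    refine ⟨⟨?_, ?_⟩, ?_, ?_⟩
    · have e : g * h * y * (g * h)⁻¹ = g * (h * y * h⁻¹) * g⁻¹ := by group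
      rw [e]; exact g1
    · have e : g * h * y * (g * h)⁻¹ * y⁻¹ =
          (g * (h * y * h⁻¹) * g⁻¹ * (h * y * h⁻¹)⁻¹) * (h * y * h⁻¹ * y⁻¹) := by group
      rw [e]; exact C.mul_mem g2 h2
    · have e : (g * h)⁻¹ * y * (g * h) = h⁻¹ * (g⁻¹ * y * g) * h := by group
      rw [e]; exact h5
    · have e : (g * h)⁻¹ * y * (g * h) * y⁻¹ =
          (h⁻¹ * (g⁻¹ * y * g) * h * (g⁻¹ * y * g)⁻¹) * (g⁻¹ * y * g * y⁻¹) := by group
      rw [e]; exact C.mul_mem h6 g4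
  inv_mem' := by
    intro g hg y hy
    obtain ⟨h1, h2⟩ := hg y hy
    exact ⟨by simpa using h2, by simpa using h1⟩

theorem mem_jsecKer {X : Type*} [Group X] {C D : Subgroup X} {g : X} :
    g ∈ jsecKer C D ↔ ∀ y ∈ D, (g * y * g⁻¹ ∈ D ∧ g * y * g⁻¹ * y⁻¹ ∈ C) ∧
      (g⁻¹ * y * g ∈ D ∧ g⁻¹ * y * g * y⁻¹ ∈ C) := Iff.rfl

/-- `jsecKer C D` is normalized by the elements normalizing `C` and `D`. -/
theorem jsecKer_conj_mem {X : Type*} [Group X] {C D : Subgroup X} [hC : C.Normal] {z g : X}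
    (hz : ∀ y ∈ D, z * y * z⁻¹ ∈ D ∧ z⁻¹ * y * z ∈ D) (hg : g ∈ jsecKer C D) :
    z * g * z⁻¹ ∈ jsecKer C D := by
  intro y hy
  have hy' := (hz y hy).2
  obtain ⟨⟨h1, h2⟩, h3, h4⟩ := hg _ hy'
  refine ⟨⟨?_, ?_⟩, ?_, ?_⟩
  · have e : z * g * z⁻¹ * y * (z * g * z⁻¹)⁻¹ = z * (g * (z⁻¹ * y * z) * g⁻¹) * z⁻¹ := by group
    rw [e]; exact (hz _ h1).1
  · have e : z * g * z⁻¹ * y * (z * g * z⁻¹)⁻¹ * y⁻¹ =
        z * (g * (z⁻¹ * y * z) * g⁻¹ * (z⁻¹ * y * z)⁻¹) * z⁻¹ := by group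
    rw [e]; exact hC.conj_mem _ h2 z
  · have e : (z * g * z⁻¹)⁻¹ * y * (z * g * z⁻¹) = z * (g⁻¹ * (z⁻¹ * y * z) * g) * z⁻¹ := by group
    rw [e]; exact (hz _ h3).1
  · have e : (z * g * z⁻¹)⁻¹ * y * (z * g * z⁻¹) * y⁻¹ =
        z * (g⁻¹ * (z⁻¹ * y * z) * g * (z⁻¹ * y * z)⁻¹) * z⁻¹ := by group
    rw [e]; exact hC.conj_mem _ h4 z

/-- A subgroup containing all squares of elements of `X₁` and a conjugate of every 2-element of
`X₁` contains `X₁`. -/
theorem sq_sylow_le {X : Type*} [Group X] [Finite X] {X₁ M₁ : Subgroup X}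
    (hsq : ∀ x ∈ X₁, x * x ∈ M₁)
    (hconj : ∀ x ∈ X₁, (∃ k : ℕ, x ^ 2 ^ k = 1) → ∃ z ∈ X₁, z * x * z⁻¹ ∈ M₁) : X₁ ≤ M₁ := by
  intro x hx
  obtain ⟨k, m, hm, hkm⟩ := Nat.exists_eq_two_pow_mul_odd (orderOf_pos x).ne'
  have h1 : x ^ 2 ^ k ∈ M₁ := by
    obtain ⟨n, rfl⟩ := hm
    have hy : (x ^ 2 ^ k) ^ (2 * n + 1) = 1 := by
      rw [← pow_mul, ← hkm, pow_orderOf_eq_one]
    have e : x ^ 2 ^ k = (x ^ 2 ^ k) ^ (n + 1) * (x ^ 2 ^ k) ^ (n + 1) := by
      rw [← pow_add]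
      have e' : n + 1 + (n + 1) = (2 * n + 1) + 1 := by ring
      rw [e', pow_succ, hy, one_mul]
    rw [e]
    exact hsq _ (X₁.pow_mem (X₁.pow_mem hx _) _)
  have h2 : x ^ m ∈ M₁ := by
    have hxm : x ^ m ∈ X₁ := X₁.pow_mem hx _
    obtain ⟨z, hz, hzx⟩ := hconj (x ^ m) hxm ⟨k, by
      rw [← pow_mul, mul_comm, ← hkm, pow_orderOf_eq_one]⟩
    have hp : z * x ^ m * z⁻¹ ∈ X₁ := X₁.mul_mem (X₁.mul_mem hz hxm) (X₁.inv_mem hz)
    have e : x ^ m = (z * x ^ m * z⁻¹) *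
        (((z * x ^ m * z⁻¹)⁻¹ * z⁻¹) * ((z * x ^ m * z⁻¹)⁻¹ * z⁻¹)) *
        ((z * (z * x ^ m * z⁻¹) * z⁻¹) * (z * (z * x ^ m * z⁻¹) * z⁻¹)) * (z * z) := by group
    rw [e]
    refine M₁.mul_mem (M₁.mul_mem (M₁.mul_mem hzx ?_) ?_) (hsq z hz)
    · exact hsq _ (X₁.mul_mem (X₁.inv_mem hp) (X₁.inv_mem hz))
    · exact hsq _ (X₁.mul_mem (X₁.mul_mem hz hp) (X₁.inv_mem hz))
  exact mem_of_pow_mem_of_coprime (m := 2 ^ k) (n := m)
    (Nat.Coprime.pow_left k (Nat.coprime_two_left.mpr hm)) h1 h2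

/-- Abstract form of `jsec_sq_mem`: `f : X →* Γ` maps `J` onto an internal direct product of
copies of `SL(2, 2)`. -/
theorem jsec_sq_mem_aux {X Γ : Type*} [Group X] [Group Γ] (f : X →* Γ) (J : Subgroup X)
    {ι : Type*} [Finite ι] (E : ι → Subgroup Γ)
    (hnorm : ∀ i, J.map f ≤ Subgroup.normalizer ((E i : Subgroup Γ) : Set Γ))
    (hind : iSupIndep E) (hsup : (⨆ i, E i) = J.map f)
    (hE : ∀ i, Nonempty (↥(E i) ≃* Matrix.SpecialLinearGroup (Fin 2) (ZMod 2)))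
    (M' : Subgroup X) (hCM : f.ker ≤ M')
    (hM : ∀ D : Subgroup X, JSec J f.ker D →
      (∃ g ∈ J, ∃ d₀ ∈ D, g * d₀ * g⁻¹ * d₀⁻¹ ∉ f.ker) → D ≤ M') :
    ∀ x ∈ J, x * x ∈ M' := by
  have hEH : ∀ i, E i ≤ J.map f := fun i => (le_iSup E i).trans hsup.le
  have hfac : ∀ i, ∀ x₀ ∈ J, f x₀ ∈ E i → (f x₀) ^ 3 = 1 → x₀ ∈ M' := by
    intro i x₀ hx₀ hx₀E hx₀3
    obtain ⟨e⟩ := hE i
    let φ : ↥((E i).comap f) →* Matrix.SpecialLinearGroup (Fin 2) (ZMod 2) :=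
      e.toMonoidHom.comp (f.subgroupComap (E i))
    have hker : ∀ y : ↥((E i).comap f), φ y = 1 ↔ (y : X) ∈ f.ker := by
      intro y
      show e (f.subgroupComap (E i) y) = 1 ↔ _
      rw [MulEquiv.map_eq_one_iff, MonoidHom.mem_ker, Subtype.ext_iff]
      rfl
    have hsurj : Function.Surjective φ := by
      intro m
      obtain ⟨x, hx, hxe⟩ := hEH i (e.symm m).2
      have hxc : x ∈ (E i).comap f := by
        rw [Subgroup.mem_comap, hxe]; exact (e.symm m).2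
      refine ⟨⟨x, hxc⟩, ?_⟩
      show e (f.subgroupComap (E i) ⟨x, hxc⟩) = m
      have h1 : f.subgroupComap (E i) ⟨x, hxc⟩ = e.symm m := Subtype.ext hxe
      rw [h1, MulEquiv.apply_symm_apply]
    have hCE : f.ker ≤ (E i).comap f := by
      intro c hc
      rw [Subgroup.mem_comap, MonoidHom.mem_ker.mp hc]
      exact (E i).one_mem
    obtain ⟨D, hCD, -, hDmem, hD3, g, hgE, d₀, hd₀, hgd⟩ :=
      jsec_exists_section_hom f.ker ((E i).comap f) hCE φ hker hsurj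
    have hsec : JSec J f.ker D := by
      refine ⟨hCD, ?_, fun y hy => ((hDmem y).mp hy).2, hD3⟩
      intro x hx y hy
      rw [hDmem] at hy ⊢
      refine ⟨?_, ?_⟩
      · rw [Subgroup.mem_comap, map_mul, map_mul, map_inv]
        exact conj_mem_of_mem_normalizer (hnorm i (Subgroup.mem_map_of_mem f hx)) hy.1
      · rw [conj_pow]
        exact (MonoidHom.normal_ker f).conj_mem _ hy.2 x
    have hact : ∃ g ∈ J, ∃ d₀ ∈ D, g * d₀ * g⁻¹ * d₀⁻¹ ∉ f.ker := by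
      obtain ⟨j, hj, hjg⟩ := hEH i hgE
      refine ⟨j, hj, d₀, hd₀, ?_⟩
      intro hc
      apply hgd
      rw [MonoidHom.mem_ker] at hc ⊢
      rw [map_mul, map_mul, map_mul, map_inv, map_inv] at hc ⊢
      rw [← hjg]; exact hc
    apply hM D hsec hact
    rw [hDmem]
    refine ⟨hx₀E, ?_⟩
    rw [MonoidHom.mem_ker, map_pow]; exact hx₀3
  intro x hx
  have h1 := s3sq_mem E (J.map f) hnorm hind hsup hE (f x) (Subgroup.mem_map_of_mem f hx)
  have h2 : Subgroup.closure {y : Γ | ∃ i, y ∈ E i ∧ y ^ 3 = 1} ≤ M'.map f := by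
    rw [Subgroup.closure_le]
    rintro y ⟨i, hyE, hy3⟩
    obtain ⟨x₀, hx₀, rfl⟩ := hEH i hyE
    exact ⟨x₀, hfac i x₀ hx₀ hyE hy3, rfl⟩
  obtain ⟨m, hm, hmx⟩ := h2 h1
  have h3 : m⁻¹ * (x * x) ∈ f.ker := by
    rw [MonoidHom.mem_ker, map_mul, map_inv, map_mul, hmx, inv_mul_cancel]
  have e : x * x = m * (m⁻¹ * (x * x)) := by group
  rw [e]; exact M'.mul_mem hm (hCM h3)

/-- In a 2-solvable group `X` with a normal elementary abelian 2-subgroup `V` such that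
`O₂(X / C_X(V)) = 1`: a subgroup `M'` containing `C_X(V)` and every section `D / C_X(V)` of order
three normalized and not centralized by `J(X)` contains the squares of the elements of `J(X)`. -/
theorem jsec_sq_mem {X : Type*} [Group X] [Finite X] [Fact (Nat.Prime 2)]
    (hsep : Cfsg.IsPSolvable 2 X) (V : Subgroup X) [V.Normal]
    (hV : Cfsg.IsElementaryAbelian 2 V)
    (hD : ∀ D : Subgroup X, D.Normal → Subgroup.centralizer (V : Set X) ≤ D →
      (∃ k : ℕ, (Subgroup.centralizer (V : Set X)).relIndex D = 2 ^ k) →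
      D = Subgroup.centralizer (V : Set X))
    (M' : Subgroup X) (hCM : Subgroup.centralizer (V : Set X) ≤ M')
    (hM : ∀ D : Subgroup X,
      JSec (Cfsg.thompsonSubgroup 2 X) (Subgroup.centralizer (V : Set X)) D →
      (∃ g ∈ Cfsg.thompsonSubgroup 2 X, ∃ d₀ ∈ D,
        g * d₀ * g⁻¹ * d₀⁻¹ ∉ Subgroup.centralizer (V : Set X)) → D ≤ M') :
    ∀ x ∈ Cfsg.thompsonSubgroup 2 X, x * x ∈ M' := by
  by_cases hJC : Cfsg.thompsonSubgroup 2 X ≤ Subgroup.centralizer (V : Set X)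
  · intro x hx
    exact M'.mul_mem (hCM (hJC hx)) (hCM (hJC hx))
  · have := holo_finite V
    obtain ⟨hVh, hHV, hf, hS1, hS3⟩ := holo_thompson_hyps hsep V hV hD
    have hH1 : (Cfsg.thompsonSubgroup 2 X).map (holoHom V) ≠ ⊥ := by
      intro h
      apply hJC
      rw [Subgroup.map_eq_bot_iff, holoHom_ker] at h
      exact h
    obtain ⟨_, hE, hind, hsup, _⟩ :=
      Cfsg.Agent.S0617.result (holoV V) _ hVh hHV hf hS1 hS3 hH1
    exact jsec_sq_mem_aux (holoHom V) _ _ (fun i => (hE i).1) hind hsup (fun i => (hE i).2.1) M'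
      (by rw [holoHom_ker]; exact hCM) (by rw [holoHom_ker]; exact hM)

end Cfsg.Agent.Helper49
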