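import Mathlib
import Cfsg.Prelude.Def_GeometricClasses
import Cfsg.Prelude.Def_Classical
import Cfsg.Agent.Helper98.ELPDefs
import Cfsg.Agent.Helper47.ELPAPP
import Cfsg.Agent.Helper43.OrthEven

set_option autoImplicit false

/-!
helper49: piece SIEGP of sub-CALL S74T2 (helper65; row S5974, stage `r = p = 2`).
-/

namespace Cfsg.Agent.Helper49.S74T2

open Module Cfsg Cfsg.Geo
open scoped MatrixGroups

section sieg

variable {F : Type*} [Field F]

/-- SIEGP [S]: the Siegel matrix `siegM T = [[1, T - Tᵀ], [0, 1]]` in characteristic `2`: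
`polar u (x u) = b ⬝ᵥ (T - Tᵀ) *ᵥ b = 0` (`b = u ∘ inr`), and the fixed vectors are those with
`u ∘ inr = 0` (injectivity), which are pairwise orthogonal. -/
theorem t2_siegP (h2 : (2 : F) = 0) (d : ℕ) (T : Matrix (Fin d) (Fin d) F)
    (hinj : ∀ b : Fin d → F, (T - T.transpose).mulVec b = 0 → b = 0) :
    (∀ u : Fin d ⊕ Fin d → F, QuadraticMap.polar (Cfsg.quadFormPlus d F) u
      ((Cfsg.Agent.Helper98.ELP.siegM T).mulVec u) = 0) ∧
    (∀ u v : Fin d ⊕ Fin d → F, (Cfsg.Agent.Helper98.ELP.siegM T).mulVec u = u →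
      (Cfsg.Agent.Helper98.ELP.siegM T).mulVec v = v →
      QuadraticMap.polar (Cfsg.quadFormPlus d F) u v = 0) := by
  constructor
  · intro u
    rw [Cfsg.Agent.Helper43.OrthEven.polar_plus]
    simp only [Cfsg.Agent.Helper47.ELP.siegM_mulVec_inl, Cfsg.Agent.Helper47.ELP.siegM_mulVec_inr]
    have hsum : ∑ i : Fin d, (u (Sum.inl i) * u (Sum.inr i) +
        (u (Sum.inl i) + ((T - T.transpose).mulVec (fun j => u (Sum.inr j))) i) * u (Sum.inr i)) =
        2 * ∑ i : Fin d, u (Sum.inl i) * u (Sum.inr i) +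
          (fun j => u (Sum.inr j)) ⬝ᵥ (T - T.transpose).mulVec (fun j => u (Sum.inr j)) := by
      rw [dotProduct, Finset.mul_sum, ← Finset.sum_add_distrib]
      apply Finset.sum_congr rfl
      intro i _
      ring
    rw [hsum, h2, zero_mul, zero_add, Matrix.sub_mulVec, dotProduct_sub,
      Matrix.dotProduct_mulVec _ T.transpose, Matrix.vecMul_transpose,
      dotProduct_comm (T.mulVec _), sub_self]
  · intro u v hu hv
    have hzero : ∀ w : Fin d ⊕ Fin d → F, (Cfsg.Agent.Helper98.ELP.siegM T).mulVec w = w →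
        ∀ j, w (Sum.inr j) = 0 := by
      intro w hw
      have hb : (T - T.transpose).mulVec (fun j => w (Sum.inr j)) = 0 := by
        funext i
        have h1 := congrFun hw (Sum.inl i)
        rw [Cfsg.Agent.Helper47.ELP.siegM_mulVec_inl] at h1
        simpa using h1
      intro j
      exact congrFun (hinj _ hb) j
    rw [Cfsg.Agent.Helper43.OrthEven.polar_plus]
    apply Finset.sum_eq_zero
    intro i _
    rw [hzero u hu i, hzero v hv i, mul_zero, mul_zero, add_zero]

end sieg

end Cfsg.Agent.Helper49.S74T2
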