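/-
Helper49 library: subgroups `M` containing the normalizers of all their nontrivial `p`-subgroups
(the "strongly `p`-embedded" property in normalizer form) and the intersections `M ∩ M^g`.
Everything lives in `namespace Cfsg.Agent.Helper49`.
-/
import Cfsg.Agent.Helper49.AxB

set_option autoImplicit false

namespace Cfsg.Agent.Helper49

open Cfsg
open scoped Pointwise

variable {G : Type*} [Group G] {p : ℕ}

/-- A nontrivial finite `p`-subgroup has order divisible by `p`. -/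
theorem dvd_card_of_isPGroup_ne_bot [Finite G] [Fact p.Prime] {U : Subgroup G} (hU : IsPGroup p U)
    (hne : U ≠ ⊥) : p ∣ Nat.card U := by
  rcases hU.card_eq_or_dvd with h | h
  · exact absurd (Subgroup.card_eq_one.mp h) hne
  · exact h

/-- If `p` does not divide `|M ∩ M^g|` for `g ∉ M`, then `M` contains the normalizer of each of its nontrivial
`p`-subgroups. -/
theorem normalizer_le_of_not_dvd_card_inf_conj [Finite G] [Fact p.Prime] (M : Subgroup G)
    (h : ∀ g : G, g ∉ M → ¬ p ∣ Nat.card ↥(M ⊓ M.map (MulAut.conj g).toMonoidHom))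
    (U : Subgroup G) (hU : IsPGroup p U) (hne : U ≠ ⊥) (hUM : U ≤ M) :
    Subgroup.normalizer (U : Set G) ≤ M := by
  intro g hg
  by_contra hgM
  apply h g hgM
  have hle : U ≤ M ⊓ M.map (MulAut.conj g).toMonoidHom := by
    refine le_inf hUM ?_
    intro u hu
    have h1 : g⁻¹ * u * g ∈ U := by
      have := (Subgroup.mem_normalizer_iff.mp (Subgroup.inv_mem _ hg) u).mp hu
      simpa using this
    refine ⟨g⁻¹ * u * g, hUM h1, ?_⟩
    simp only [MulEquiv.toMonoidHom_eq_coe, MonoidHom.coe_coe, MulAut.conj_apply]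
    group
  exact (dvd_card_of_isPGroup_ne_bot hU hne).trans (Subgroup.card_dvd_of_le hle)

/-- If `M` contains the normalizer of each of its nontrivial `p`-subgroups, then every `p`-subgroup normalized by
a nontrivial `p`-subgroup of `M` lies in `M`. -/
theorem le_of_normalized_by_pgroup [Finite G] [Fact p.Prime] (M : Subgroup G)
    (hF : ∀ U : Subgroup G, IsPGroup p U → U ≠ ⊥ → U ≤ M → Subgroup.normalizer (U : Set G) ≤ M)
    {T R : Subgroup G} (hT : IsPGroup p T) (hT1 : T ≠ ⊥) (hTM : T ≤ M) (hR : IsPGroup p R)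
    (hTR : T ≤ Subgroup.normalizer (R : Set G)) : R ≤ M := by
  have hH : IsPGroup p (T ⊔ R : Subgroup G) := hT.to_sup_of_normal_right' hR hTR
  set K : Subgroup G := (T ⊔ R) ⊓ M with hK
  have hTK : T ≤ K := le_inf le_sup_left hTM
  have hKne : K ≠ ⊥ := fun h => hT1 (le_bot_iff.mp (h ▸ hTK))
  have hEq : K = T ⊔ R := by
    by_contra hne
    obtain ⟨h, hhH, hhN, hhK⟩ := exists_mem_normalizer_not_mem hH (inf_le_left : K ≤ T ⊔ R) hne
    exact hhK ⟨hhH, hF K (hH.to_le inf_le_left) hKne inf_le_right hhN⟩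
  have : T ⊔ R ≤ M := hEq ▸ (inf_le_right : K ≤ M)
  exact le_sup_right.trans this

/-- If `M` contains the normalizer of each of its nontrivial `p`-subgroups, then `p` does not divide
`|M ∩ M^g|` for `g ∉ M`. -/
theorem not_dvd_card_inf_conj_of_normalizer_le [Finite G] [Fact p.Prime] (M : Subgroup G)
    (hF : ∀ U : Subgroup G, IsPGroup p U → U ≠ ⊥ → U ≤ M → Subgroup.normalizer (U : Set G) ≤ M)
    (g : G) (hg : g ∉ M) : ¬ p ∣ Nat.card ↥(M ⊓ M.map (MulAut.conj g).toMonoidHom) := by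
  intro hdvd
  set D : Subgroup G := M ⊓ M.map (MulAut.conj g).toMonoidHom with hD
  obtain ⟨P⟩ := (Sylow.nonempty : Nonempty (Sylow p ↥D))
  have hPne : (P : Subgroup ↥D) ≠ ⊥ := P.ne_bot_of_dvd_card hdvd
  set P₀ : Subgroup G := (P : Subgroup ↥D).map D.subtype with hP₀def
  have hP₀ : IsPGroup p P₀ := P.isPGroup'.map _
  have hP₀D : P₀ ≤ D := by
    rintro _ ⟨y, _, rfl⟩
    exact y.2
  have hP₀ne : P₀ ≠ ⊥ := by
    intro h
    apply hPne
    exact (Subgroup.map_eq_bot_iff_of_injective _ Subtype.coe_injective).mp h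
  obtain ⟨T₁, hT₁⟩ := hP₀.exists_le_sylow
  have hNM : Subgroup.normalizer (P₀ : Set G) ≤ M := hF P₀ hP₀ hP₀ne (hP₀D.trans inf_le_left)
  -- the conjugate `g⁻¹ P₀ g` lies in `M`
  have hmemconj : ∀ x : G, x ∈ M.map (MulAut.conj g).toMonoidHom → g⁻¹ * x * g ∈ M := by
    rintro _ ⟨m, hm, rfl⟩
    simp only [MulEquiv.toMonoidHom_eq_coe, MonoidHom.coe_coe, MulAut.conj_apply]
    have : g⁻¹ * (g * m * g⁻¹) * g = m := by group
    rw [this]; exact hm
  have hNM' : Subgroup.normalizer (P₀ : Set G) ≤ M.map (MulAut.conj g).toMonoidHom := by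
    set P₁ : Subgroup G := P₀.map (MulAut.conj g⁻¹).toMonoidHom with hP₁
    have hP₁M : P₁ ≤ M := by
      rintro _ ⟨x, hx, rfl⟩
      simp only [MulEquiv.toMonoidHom_eq_coe, MonoidHom.coe_coe, MulAut.conj_apply, inv_inv]
      exact hmemconj x ((hP₀D.trans inf_le_right) hx)
    have hP₁p : IsPGroup p P₁ := hP₀.map _
    have hP₁ne : P₁ ≠ ⊥ := by
      intro h
      apply hP₀ne
      exact (Subgroup.map_eq_bot_iff_of_injective _ (MulAut.conj g⁻¹).injective).mp h
    have hN₁ : Subgroup.normalizer (P₁ : Set G) ≤ M := hF P₁ hP₁p hP₁ne hP₁M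
    intro n hn
    have h1 : (MulAut.conj g⁻¹).toMonoidHom n ∈ Subgroup.normalizer (P₁ : Set G) :=
      Subgroup.le_normalizer_map _ ⟨n, hn, rfl⟩
    have h2 := hN₁ h1
    refine ⟨_, h2, ?_⟩
    simp only [MulEquiv.toMonoidHom_eq_coe, MonoidHom.coe_coe, MulAut.conj_apply, inv_inv]
    group
  have hEq : P₀ = (T₁ : Subgroup G) := by
    by_contra hne
    obtain ⟨h, hhT, hhN, hhP⟩ := exists_mem_normalizer_not_mem T₁.isPGroup' hT₁ hne
    have hhD : h ∈ D := ⟨hNM hhN, hNM' hhN⟩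
    have hQ : IsPGroup p (P₀ ⊔ Subgroup.zpowers h : Subgroup G) :=
      T₁.isPGroup'.to_le (sup_le hT₁ ((Subgroup.zpowers_le).mpr hhT))
    have hQD : P₀ ⊔ Subgroup.zpowers h ≤ D := sup_le hP₀D ((Subgroup.zpowers_le).mpr hhD)
    have hPQ : (P : Subgroup ↥D) ≤ (P₀ ⊔ Subgroup.zpowers h).subgroupOf D := by
      intro y hy
      rw [Subgroup.mem_subgroupOf]
      exact (le_sup_left : P₀ ≤ _) ⟨y, hy, rfl⟩
    have hmax : (P₀ ⊔ Subgroup.zpowers h).subgroupOf D = (P : Subgroup ↥D) :=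
      P.is_maximal' (hQ.comap_subtype (K := D)) hPQ
    have h3 : (⟨h, hhD⟩ : ↥D) ∈ (P₀ ⊔ Subgroup.zpowers h).subgroupOf D := by
      rw [Subgroup.mem_subgroupOf]
      exact (le_sup_right : Subgroup.zpowers h ≤ _) (Subgroup.mem_zpowers h)
    rw [hmax] at h3
    exact hhP ⟨_, h3, rfl⟩
  have hT₁M : (T₁ : Subgroup G) ≤ M := hEq ▸ hP₀D.trans inf_le_left
  have hT₁M' : (T₁ : Subgroup G) ≤ M.map (MulAut.conj g).toMonoidHom := hEq ▸ hP₀D.trans inf_le_right
  have hT₂M : ((g⁻¹ • T₁ : Sylow p G) : Subgroup G) ≤ M := by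
    rw [Sylow.coe_subgroup_smul]
    intro y hy
    obtain ⟨t, ht, rfl⟩ := (Subgroup.mem_smul_pointwise_iff_exists _ _ _).mp hy
    rw [MulAut.smul_def, MulAut.conj_apply, inv_inv]
    exact hmemconj t (hT₁M' ht)
  obtain ⟨m, hm⟩ := MulAction.exists_smul_eq ↥M ((g⁻¹ • T₁).subtype hT₂M) (T₁.subtype hT₁M)
  rw [Sylow.smul_subtype] at hm
  have hm' : m • (g⁻¹ • T₁) = T₁ := Sylow.subtype_injective hm
  have hm'' : ((m : G) * g⁻¹) • T₁ = T₁ := by
    rw [mul_smul]; exact hm'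
  have hn : (m : G) * g⁻¹ ∈ Subgroup.normalizer ((T₁ : Subgroup G) : Set G) :=
    Sylow.smul_eq_iff_mem_normalizer.mp hm''
  have hT₁ne : (T₁ : Subgroup G) ≠ ⊥ := hEq ▸ hP₀ne
  have h5 : (m : G) * g⁻¹ ∈ M := hF T₁ T₁.isPGroup' hT₁ne hT₁M hn
  apply hg
  have h6 : g⁻¹ ∈ M := by
    have := M.mul_mem (M.inv_mem m.2) h5
    simpa using this
  simpa using M.inv_mem h6

end Cfsg.Agent.Helper49
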