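import Mathlib
import Cfsg.Prelude.Def_GeometricClasses
import Cfsg.Agent.Helper71.T4Defs
import Cfsg.Agent.Helper71.T4Main
import Cfsg.Agent.Helper97.OForm
import Cfsg.Agent.Helper96.T5Defs
import Cfsg.Agent.Helper4.T4CRCore

/-!
# CALL S5704 (helper96), piece L1B (helper49)

`a = 2`: an element `Gm d w (κ τ_e) S` of `M` (`κ ≠ 0`, `w`, `d` independent) contradicts (NSU).
-/

set_option autoImplicit false
set_option linter.unusedVariables false

namespace Cfsg.Agent.Helper49.T5L1B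

open Matrix Cfsg Cfsg.Geo Cfsg.Agent.Helper71.T4 Cfsg.Agent.Helper96.T5
open scoped Kronecker

variable {F : Type*} [Field F] {a b : ℕ}

/-- A vector orthogonal to everything is zero. -/
theorem l1b_eq_zero_of_bf {ι : Type*} [Fintype ι] [DecidableEq ι] (J : Matrix ι ι F)
    (halt : ∀ x, bf J x x = 0) (hdet : J.det ≠ 0) (z : ι → F) (hz : ∀ x, bf J x z = 0) :
    z = 0 := by
  by_contra hne
  obtain ⟨y, hy⟩ := exists_bf_eq_one J hdet z hne
  rw [bf_swap J halt, hz y] at hy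
  simp at hy

/-- The adjoint of `κ τ_e` is `-κ τ_e`. -/
theorem l1b_adj_rk {ι : Type*} [Fintype ι] [DecidableEq ι] (J : Matrix ι ι F)
    (halt : ∀ x, bf J x x = 0) (hdet : J.det ≠ 0) (e : ι → F) (κ : F) :
    adj J (κ • rk J e e) = -(κ • rk J e e) := by
  rw [Matrix.ext_iff_mulVec]
  intro y
  have h0 : adj J (κ • rk J e e) *ᵥ y - (-(κ • rk J e e)) *ᵥ y = 0 := by
    apply l1b_eq_zero_of_bf J halt hdet
    intro x
    rw [bf_sub_right, ← bf_adj J hdet, Matrix.neg_mulVec, bf_neg_right, Matrix.smul_mulVec,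
      Matrix.smul_mulVec, rk_mulVec, rk_mulVec, bf_smul_left, bf_smul_left, bf_smul_right,
      bf_smul_right, bf_swap J halt e y]
    ring
  exact sub_eq_zero.mp h0

variable {J₁ : Matrix (Fin a) (Fin a) F} {J₂ : Matrix (Fin b) (Fin b) F}
  {Q : (Fin a × Fin b → F) → F}

/-- PIECE L1B -/
theorem l1b (hT : TQ J₁ J₂ Q) (ha : a = 2) (hb : 3 ≤ b) (M : Subgroup (GL (Fin a × Fin b) F))
    (hMO : M ≤ isometryGroup F Q) (hR : HasR J₁ J₂ M) (d w : Fin b → F) (hd : d ≠ 0)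
    (hwd : bf J₂ w d = 0) (hind : ∀ c : F, w ≠ c • d) (e : Fin a → F) (he : e ≠ 0) (κ : F)
    (hκ : κ ≠ 0) (S : Matrix (Fin a) (Fin a) F)
    (h : InM M (Gm J₁ J₂ d w (κ • rk J₁ e e) S)) : ¬ NSU J₁ M := by
  intro hNSU
  subst ha
  have hdw : bf J₂ d w = 0 := by rw [bf_swap J₂ hT.alt₂, hwd, neg_zero]
  have hG : Gm J₁ J₂ d w (κ • rk J₁ e e) S
      = 1 + (κ • rk J₁ e e) ⊗ₖ dm J₂ w d + S ⊗ₖ rk J₂ d d := by
    rw [Gm, l1b_adj_rk J₁ hT.alt₁ hT.det₁]
    ext ⟨i, k⟩ ⟨j, l⟩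
    simp only [Matrix.add_apply, Matrix.kronecker_apply, dm, Matrix.sub_apply, Matrix.neg_apply]
    ring
  obtain ⟨g, hgM, hg⟩ := h
  have hiso := (Helper97.Gen.mem_isometryGroup_iff Q g).mp (hMO hgM)
  obtain ⟨y, hy⟩ := exists_bf_eq_one J₂ hT.det₂ d hd
  have hyd : bf J₂ y d = -1 := by rw [bf_swap J₂ hT.alt₂, hy]
  -- isometry: `S` is alternating
  have hS0 : ∀ u, bf J₁ u (S *ᵥ u) = 0 := by
    intro u
    have h1 := hiso (pt u y)
    rw [hg, hG, Matrix.add_mulVec, Matrix.add_mulVec, Matrix.one_mulVec, kron_mulVec_pt,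
      kron_mulVec_pt] at h1
    have hp12 := hT.polar (pt u y) (pt ((κ • rk J₁ e e) *ᵥ u) (dm J₂ w d *ᵥ y))
    have hp123 := hT.polar (pt u y + pt ((κ • rk J₁ e e) *ᵥ u) (dm J₂ w d *ᵥ y))
      (pt (S *ᵥ u) (rk J₂ d d *ᵥ y))
    rw [QuadraticMap.polar, bf_kron_pt, hT.pure, hT.pure] at hp12
    rw [QuadraticMap.polar, bf_add_left, bf_kron_pt, bf_kron_pt, h1, hT.pure, hT.pure] at hp123
    have e1 : bf J₂ y (dm J₂ w d *ᵥ y) = 0 := by
      rw [dm_mulVec, bf_sub_right, bf_smul_right, bf_smul_right]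
      ring
    have e2 : bf J₂ (dm J₂ w d *ᵥ y) (rk J₂ d d *ᵥ y) = 0 := by
      rw [dm_mulVec, rk_mulVec, bf_smul_right, bf_sub_left, bf_smul_left, bf_smul_left, hwd,
        hT.alt₂ d]
      ring
    have e3 : bf J₂ y (rk J₂ d d *ᵥ y) = 1 := by
      rw [rk_mulVec, bf_smul_right, hyd]
      ring
    rw [e1, mul_zero] at hp12
    rw [e2, e3, mul_zero, add_zero, mul_one] at hp123
    linear_combination -hp123 - hp12
  -- `S` is scalar
  have hSsc : ∃ s : F, S = s • (1 : Matrix (Fin 2) (Fin 2) F) := by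
    by_contra hns
    obtain ⟨u, α, hαu, hαS⟩ := Helper4.T4CRCore.exists_of_not_scalar (by norm_num) S hns
    have hu : u ≠ 0 := by
      rintro rfl
      simp at hαS
    obtain ⟨y', hy'⟩ := exists_bf_eq_one J₁ hT.det₁ u hu
    obtain ⟨v, hv⟩ : ∃ v : Fin 2 → F, v = S *ᵥ u := ⟨_, rfl⟩
    rw [← hv] at hαS
    have hS0u := hS0 u
    rw [← hv] at hS0u
    have hcr : (u 0 * y' 1 - u 1 * y' 0) • v
        = (v 0 * y' 1 - v 1 * y' 0) • u + (u 0 * v 1 - u 1 * v 0) • y' := by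
      ext i
      fin_cases i
      · simp only [Pi.smul_apply, Pi.add_apply, smul_eq_mul]
        show (u 0 * y' 1 - u 1 * y' 0) * v 0
          = (v 0 * y' 1 - v 1 * y' 0) * u 0 + (u 0 * v 1 - u 1 * v 0) * y' 0
        ring
      · simp only [Pi.smul_apply, Pi.add_apply, smul_eq_mul]
        show (u 0 * y' 1 - u 1 * y' 0) * v 1
          = (v 0 * y' 1 - v 1 * y' 0) * u 1 + (u 0 * v 1 - u 1 * v 0) * y' 1
        ring
    have h2 := congrArg (bf J₁ u) hcr
    rw [bf_smul_right, bf_add_right, bf_smul_right, bf_smul_right, hS0u, hT.alt₁ u, hy'] at h2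
    have h3 : u 0 * v 1 = u 1 * v 0 := by linear_combination -h2
    have h4 : ∃ c : F, v = c • u := by
      by_cases h0 : u 0 = 0
      · have h1 : u 1 ≠ 0 := by
          intro h1
          apply hu
          ext i
          fin_cases i
          · exact h0
          · exact h1
        have hv0 : v 0 = 0 := by
          rw [h0, zero_mul] at h3
          rcases mul_eq_zero.mp h3.symm with h5 | h5
          · exact absurd h5 h1
          · exact h5
        refine ⟨v 1 / u 1, ?_⟩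
        ext i
        fin_cases i
        · show v 0 = v 1 / u 1 * u 0
          rw [hv0, h0, mul_zero]
        · show v 1 = v 1 / u 1 * u 1
          field_simp
      · refine ⟨v 0 / u 0, ?_⟩
        ext i
        fin_cases i
        · show v 0 = v 0 / u 0 * u 0
          field_simp
        · show v 1 = v 0 / u 0 * u 1
          field_simp
          linear_combination h3
    obtain ⟨c, hc⟩ := h4
    rw [hc, dotProduct_smul, hαu] at hαS
    simp at hαS
  obtain ⟨s, rfl⟩ := hSsc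
  -- remove the `S`-part
  have hRR : rk J₂ d d * rk J₂ d d = 0 := by rw [rk_mul_rk, hT.alt₂ d, zero_smul]
  have hDR : dm J₂ w d * rk J₂ d d = 0 := by
    rw [dm, Matrix.sub_mul, rk_mul_rk, rk_mul_rk, hT.alt₂ d, hdw, zero_smul, zero_smul, sub_zero]
  have hX : ((κ • rk J₁ e e) ⊗ₖ dm J₂ w d) * ((1 : Matrix (Fin 2) (Fin 2) F) ⊗ₖ rk J₂ d d)
      = 0 := by
    rw [← Matrix.mul_kronecker_mul, hDR, Matrix.kronecker_zero]
  have hY : ((s • (1 : Matrix (Fin 2) (Fin 2) F)) ⊗ₖ rk J₂ d d)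
      * ((1 : Matrix (Fin 2) (Fin 2) F) ⊗ₖ rk J₂ d d) = 0 := by
    rw [← Matrix.mul_kronecker_mul, hRR, Matrix.kronecker_zero]
  have hZ : (1 : Matrix (Fin 2) (Fin 2) F) ⊗ₖ tv J₂ d (-s)
      = 1 + (-s) • ((1 : Matrix (Fin 2) (Fin 2) F) ⊗ₖ rk J₂ d d) := by
    rw [tv, Matrix.kronecker_add, Matrix.one_kronecker_one, Matrix.kronecker_smul]
  have hY' : (s • (1 : Matrix (Fin 2) (Fin 2) F)) ⊗ₖ rk J₂ d d
      = s • ((1 : Matrix (Fin 2) (Fin 2) F) ⊗ₖ rk J₂ d d) := Matrix.smul_kronecker _ _ _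
  have hprod : (g : Matrix (Fin 2 × Fin b) (Fin 2 × Fin b) F)
      * ((1 : Matrix (Fin 2) (Fin 2) F) ⊗ₖ tv J₂ d (-s))
      = 1 + rk J₁ e e ⊗ₖ (κ • dm J₂ w d) := by
    rw [hg, hG, hZ, mul_add, mul_one, Matrix.mul_smul, add_mul, add_mul, one_mul, hX, hY, hY',
      Matrix.smul_kronecker, Matrix.kronecker_smul]
    rw [add_zero, add_zero, neg_smul]
    abel
  have hin : InM M (1 + rk J₁ e e ⊗ₖ (κ • dm J₂ w d)) := by
    rw [← hprod]
    exact (inM_of_mem hgM).mul (hR.1 d (-s))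
  obtain ⟨c, hc⟩ := hNSU _ e he hin
  obtain ⟨z, hz0, hz1, hz2⟩ := exists_perp2 hb (J₂ *ᵥ d) (J₂ *ᵥ w)
  have hzd : bf J₂ z d = 0 := hz1
  have hzw : bf J₂ z w = 0 := hz2
  have e1 := congrArg (fun A : Matrix (Fin b) (Fin b) F => A *ᵥ z) hc
  simp only [Matrix.smul_mulVec, dm_mulVec, Matrix.one_mulVec] at e1
  rw [hzd, hzw, zero_smul, zero_smul, sub_zero, smul_zero] at e1
  have hc0 : c = 0 := by
    by_contra hc0
    exact hz0 ((smul_eq_zero.mp e1.symm).resolve_left hc0)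
  have e2 := congrArg (fun A : Matrix (Fin b) (Fin b) F => A *ᵥ y) hc
  simp only [Matrix.smul_mulVec, dm_mulVec, Matrix.one_mulVec] at e2
  rw [hc0, zero_smul] at e2
  have e3 : bf J₂ y d • w - bf J₂ y w • d = 0 := (smul_eq_zero.mp e2).resolve_left hκ
  rw [hyd] at e3
  apply hind (-(bf J₂ y w))
  rw [neg_smul, one_smul] at e3
  rw [neg_smul]
  linear_combination (exp := 1) -e3

end Cfsg.Agent.Helper49.T5L1B
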